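import Cfsg.Agent.Lib.JComponents.PairOne

/-!
If `V₁ ≤ O₂(K₂ T)` then the centre of `W₁` is centralised by `K₂`.
-/

set_option autoImplicit false

open scoped IsMulCommutative commutatorElement

namespace CfsgLib.JComponents

open Cfsg CfsgLib.ThompsonJ Subgroup

variable {G : Type*} [Group G] [Finite G]

lemma two_mul_card_le {X Y : Subgroup G} (h : X ≤ Y) {y : G} (hy : y ∈ Y) (hyn : y ∉ X) :
    2 * Nat.card X ≤ Nat.card Y := by
  have e := card_mul_relIndex' h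
  have h0 : X.relIndex Y ≠ 0 := fun e0 => by
    rw [e0, mul_zero] at e; exact Nat.card_pos.ne' e.symm
  have h1 : X.relIndex Y ≠ 1 := fun e1 => hyn (relIndex_eq_one.1 e1 hy)
  rw [← e, mul_comm 2]
  exact Nat.mul_le_mul_left _ (by omega)

omit [Finite G] in
/-- A subgroup generated by pairwise commuting elements of square one. -/
lemma isElementaryAbelian_closure {S : Set G} (hc : ∀ a ∈ S, ∀ b ∈ S, a * b = b * a)
    (h2 : ∀ a ∈ S, a * a = 1) : IsElementaryAbelian 2 (closure S) := by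
  haveI : IsMulCommutative ↥(closure S) := isMulCommutative_closure hc
  refine ⟨inferInstance, fun y hy => ?_⟩
  rw [pow_two]
  induction hy using closure_induction with
  | mem y hy => exact h2 y hy
  | one => simp
  | mul a b ha hb iha ihb =>
    have hab : Commute a b :=
      congrArg Subtype.val (mul_comm' (⟨a, ha⟩ : ↥(closure S)) ⟨b, hb⟩)
    rw [hab.symm.mul_mul_mul_comm, iha, ihb, one_mul]
  | inv a _ ih => rw [← mul_inv_rev, ih, inv_one]

namespace FSide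

variable {T L K : Subgroup G} (h : FSide T L K)
include h

/-- An element of `T` outside `C_T(W)` inverts `K` modulo its core. -/
lemma conj_mul_mem_core {t x : G} (ht : t ∈ T) (htn : t ∉ qsOf T K) (hx : x ∈ K)
    (hxR : x ∉ pCoreOf 2 K) (hxo : Odd (orderOf x)) : t * x * t⁻¹ * x ∈ pCoreOf 2 K := by
  obtain ⟨w, hw, hw1, hwZ, -, hwT, -, -⟩ := h.exists_w
  have hx3 := comp_pow_three h.hK hx hxo
  have hxW : x ∈ normalizer (wOf K : Set G) := normalizer_le_normalizer_wOf K (le_normalizer hx)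
  set v := x * w * x⁻¹ with hv
  have hvW : v ∈ wOf K := conj_mem_of_mem_normalizer hxW hw
  have hv1 : v ≠ 1 := fun e => hw1 (by rwa [hv, mul_inv_eq_one, mul_eq_left] at e)
  have hvw : v ≠ w := fun e => hw1 (wOf_fpf h.hK hx hxR hxo hw (mul_inv_eq_iff_eq_mul.1 e))
  have hv3 : x * v * x⁻¹ = v * w := by
    rcases four_cases (wOf_card h.hK) (wOf_sq h.hK) hw hvW hw1 hv1 hvw
      (conj_mem_of_mem_normalizer hxW hvW) with e | e | e | e
    · exact absurd (by rwa [mul_inv_eq_one, mul_eq_left] at e) hv1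
    · refine absurd ?_ hvw
      calc v = x * (x * v * x⁻¹) * x⁻¹ := by rw [e]
        _ = (x * x * x) * w * (x * x * x)⁻¹ := by rw [hv]; group
        _ = w := by rw [hx3]; group
    · exact absurd (wOf_fpf h.hK hx hxR hxo hvW (mul_inv_eq_iff_eq_mul.1 e)) hv1
    · exact e
  have htv : t * v * t⁻¹ = v * w := by
    refine (h.eq_or_eq_mul hw hw1 hwT ht hvW).resolve_left fun e => htn (mem_inf.2 ⟨ht, ?_⟩)
    exact mem_centralizer_iff.2 fun y hy => (mul_inv_eq_iff_eq_mul.1 (four_neighbours e (hwT t ht)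
      (four_cases (wOf_card h.hK) (wOf_sq h.hK) hw hvW hw1 hv1 hvw hy))).symm
  have htw : t⁻¹ * w * t = w := by
    have := hwT t⁻¹ (T.inv_mem ht)
    rwa [inv_inv] at this
  have htv' : t⁻¹ * (v * w) * t = v := by rw [← htv]; group
  have htv'' : t⁻¹ * v * t = v * w := by
    calc t⁻¹ * v * t = (t⁻¹ * (v * w) * t) * (t⁻¹ * w * t)⁻¹ := by group
      _ = v * w := by rw [htv', htw, inv_eq_of_mul_eq_one_right (wOf_sq h.hK w hw)]
  have e1 : t * x * t⁻¹ * x * w * (t * x * t⁻¹ * x)⁻¹ = w := by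
    calc _ = t * (x * (t⁻¹ * (x * w * x⁻¹) * t) * x⁻¹) * t⁻¹ := by group
      _ = t * (x * (v * w) * x⁻¹) * t⁻¹ := by rw [← hv, htv'']
      _ = t * ((x * v * x⁻¹) * (x * w * x⁻¹)) * t⁻¹ := by group
      _ = t * w * t⁻¹ := by
        rw [hv3, ← hv, commute_of_mem (wOf_elem h.hK) hvW hw, mul_assoc w v v, wOf_sq h.hK v hvW,
          mul_one]
      _ = w := hwT t ht
  have e2 : t * x * t⁻¹ * x * v * (t * x * t⁻¹ * x)⁻¹ = v := by
    calc _ = t * (x * (t⁻¹ * (x * v * x⁻¹) * t) * x⁻¹) * t⁻¹ := by group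
      _ = t * (x * v * x⁻¹) * t⁻¹ := by conv_lhs => rw [hv3, htv']
      _ = (t * v * t⁻¹) * (t * w * t⁻¹) := by rw [hv3]; group
      _ = v := by rw [htv, hwT t ht, mul_assoc, wOf_sq h.hK w hw, mul_one]
  rw [← centralizer_inf_comp h.hK]
  refine mem_inf.2 ⟨K.mul_mem (conj_mem_of_mem_normalizer (h.norm ht) hx) hx,
    mem_centralizer_iff.2 fun y hy => ?_⟩
  exact (mul_inv_eq_iff_eq_mul.1
    (four_neighbours e2 e1 (four_cases (wOf_card h.hK) (wOf_sq h.hK) hw hvW hw1 hv1 hvw hy))).symm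

lemma zJ_le_v : zJ T ≤ vOf T K := h.zJ_le_omega_qs

/-- A subgroup of `T` centralising `W` and `Ω₁(Z(J))` centralises `V`. -/
lemma mem_qs_iff {t : G} (ht : t ∈ T) : t ∈ qsOf T K ↔ ∀ v ∈ vOf T K, t * v = v * t :=
  ⟨fun hq v hv => (mem_centralizer_iff.1 (h.qs_le_centralizer_v hq) v hv).symm,
    fun hc => h.mem_qs_of_centralizes ht (mem_centralizer_iff.2 fun v hv => (hc v hv).symm)⟩

end FSide

section central

variable {T L₁ K₁ L₂ K₂ : Subgroup G} (h₁ : FSide T L₁ K₁) (h₂ : FSide T L₂ K₂) (hne : L₁ ≠ L₂)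
include h₁ h₂ hne

/-- Some element of `O₂(K₂T)` moves `V₁`. -/
lemma exists_moving : ∃ q ∈ qsOf T K₂, q ∉ qsOf T K₁ := by
  by_contra! hall
  have hle : qsOf T K₂ ≤ qsOf T K₁ := hall
  have e : qsOf T K₂ = qsOf T K₁ := eq_of_le_of_card_ge hle (by
    have a := h₁.card_qs; have b := h₂.card_qs; omega)
  refine hne (h₁.toSide.eq_of_normalizes h₂.toSide
    (h₁.toSide.isPGroup.to_le inf_le_left) ?_
    ((sup_le_sup_left (thompsonSubgroupOf_le 2 T) _).trans h₁.sup_le_normalizer_qs) ?_)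
  · intro hbot
    have h0 := h₁.card_qs
    obtain ⟨w, -, hw1, hwZ, -⟩ := h₁.exists_w
    exact hw1 (mem_bot.1 (hbot ▸ h₁.zJ_le_qs hwZ))
  · have h' := (sup_le_sup_left (thompsonSubgroupOf_le 2 T) K₂).trans h₂.sup_le_normalizer_qs
    rwa [e] at h'

theorem centre_mem_cOf (hb : vOf T K₁ ≤ qsOf T K₂) {w₁ : G} (hw₁W : w₁ ∈ wOf K₁)
    (hw₁Z : w₁ ∈ zJ T) (hw₁1 : w₁ ≠ 1) : w₁ ∈ cOf T K₂ := by
  by_contra hnc
  obtain ⟨w₂, hw₂, hw₂1, hw₂Z, hw₂c, hw₂T, -, hdec⟩ := h₂.exists_w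
  obtain ⟨γ, hγ, hdec'⟩ := hdec w₁ hw₁Z
  have hw₁e : w₁ = γ * w₂ := hdec'.resolve_left fun e => hnc (e ▸ hγ)
  have hw₁T : ∀ t ∈ T, t * w₁ * t⁻¹ = w₁ := fun t ht =>
    mul_inv_eq_iff_eq_mul.2 (mem_centralizer_iff.1 (h₁.central ht) w₁ hw₁Z).symm
  obtain ⟨x, hx, hxR, hxo⟩ := comp_exists_odd h₂.hK
  have hx3 := comp_pow_three h₂.hK hx hxo
  have hxγ : x * γ * x⁻¹ = γ := mul_inv_eq_iff_eq_mul.2 (mem_centralizer_iff.1 hγ.2 x hx)
  obtain ⟨y, hy, hyR, hyo⟩ := comp_exists_odd h₁.hK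
  obtain ⟨v, hv⟩ : ∃ b, b = y * w₁ * y⁻¹ := ⟨_, rfl⟩
  have hvW : v ∈ wOf K₁ := by
    rw [hv]
    exact conj_mem_of_mem_normalizer (normalizer_le_normalizer_wOf K₁ (le_normalizer hy)) hw₁W
  have hv1 : v ≠ 1 := fun e => hw₁1 (by rwa [hv, mul_inv_eq_one, mul_eq_left] at e)
  have hvw : v ≠ w₁ := fun e =>
    hw₁1 (wOf_fpf h₁.hK hy hyR hyo hw₁W (mul_inv_eq_iff_eq_mul.1 (hv ▸ e)))
  have hvV : v ∈ vOf T K₁ := h₁.wOf_le_omega_qs hvW
  have hvQ : v ∈ qsOf T K₂ := hb hvV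
  have hW₁ : ∀ t ∈ T, t * v * t⁻¹ = v ∨ t * v * t⁻¹ = v * w₁ := fun t ht =>
    h₁.eq_or_eq_mul hw₁W hw₁1 hw₁T ht hvW
  have hfixv : ∀ t ∈ T, t * v * t⁻¹ = v → ∀ u ∈ vOf T K₁, t * u = u * t := by
    intro t ht e u hu
    refine (h₁.mem_qs_iff ht).1 (mem_inf.2 ⟨ht, mem_centralizer_iff.2 fun a ha => ?_⟩) u hu
    exact (mul_inv_eq_iff_eq_mul.1 (four_neighbours e (hw₁T t ht)
      (four_cases (wOf_card h₁.hK) (wOf_sq h₁.hK) hw₁W hvW hw₁1 hv1 hvw ha))).symm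
  have hxQ : x ∈ normalizer (qsOf T K₂ : Set G) := h₂.sup_le_normalizer_qs (mem_sup_left hx)
  have hxV : x ∈ normalizer (vOf T K₂ : Set G) := normalizer_le_normalizer_omegaCenterOf _ hxQ
  obtain ⟨v', hv'⟩ : ∃ b, b = x * v * x⁻¹ := ⟨_, rfl⟩
  obtain ⟨v'', hv''⟩ : ∃ b, b = x * v' * x⁻¹ := ⟨_, rfl⟩
  have hv'Q : v' ∈ qsOf T K₂ := hv' ▸ conj_mem_of_mem_normalizer hxQ hvQ
  have hv''Q : v'' ∈ qsOf T K₂ := hv'' ▸ conj_mem_of_mem_normalizer hxQ hv'Q
  have hv''' : x * v'' * x⁻¹ = v := by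
    calc x * v'' * x⁻¹ = (x * x * x) * v * (x * x * x)⁻¹ := by rw [hv'', hv']; group
      _ = v := by rw [hx3]; group
  have hvv : v * v = 1 := wOf_sq h₁.hK v hvW
  have hv'v' : v' * v' = 1 := by
    calc v' * v' = x * (v * v) * x⁻¹ := by rw [hv']; group
      _ = 1 := by rw [hvv]; group
  -- the conjugates commute
  have hcomm : v * v' = v' * v := by
    by_contra hn
    have e1 : v' * v * v'⁻¹ = v * w₁ :=
      (hW₁ v' hv'Q.1).resolve_left fun e => hn (mul_inv_eq_iff_eq_mul.1 e).symm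
    have hq : x⁻¹ * v * x ∈ qsOf T K₂ := conj_inv_mem_of_mem_normalizer hxQ hvQ
    have e2 : v * v' * v⁻¹ = v' * (x * w₁ * x⁻¹) := by
      have hne' : (x⁻¹ * v * x) * v * (x⁻¹ * v * x)⁻¹ ≠ v := fun e => hn (by
        refine mul_inv_eq_iff_eq_mul.1 ?_
        calc v * v' * v⁻¹ = x * ((x⁻¹ * v * x) * v * (x⁻¹ * v * x)⁻¹) * x⁻¹ := by rw [hv']; group
          _ = v' := by rw [e, hv'])
      calc v * v' * v⁻¹ = x * ((x⁻¹ * v * x) * v * (x⁻¹ * v * x)⁻¹) * x⁻¹ := by rw [hv']; group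
        _ = x * (v * w₁) * x⁻¹ := by rw [(hW₁ _ hq.1).resolve_left hne']
        _ = _ := by rw [hv']; group
    have hvi : v⁻¹ = v := inv_eq_of_mul_eq_one_right hvv
    have hv'i : v'⁻¹ = v' := inv_eq_of_mul_eq_one_right hv'v'
    have f1 : w₁ = v * v' * v * v' := by
      calc w₁ = v⁻¹ * (v * w₁) := by group
        _ = v⁻¹ * (v' * v * v'⁻¹) := by rw [e1]
        _ = v * v' * v * v' := by rw [hvi, hv'i, ← mul_assoc, ← mul_assoc]
    have f2 : x * w₁ * x⁻¹ = v' * v * v' * v := by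
      calc x * w₁ * x⁻¹ = v'⁻¹ * (v' * (x * w₁ * x⁻¹)) := by group
        _ = v'⁻¹ * (v * v' * v⁻¹) := by rw [e2]
        _ = v' * v * v' * v := by rw [hvi, hv'i, ← mul_assoc, ← mul_assoc]
    have hw1i : w₁⁻¹ = w₁ := inv_eq_of_mul_eq_one_right (wOf_sq h₁.hK w₁ hw₁W)
    refine hnc (h₂.mem_cOf_of_fixed hx hxR hw₁Z (mul_inv_eq_iff_eq_mul.1 ?_))
    rw [f2]
    conv_rhs => rw [← hw1i, f1, mul_inv_rev, mul_inv_rev, mul_inv_rev, hvi, hv'i]
    rw [← mul_assoc, ← mul_assoc]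
  have hcomm' : v' * v'' = v'' * v' := by
    calc v' * v'' = x * (v * v') * x⁻¹ := by rw [hv'', hv']; group
      _ = x * (v' * v) * x⁻¹ := by rw [hcomm]
      _ = v'' * v' := by rw [hv'', hv']; group
  have hcomm'' : v'' * v = v * v'' := by
    calc v'' * v = (x * v' * x⁻¹) * (x * v'' * x⁻¹) := by rw [hv''', ← hv'']
      _ = x * (v' * v'') * x⁻¹ := by group
      _ = x * (v'' * v') * x⁻¹ := by rw [hcomm']
      _ = v * v'' := by
        rw [show x * (v'' * v') * x⁻¹ = (x * v'' * x⁻¹) * (x * v' * x⁻¹) by group, hv''', ← hv'']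
  set V₂ := vOf T K₂ with hV₂
  have hV₂e := isElementaryAbelian_omegaCenterOf (qsOf T K₂)
  have hV₂Q : ∀ q ∈ qsOf T K₂, ∀ u ∈ V₂, q * u = u * q := fun q hq u hu =>
    omegaCenterOf_le_centralizer _ hu q hq
  set U := closure ((V₂ : Set G) ∪ {v, v', v''}) with hUdef
  have hUe : IsElementaryAbelian 2 U := by
    have hS : ∀ a ∈ ({v, v', v''} : Set G), a ∈ qsOf T K₂ := by
      rintro a (rfl | rfl | rfl) <;> assumption
    refine isElementaryAbelian_closure ?_ ?_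
    · rintro a (ha | ha) b (hb' | hb')
      · exact commute_of_mem hV₂e ha hb'
      · exact (hV₂Q b (hS b hb') a ha).symm
      · exact hV₂Q a (hS a ha) b hb'
      · rcases ha with rfl | rfl | rfl <;> rcases hb' with rfl | rfl | rfl
        · rfl
        · exact hcomm
        · exact hcomm''.symm
        · exact hcomm.symm
        · rfl
        · exact hcomm'
        · exact hcomm''
        · exact hcomm'.symm
        · rfl
    · rintro a (ha | ha | ha | ha)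
      · exact mul_self_of_mem hV₂e ha
      · rw [ha]; exact hvv
      · rw [ha]; exact hv'v'
      · rw [ha]
        calc v'' * v'' = x * (v' * v') * x⁻¹ := by rw [hv'']; group
          _ = 1 := by rw [hv'v']; group
  have hvU : v ∈ U := subset_closure (Or.inr (Or.inl rfl))
  have hv'U : v' ∈ U := subset_closure (Or.inr (Or.inr (Or.inl rfl)))
  have hv''U : v'' ∈ U := subset_closure (Or.inr (Or.inr (Or.inr rfl)))
  have hV₂U : V₂ ≤ U := fun u hu => subset_closure (Or.inl hu)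
  have hUQ : U ≤ qsOf T K₂ := (closure_le _).2 (by
    rintro a (ha | rfl | rfl | rfl)
    · exact h₂.v_le ha
    all_goals assumption)
  -- the coset of `v'` differs from that of `v`
  have hnorm : v * v' ∉ V₂ := by
    intro hz
    obtain ⟨q, hq, hqn⟩ := exists_moving h₁ h₂ hne
    have e1 : q * v * q⁻¹ = v * w₁ := by
      refine (hW₁ q hq.1).resolve_left fun e => hqn ?_
      exact (h₁.mem_qs_iff hq.1).2 fun u hu => hfixv q hq.1 e u hu
    have hz' : v' = v * (v * v') := by rw [← mul_assoc, hvv, one_mul]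
    have e2 : q * v' * q⁻¹ = v' * w₁ := by
      calc q * v' * q⁻¹ = (q * v * q⁻¹) * (q * (v * v') * q⁻¹) := by
            conv_lhs => rw [hz']
            group
        _ = v * w₁ * (v * v') := by
          rw [e1, mul_inv_eq_iff_eq_mul.2 (hV₂Q q hq _ hz)]
        _ = v * ((v * v') * w₁) := by
          rw [mul_assoc v w₁, commute_of_mem hV₂e hz (h₂.zJ_le_v hw₁Z)]
        _ = v' * w₁ := by rw [← mul_assoc v, ← hz']
    have hq' : x⁻¹ * q * x ∈ qsOf T K₂ := conj_inv_mem_of_mem_normalizer hxQ hq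
    have e3 : q * v' * q⁻¹ = x * ((x⁻¹ * q * x) * v * (x⁻¹ * q * x)⁻¹) * x⁻¹ := by
      rw [hv']; group
    rcases hW₁ _ hq'.1 with e | e <;> rw [e, e2] at e3
    · rw [← hv', mul_eq_left] at e3
      exact hw₁1 e3
    · rw [show x * (v * w₁) * x⁻¹ = v' * (x * w₁ * x⁻¹) by rw [hv']; group] at e3
      exact hnc (h₂.mem_cOf_of_fixed hx hxR hw₁Z
        (mul_inv_eq_iff_eq_mul.1 (mul_left_cancel e3).symm))
  -- an elementary abelian subgroup of largest order outside `O₂(K₂T)`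
  obtain ⟨w, -, -, -, -, -, ⟨A, hA, hAC⟩, -⟩ := comp_max h₂.hK h₂.toSide.isPGroup
  obtain ⟨a, ha, haW⟩ := SetLike.not_le_iff_exists.1 hAC
  have haT : a ∈ T := hA.le ha
  have haq : a ∉ qsOf T K₂ := fun e => haW (mem_inf.1 e).2
  have hai : a⁻¹ = a := inv_eq_self_of_mem hA.elem ha
  have haV : a ∈ normalizer (V₂ : Set G) := h₂.normalizer_v (mem_sup_right haT)
  set k := a * x * a⁻¹ * x with hk
  have hkR : k ∈ qsOf T K₂ :=
    h₂.coreLocal_le_qs (h₂.componentCore_le (h₂.conj_mul_mem_core haT haq hx hxR hxo))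
  -- `a` maps `v'` into the coset of `v''`
  have hav' : a * v' * a⁻¹ * v''⁻¹ ∈ V₂ := by
    have hxxw : x⁻¹ * w₁ * x ∈ V₂ := conj_inv_mem_of_mem_normalizer hxV (h₂.zJ_le_v hw₁Z)
    have hx'' : x⁻¹ * v * x = v'' := by rw [← hv''']; group
    obtain ⟨z, hz, hzv⟩ : ∃ z ∈ V₂, x⁻¹ * (a * v * a⁻¹) * x = v'' * z := by
      rcases hW₁ a haT with e | e <;> rw [e]
      · exact ⟨1, V₂.one_mem, by rw [hx'', mul_one]⟩
      · exact ⟨_, hxxw, by rw [← hx'']; group⟩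
    have hq : x * k * x⁻¹ ∈ qsOf T K₂ := conj_mem_of_mem_normalizer hxQ hkR
    obtain ⟨z', hz', hk''⟩ : ∃ z ∈ V₂, k * v'' * k⁻¹ = z * v'' := by
      have e0 : k * v'' * k⁻¹ = x⁻¹ * ((x * k * x⁻¹) * v * (x * k * x⁻¹)⁻¹) * x := by
        rw [← hx'']; group
      rcases hW₁ _ hq.1 with e | e <;> rw [e] at e0
      · exact ⟨1, V₂.one_mem, by rw [e0, hx'', one_mul]⟩
      · refine ⟨_, hxxw, ?_⟩
        rw [e0, ← hV₂Q v'' hv''Q _ hxxw, ← hx'']
        group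
    have e : a * v' * a⁻¹ = z' * v'' * z := by
      calc a * v' * a⁻¹ = (a * x * a⁻¹ * x) * (x⁻¹ * (a * v * a⁻¹) * x) *
            (a * x * a⁻¹ * x)⁻¹ := by rw [hv']; group
        _ = k * (v'' * z) * k⁻¹ := by rw [hzv, hk]
        _ = (k * v'' * k⁻¹) * (k * z * k⁻¹) := by group
        _ = z' * v'' * z := by rw [hk'', mul_inv_eq_iff_eq_mul.2 (hV₂Q k hkR z hz)]
    rw [e, mul_assoc z' v'' z, hV₂Q v'' hv''Q z hz, ← mul_assoc, mul_inv_cancel_right]
    exact V₂.mul_mem hz' hz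
  set v₀ := a * v' * a⁻¹ with hv₀
  have hv₀U : v₀ ∈ U := by
    have := U.mul_mem (hV₂U hav') hv''U
    rwa [inv_mul_cancel_right] at this
  -- the filtration
  let X₁ : Subgroup G :=
    { carrier := {u | u ∈ U ∧ a * u * a⁻¹ * u⁻¹ ∈ V₂}
      one_mem' := ⟨U.one_mem, by simp⟩
      mul_mem' := fun {p q} hp hq => ⟨U.mul_mem hp.1 hq.1, by
        have hz := hq.2
        rw [show a * (p * q) * a⁻¹ * (p * q)⁻¹ =
          (a * p * a⁻¹ * p⁻¹) * (p * (a * q * a⁻¹ * q⁻¹) * p⁻¹) by group,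
          commute_of_mem hUe hp.1 (hV₂U hz), mul_inv_cancel_right]
        exact V₂.mul_mem hp.2 hz⟩
      inv_mem' := fun {p} hp => by rw [inv_eq_self_of_mem hUe hp.1]; exact hp }
  have hX₁U : X₁ ≤ U := fun _ h => h.1
  have hV₂X : ∀ u ∈ V₂, u ∈ X₁ := fun u hu =>
    ⟨hV₂U hu, V₂.mul_mem (conj_mem_of_mem_normalizer haV hu) (V₂.inv_mem hu)⟩
  have hv'X : v' ∉ X₁ := by
    intro hh
    have h1 : v'' * v'⁻¹ ∈ V₂ := by
      have := V₂.mul_mem (V₂.inv_mem hav') hh.2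
      rwa [show (a * v' * a⁻¹ * v''⁻¹)⁻¹ * (a * v' * a⁻¹ * v'⁻¹) = v'' * v'⁻¹ by group] at this
    refine hnorm ?_
    have h2 := conj_inv_mem_of_mem_normalizer hxV h1
    rw [show x⁻¹ * (v'' * v'⁻¹) * x = v' * v⁻¹ by rw [hv'', hv']; group,
      inv_eq_of_mul_eq_one_right hvv] at h2
    rwa [hcomm]
  set r := x * w₂ * x⁻¹ with hr
  have hrW : r ∈ wOf K₂ :=
    conj_mem_of_mem_normalizer (normalizer_le_normalizer_wOf K₂ (le_normalizer hx)) hw₂
  have hrV : r ∈ V₂ := h₂.wOf_le_omega_qs hrW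
  have hr1 : r ≠ 1 := fun e => hw₂1 (by rwa [hr, mul_inv_eq_one, mul_eq_left] at e)
  have hrw : r ≠ w₂ := fun e => hw₂1 (wOf_fpf h₂.hK hx hxR hxo hw₂ (mul_inv_eq_iff_eq_mul.1 e))
  have har : a * r * a⁻¹ = r * w₂ := by
    refine (h₂.eq_or_eq_mul hw₂ hw₂1 hw₂T haT hrW).resolve_left fun e => haq ?_
    exact mem_inf.2 ⟨haT, mem_centralizer_iff.2 fun b hb => (mul_inv_eq_iff_eq_mul.1
      (four_neighbours e (hw₂T a haT)
        (four_cases (wOf_card h₂.hK) (wOf_sq h₂.hK) hw₂ hrW hw₂1 hr1 hrw hb))).symm⟩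
  -- the part of `A` fixing `W₂`
  set A₀ := A ⊓ qsOf T K₂ with hA₀
  set B₁ := A₀ ⊓ centralizer ({v} : Set G) with hB₁
  set B₂ := B₁ ⊓ centralizer ({v'} : Set G) with hB₂
  set C := A ⊓ centralizer (U : Set G) with hC
  set N := U ⊓ centralizer (A : Set G) with hN
  have hA₀2 : Nat.card A ≤ 2 * Nat.card A₀ :=
    card_le_two_mul inf_le_left fun b hb b' hb' hn hn' => mem_inf.2 ⟨A.mul_mem hb hb',
      h₂.mul_mem_qs (hA.le hb) (hA.le hb') (fun e => hn (mem_inf.2 ⟨hb, e⟩))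
        (fun e => hn' (mem_inf.2 ⟨hb', e⟩))⟩
  have hmove : ∀ b ∈ A₀, b ∉ B₁ → b * v * b⁻¹ = v * w₁ := fun b hb hn =>
    (hW₁ b (hA.le hb.1)).resolve_left fun e => hn (mem_inf.2 ⟨hb,
      mem_centralizer_singleton_iff.2 (mul_inv_eq_iff_eq_mul.1 e)⟩)
  set w' := x * w₁ * x⁻¹ with hw'
  have hw'V : w' ∈ V₂ := conj_mem_of_mem_normalizer hxV (h₂.zJ_le_v hw₁Z)
  have hmove' : ∀ b ∈ A₀, b * v' * b⁻¹ ≠ v' → b * v' * b⁻¹ = v' * w' := by
    intro b hb hn
    have hb' : x⁻¹ * b * x ∈ qsOf T K₂ := conj_inv_mem_of_mem_normalizer hxQ (mem_inf.1 hb).2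
    have e0 : b * v' * b⁻¹ = x * ((x⁻¹ * b * x) * v * (x⁻¹ * b * x)⁻¹) * x⁻¹ := by
      rw [hv']; group
    rcases hW₁ _ hb'.1 with e | e <;> rw [e] at e0
    · exact absurd (e0.trans hv'.symm) hn
    · rw [e0, hv', hw']; group
  have hB₁2 : Nat.card A₀ ≤ 2 * Nat.card B₁ :=
    card_le_two_mul inf_le_left fun b hb b' hb' hn hn' => mem_inf.2 ⟨A₀.mul_mem hb hb',
      mem_centralizer_singleton_iff.2 (mul_inv_eq_iff_eq_mul.1 (by
        calc b * b' * v * (b * b')⁻¹ = b * (b' * v * b'⁻¹) * b⁻¹ := by group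
          _ = (b * v * b⁻¹) * (b * w₁ * b⁻¹) := by rw [hmove b' hb' hn']; group
          _ = v := by rw [hmove b hb hn, hw₁T b (hA.le hb.1), mul_assoc,
              wOf_sq h₁.hK w₁ hw₁W, mul_one]))⟩
  have hnfix : ∀ b ∈ B₁, b ∉ B₂ → b * v' * b⁻¹ ≠ v' := fun b hb hn e =>
    hn (mem_inf.2 ⟨hb, mem_centralizer_singleton_iff.2 (mul_inv_eq_iff_eq_mul.1 e)⟩)
  have hB₂2 : Nat.card B₁ ≤ 2 * Nat.card B₂ :=
    card_le_two_mul inf_le_left fun b hb b' hb' hn hn' => mem_inf.2 ⟨B₁.mul_mem hb hb',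
      mem_centralizer_singleton_iff.2 (mul_inv_eq_iff_eq_mul.1 (by
        calc b * b' * v' * (b * b')⁻¹ = b * (b' * v' * b'⁻¹) * b⁻¹ := by group
          _ = (b * v' * b⁻¹) * (b * w' * b⁻¹) := by
            rw [hmove' b' hb'.1 (hnfix b' hb' hn')]; group
          _ = v' := by rw [hmove' b hb.1 (hnfix b hb hn),
              mul_inv_eq_iff_eq_mul.2 (hV₂Q b (mem_inf.1 hb.1).2 w' hw'V), mul_assoc,
              mul_self_of_mem hV₂e hw'V, mul_one]))⟩
  have hcen : ∀ b ∈ A₀, b * v = v * b → b * v' = v' * b → b * v'' = v'' * b := by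
    intro b hb hbv hbv'
    have hba : b * a = a * b := commute_of_mem hA.elem hb.1 ha
    have h0 : b * v₀ = v₀ * b := by
      rw [hv₀, hai]
      calc b * (a * v' * a) = (b * a) * v' * a := by group
        _ = a * (b * v') * a := by rw [hba]; group
        _ = a * v' * (b * a) := by rw [hbv']; group
        _ = a * v' * a * b := by rw [hba]; group
    have hz := hV₂Q b (mem_inf.1 hb).2 _ hav'
    have e : v'' = (v₀ * v''⁻¹)⁻¹ * v₀ := by group
    rw [e]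
    exact ((show Commute b _ from hz).inv_right.mul_right h0).eq
  have hB₂C : B₂ ≤ C := by
    intro b hb
    have hbA : b ∈ A₀ := hb.1.1
    refine mem_inf.2 ⟨hbA.1, ?_⟩
    have hbv := mem_centralizer_singleton_iff.1 hb.1.2
    have hbv' := mem_centralizer_singleton_iff.1 hb.2
    have hle : U ≤ centralizer ({b} : Set G) := (closure_le _).2 (by
      rintro u (hu | rfl | rfl | rfl)
      · exact mem_centralizer_singleton_iff.2 (hV₂Q b (mem_inf.1 hbA).2 u hu).symm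
      · exact mem_centralizer_singleton_iff.2 hbv.symm
      · exact mem_centralizer_singleton_iff.2 hbv'.symm
      · exact mem_centralizer_singleton_iff.2 (hcen b hbA hbv hbv').symm)
    exact mem_centralizer_iff.2 fun u hu => mem_centralizer_singleton_iff.1 (hle hu)
  -- the fundamental inequality
  have hineq : Nat.card C * Nat.card U ≤ Nat.card A * Nat.card N := by
    refine (card_sup_le hA (inf_le_left.trans hA.le) (isElementaryAbelian_mono hA.elem inf_le_left)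
      (hUQ.trans inf_le_left) hUe inf_le_right).trans (Nat.mul_le_mul_left _ ?_)
    refine card_le_of_le (le_inf inf_le_right ?_)
    exact inf_le_left.trans (inf_le_left.trans (isElementaryAbelian_le_centralizer hA.elem))
  -- doubling steps
  have hstep : ∀ (X : Subgroup G) (b u : G), u ∈ X → b * u * b⁻¹ ≠ u →
      2 * Nat.card ↥(X ⊓ centralizer ({b} : Set G)) ≤ Nat.card X := fun X b u hu hn =>
    two_mul_card_le inf_le_left hu fun hh =>
      hn (mul_inv_eq_iff_eq_mul.2 (mem_centralizer_singleton_iff.1 (mem_inf.1 hh).2).symm)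
  have hNX : N ≤ X₁ := fun u hu => ⟨hu.1, by
    rw [mul_inv_eq_iff_eq_mul.2 (mem_centralizer_iff.1 hu.2 a ha), mul_inv_cancel]
    exact V₂.one_mem⟩
  have hNb : ∀ b ∈ A, N ≤ centralizer ({b} : Set G) := fun b hb u hu =>
    mem_centralizer_singleton_iff.2 (mem_centralizer_iff.1 hu.2 b hb).symm
  have h1 : 2 * Nat.card X₁ ≤ Nat.card U := two_mul_card_le hX₁U hv'U hv'X
  have harne : a * r * a⁻¹ ≠ r := by rw [har, ne_eq, mul_eq_left]; exact hw₂1
  have hrX : r ∈ X₁ := hV₂X r hrV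
  have hrfix : ∀ b ∈ A₀, r ∈ centralizer ({b} : Set G) := fun b hb =>
    mem_centralizer_singleton_iff.2 (hV₂Q b (mem_inf.1 hb).2 r hrV).symm
  have hvX : v ∈ X₁ := by
    refine ⟨hvU, ?_⟩
    rcases hW₁ a haT with e | e <;> rw [e]
    · simp
    · rw [commute_of_mem hUe hvU (hV₂U (h₂.zJ_le_v hw₁Z)), mul_inv_cancel_right]
      exact h₂.zJ_le_v hw₁Z
  set y₀ := v' * v₀ with hy₀
  have hay : a * y₀ * a⁻¹ = y₀ := by
    have haa : a * a = 1 := mul_self_of_mem hA.elem ha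
    calc a * (v' * v₀) * a⁻¹ = (a * v' * a⁻¹) * ((a * a) * v' * (a * a)⁻¹) := by rw [hv₀]; group
      _ = v₀ * v' := by rw [haa, hv₀]; group
      _ = v' * v₀ := commute_of_mem hUe hv₀U hv'U
  have hyX : y₀ ∈ X₁ := ⟨U.mul_mem hv'U hv₀U, by rw [hay, mul_inv_cancel]; exact V₂.one_mem⟩
  -- an element of `B₁ ∖ B₂` moves `y₀` by `w₂`
  have hby : ∀ b ∈ A₀, b * v' * b⁻¹ ≠ v' → b * y₀ * b⁻¹ ≠ y₀ := by
    intro b hb hn e
    have e1 := hmove' b hb hn
    have hba : b * a = a * b := commute_of_mem hA.elem hb.1 ha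
    have e2 : b * v₀ * b⁻¹ = v₀ * (a * w' * a⁻¹) := by
      calc b * v₀ * b⁻¹ = (b * a) * v' * (b * a)⁻¹ := by rw [hv₀]; group
        _ = a * (b * v' * b⁻¹) * a⁻¹ := by rw [hba]; group
        _ = v₀ * (a * w' * a⁻¹) := by rw [e1, hv₀]; group
    have hγV : γ ∈ V₂ := h₂.zJ_le_v hγ.1
    have haγ : a * γ * a⁻¹ = γ :=
      mul_inv_eq_iff_eq_mul.2 (mem_centralizer_iff.1 (h₂.central haT) γ hγ.1).symm
    have hw'e : w' = γ * r := by
      rw [hw', hw₁e, hr, show x * (γ * w₂) * x⁻¹ = (x * γ * x⁻¹) * (x * w₂ * x⁻¹) by group, hxγ]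
    have haw : w' * (a * w' * a⁻¹) = w₂ := by
      rw [hw'e, show a * (γ * r) * a⁻¹ = (a * γ * a⁻¹) * (a * r * a⁻¹) by group, haγ, har,
        show γ * r * (γ * (r * w₂)) = γ * (r * γ) * r * w₂ by group,
        commute_of_mem hV₂e hrV hγV, ← mul_assoc γ γ r, mul_self_of_mem hV₂e hγV, one_mul,
        mul_self_of_mem hV₂e hrV, one_mul]
    apply hw₂1
    have hy' : b * y₀ * b⁻¹ = y₀ * w₂ := by
      calc b * y₀ * b⁻¹ = (b * v' * b⁻¹) * (b * v₀ * b⁻¹) := by rw [hy₀]; group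
        _ = v' * (w' * v₀) * (a * w' * a⁻¹) := by rw [e1, e2]; group
        _ = v' * (v₀ * w') * (a * w' * a⁻¹) := by rw [commute_of_mem hUe (hV₂U hw'V) hv₀U]
        _ = y₀ * w₂ := by rw [← haw, hy₀]; group
    rw [hy', mul_eq_left] at e
    exact e
  have hlast : ∀ X : Subgroup G, r ∈ X → N ≤ X → 2 * Nat.card N ≤ Nat.card X := by
    intro X hr' hNX'
    refine le_trans ?_ (hstep X a r hr' harne)
    exact Nat.mul_le_mul_left 2 (card_le_of_le (le_inf hNX' (hNb a ha)))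
  have hCpos : 0 < Nat.card C := Nat.card_pos
  have hNpos : 0 < Nat.card N := Nat.card_pos
  have hfin : ∀ n m, n * Nat.card N ≤ Nat.card U → Nat.card A ≤ m * Nat.card C → m < n → False := by
    intro n m hn hm hlt
    have e : Nat.card C * (n * Nat.card N) ≤ (m * Nat.card C) * Nat.card N :=
      ((Nat.mul_le_mul_left _ hn).trans hineq).trans (Nat.mul_le_mul_right _ hm)
    have e' : n * (Nat.card C * Nat.card N) ≤ m * (Nat.card C * Nat.card N) :=
      (le_of_eq (by ring)).trans (e.trans (le_of_eq (by ring)))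
    exact absurd (Nat.le_of_mul_le_mul_right e' (Nat.mul_pos hCpos hNpos)) (not_le.2 hlt)
  have hAB : Nat.card B₂ ≤ Nat.card C := card_le_of_le hB₂C
  by_cases hE1 : A₀ ≤ B₁
  · have eA : Nat.card A₀ ≤ Nat.card B₁ := card_le_of_le hE1
    by_cases hE2 : B₁ ≤ B₂
    · have eB : Nat.card B₁ ≤ Nat.card B₂ := card_le_of_le hE2
      refine hfin 4 2 ?_ (by omega) (by norm_num)
      have := hlast X₁ hrX hNX
      omega
    · obtain ⟨b, hb, hbn⟩ := SetLike.not_le_iff_exists.1 hE2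
      have hbA : b ∈ A₀ := hb.1
      refine hfin 8 4 ?_ (by omega) (by norm_num)
      have s1 := hstep X₁ b y₀ hyX (hby b hbA (hnfix b hb hbn))
      have s2 := hlast (X₁ ⊓ centralizer ({b} : Set G)) (mem_inf.2 ⟨hrX, hrfix b hbA⟩)
        (le_inf hNX (hNb b hbA.1))
      omega
  · obtain ⟨b₀, hb₀, hb₀n⟩ := SetLike.not_le_iff_exists.1 hE1
    have hb₀v : b₀ * v * b₀⁻¹ ≠ v := by rw [hmove b₀ hb₀ hb₀n, ne_eq, mul_eq_left]; exact hw₁1
    by_cases hE2 : B₁ ≤ B₂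
    · have eB : Nat.card B₁ ≤ Nat.card B₂ := card_le_of_le hE2
      refine hfin 8 4 ?_ (by omega) (by norm_num)
      have s1 := hstep X₁ b₀ v hvX hb₀v
      have s2 := hlast (X₁ ⊓ centralizer ({b₀} : Set G)) (mem_inf.2 ⟨hrX, hrfix b₀ hb₀⟩)
        (le_inf hNX (hNb b₀ hb₀.1))
      omega
    · obtain ⟨b, hb, hbn⟩ := SetLike.not_le_iff_exists.1 hE2
      have hbA : b ∈ A₀ := hb.1
      refine hfin 16 8 ?_ (by omega) (by norm_num)
      have hvb : v ∈ centralizer ({b} : Set G) :=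
        mem_centralizer_singleton_iff.2 (mem_centralizer_singleton_iff.1 hb.2).symm
      have s1 := hstep X₁ b y₀ hyX (hby b hbA (hnfix b hb hbn))
      have s2 := hstep (X₁ ⊓ centralizer ({b} : Set G)) b₀ v (mem_inf.2 ⟨hvX, hvb⟩) hb₀v
      have s3 := hlast ((X₁ ⊓ centralizer ({b} : Set G)) ⊓ centralizer ({b₀} : Set G))
        (mem_inf.2 ⟨mem_inf.2 ⟨hrX, hrfix b hbA⟩, hrfix b₀ hb₀⟩)
        (le_inf (le_inf hNX (hNb b hbA.1)) (hNb b₀ hb₀.1))
      omega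

end central

end CfsgLib.JComponents
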