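import Cfsg.Agent.Lib.JComponents.Component
import Cfsg.Agent.Lib.LargeSubgroups.Closure

/-!
Conjugation and `J(T)`-components.
-/

set_option autoImplicit false

namespace CfsgLib.JComponents

open Cfsg CfsgLib.ThompsonJ Subgroup

variable {G : Type*} [Group G] [Finite G]

local notation "MC[" g "]" => Subgroup.map (MulEquiv.toMonoidHom (MulAut.conj g))

omit [Finite G] in
lemma map_oddGen (g : G) (X : Subgroup G) : MC[g] (oddGen X) = oddGen (MC[g] X) := by
  rw [oddGen, MonoidHom.map_closure, oddGen]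
  congr 1
  ext x
  constructor
  · rintro ⟨y, ⟨hy, ho⟩, rfl⟩
    exact ⟨⟨y, hy, rfl⟩, by
      rw [MulEquiv.coe_toMonoidHom, MulEquiv.orderOf_eq]; exact ho⟩
  · rintro ⟨⟨y, hy, rfl⟩, ho⟩
    rw [MulEquiv.coe_toMonoidHom, MulEquiv.orderOf_eq] at ho
    exact ⟨y, ⟨hy, ho⟩, rfl⟩

lemma map_wOf (g : G) (K : Subgroup G) : MC[g] (wOf K) = wOf (MC[g] K) := by
  rw [wOf, map_commutator, map_omegaCenterOf (MulAut.conj g).injective,
    LargeSubgroups.map_conj_pCoreOf, wOf]

omit [Finite G] in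
lemma thompson_conj (g : G) (X : Subgroup G) :
    thompsonSubgroupOf 2 (MC[g] X) = MC[g] (thompsonSubgroupOf 2 X) :=
  thompsonSubgroupOf_conj 2 X g

omit [Finite G] in
lemma map_conj_map_inv (g : G) (X : Subgroup G) : MC[g] (MC[g⁻¹] X) = X := by
  ext x
  simp [Subgroup.mem_map, mul_assoc]

theorem IsJComponent_conj {T K : Subgroup G} (hK : IsJComponent T K) (g : G) :
    IsJComponent (MC[g] T) (MC[g] K) := by
  obtain ⟨h1, h2, h3, h4, h5, h6⟩ := hK
  refine ⟨?_, ?_, ?_, fun S hS hJS => ?_, ?_, ?_⟩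
  · show oddGen _ = _
    rw [← map_oddGen, show oddGen K = K from h1]
  · rw [thompson_conj, ← map_commutator, h2]
  · rw [← LargeSubgroups.map_conj_pCoreOf,
      relIndex_map_map_of_injective _ _ (MulAut.conj g).injective, h3]
  · rw [thompson_conj] at hS hJS ⊢
    rw [← Subgroup.map_sup] at hS
    have hS' := isSylowTwoIn_conj hS g⁻¹
    have e : ∀ X : Subgroup G, MC[g⁻¹] (MC[g] X) = X := fun X => by
      have := map_conj_map_inv g⁻¹ X; rwa [inv_inv] at this
    rw [e] at hS'
    have h := h4 _ hS' (by rw [← e (thompsonSubgroupOf 2 T)]; exact map_mono hJS)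
    rw [thompson_conj] at h
    rw [← h, map_conj_map_inv]
  · rw [← map_wOf, card_map_of_injective (MulAut.conj g).injective, h5]
  · rw [← map_wOf]
    rintro _ ⟨w, hw, rfl⟩
    rw [← map_mul, h6 w hw, map_one]

end CfsgLib.JComponents
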