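import Cfsg.Agent.Lib.JComponents.Partner

/-!
The pair of sides attached to a maximal straddling 2-subgroup.
-/

set_option autoImplicit false

open scoped IsMulCommutative

namespace CfsgLib.JComponents

open Cfsg CfsgLib.ThompsonJ Subgroup

variable {G : Type*} [Group G] [Finite G] {M T : Subgroup G}

lemma Ctx.exists_pair (h : Ctx M T) (hO : pCore 2 G = ⊥) {K L : Subgroup G}
    (hK : K ∈ jComponentsOutside M T) (hL : IsMaximalTwoLocal L)
    (hKL : K ⊔ thompsonSubgroupOf 2 T ≤ L) : ∃ L' K', Pair T L K L' K' := by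
  obtain ⟨L₀, -, -, huniq, -, -, hLT⟩ := h.unique_local hK
  obtain rfl := huniq L hL hKL
  have hs : Side T L K := ⟨hL, hLT, hK.1.1, le_sup_left.trans hKL, huniq⟩
  obtain ⟨L', K', h', hne⟩ := exists_second_side h.zn hO hs
  exact ⟨L', K', pair_of_sides h.zn hs h' hne⟩

lemma Ctx.exists_pair' (h : Ctx M T) (hO : pCore 2 G = ⊥) :
    ∃ L₁ K₁ L₂ K₂, Pair T L₁ K₁ L₂ K₂ := by
  obtain ⟨K, hK⟩ := h.exists_outside
  obtain ⟨L, hL, hKL, -⟩ := h.unique_local hK
  obtain ⟨L', K', p⟩ := h.exists_pair hO hK hL hKL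
  exact ⟨L, K, L', K', p⟩

namespace Pair

variable {L₁ K₁ L₂ K₂ : Subgroup G} (p : Pair T L₁ K₁ L₂ K₂)
include p

lemma core_eq_sup : pCoreOf 2 (K₁ ⊔ T) = vOf T K₁ := by rw [← p.local_eq', p.core_eq]

/-- If `|Ω₁(Z(J(T)))| = 4` and `T` is not a Sylow subgroup, it has index two in `N(Ω₁(Z(J(T))))`. -/
lemma relIndex_normalizer_zJ (h4 : Nat.card (zJ T) = 4) {P : Subgroup G} (hP : IsPGroup 2 P)
    (hTP : T < P) : T.relIndex (normalizer (zJ T : Set G)) = 2 := by
  obtain ⟨g, hgP, hgT, hgn⟩ := exists_mem_normalizer_not_mem hP hTP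
  have hle : normalizer (T : Set G) ≤ normalizer (zJ T : Set G) :=
    (normalizer_le_normalizer_thompsonSubgroupOf 2 T).trans (normalizer_le_normalizer_omegaCenterOf _)
  have hge : normalizer (zJ T : Set G) ≤ normalizer (T : Set G) := fun y hy => by
    rw [← p.centralizer_zJ_eq h4]
    refine mem_normalizer_iff_map_conj_eq.2 ?_
    show Subgroup.map (MulAut.conj y).toMonoidHom (centralizer (zJ T : Set G)) = _
    rw [map_conj_centralizer, map_conj_of_mem hy]
  rw [le_antisymm hge hle]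
  have h1 := card_mul_relIndex' (le_normalizer (H := T))
  have h2 := p.card_normalizer_le
  have h3 : T.relIndex (normalizer (T : Set G)) ≠ 1 := fun e => hgT (relIndex_eq_one.1 e hgn)
  have h4 : T.relIndex (normalizer (T : Set G)) ≤ 2 := by
    rw [← h1, mul_comm 2] at h2
    exact Nat.le_of_mul_le_mul_left h2 Nat.card_pos
  have h5 : T.relIndex (normalizer (T : Set G)) ≠ 0 := fun e => by
    rw [e, mul_zero] at h1; exact Nat.card_pos.ne' h1.symm
  omega

end Pair

end CfsgLib.JComponents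

namespace CfsgLib.JComponents

open Cfsg CfsgLib.ThompsonJ Subgroup

lemma omegaCenterOf_ne_bot {G : Type*} [Group G] [Finite G] {X : Subgroup G} (hX : IsPGroup 2 X)
    (hX1 : X ≠ ⊥) : omegaCenterOf X ≠ ⊥ := by
  haveI : Fact (Nat.Prime 2) := ⟨Nat.prime_two⟩
  haveI : Nontrivial ↥X := X.nontrivial_iff_ne_bot.2 hX1
  haveI := hX.center_nontrivial
  obtain ⟨⟨c, hc⟩, hc1⟩ := exists_ne (1 : ↥(Subgroup.center ↥X))
  refine omegaOne_ne_bot ?_
  obtain ⟨k, hk⟩ := IsPGroup.iff_card.1 (hX.to_le (inf_le_left : X ⊓ centralizer (X : Set G) ≤ X))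
  rcases k with - | k
  · have hm : (c : G) ∈ X ⊓ centralizer (X : Set G) := ⟨c.2, mem_centralizer_iff.2 fun y hy =>
      congrArg Subtype.val (Subgroup.mem_center_iff.1 hc ⟨y, hy⟩)⟩
    rw [Subgroup.card_eq_one.1 (hk.trans (pow_zero 2)), mem_bot] at hm
    exact absurd (Subtype.ext (Subtype.ext hm)) hc1
  · exact hk ▸ dvd_pow_self 2 (by omega)

end CfsgLib.JComponents
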