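import Cfsg.Agent.Lib.JComponents.Final

/-!
The isomorphism type of the local subgroups of a pair.
-/

set_option autoImplicit false

open scoped IsMulCommutative

namespace CfsgLib.JComponents

open Cfsg CfsgLib.ThompsonJ Subgroup

variable {G : Type*} [Group G] [Finite G]

/-- An element of `⟨x⟩` is `1`, `x` or `x²` when `x³ = 1`. -/
lemma zpowers_cases {x y : G} (hx3 : x * x * x = 1) (hy : y ∈ zpowers x) :
    y = 1 ∨ y = x ∨ y = x * x := by
  obtain ⟨i, rfl⟩ := mem_zpowers_iff.1 hy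
  have h3 : x ^ (3 : ℤ) = 1 := by rw [show x ^ (3 : ℤ) = x * x * x by simp [zpow_ofNat, pow_succ]]; exact hx3
  have e : x ^ i = x ^ (i % 3) := by
    conv_lhs => rw [← Int.emod_add_mul_ediv i 3, zpow_add, zpow_mul, h3, one_zpow, mul_one]
  rcases (by omega : i % 3 = 0 ∨ i % 3 = 1 ∨ i % 3 = 2) with h | h | h <;> rw [e, h]
  · exact .inl (zpow_zero x)
  · exact .inr (.inl (zpow_one x))
  · exact .inr (.inr (by simp [zpow_ofNat, pow_two]))

namespace Pair

variable {T L₁ K₁ L₂ K₂ : Subgroup G} (p : Pair T L₁ K₁ L₂ K₂)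
include p

/-- An element of `K₁` of order three and an involution of `T` inverting it. -/
lemma exists_inverter : ∃ x ∈ K₁, x ∉ pCoreOf 2 K₁ ∧ Odd (orderOf x) ∧ x * x * x = 1 ∧
    ∃ h ∈ T, h ∉ vOf T K₁ ∧ h * h = 1 ∧ h * x * h⁻¹ = x⁻¹ := by
  obtain ⟨x, hx, hxR, hxo⟩ := comp_exists_odd p.h₁.hK
  have hx3 := comp_pow_three p.h₁.hK hx hxo
  refine ⟨x, hx, hxR, hxo, hx3, ?_⟩
  obtain ⟨-, -, -, -, j, hjT, -, hjn, -⟩ := p.h₁.exists_mover
  have hxV : x ∈ normalizer (vOf T K₁ : Set G) := p.h₁.normalizer_v (mem_sup_left hx)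
  obtain ⟨q, hq⟩ : ∃ q, q = j * x * j⁻¹ * x := ⟨_, rfl⟩
  have hqV : q ∈ vOf T K₁ := by
    rw [p.v_eq, hq]
    exact p.h₁.coreLocal_le_qs (p.h₁.componentCore_le (p.h₁.conj_mul_mem_core hjT hjn hx hxR hxo))
  obtain ⟨v, hv⟩ : ∃ v, v = x⁻¹ * q * x := ⟨_, rfl⟩
  have hvV : v ∈ vOf T K₁ := hv ▸ conj_inv_mem_of_mem_normalizer hxV hqV
  obtain ⟨b, hb⟩ : ∃ b, b = x⁻¹ * v * x := ⟨_, rfl⟩
  have hbV : b ∈ vOf T K₁ := hb ▸ conj_inv_mem_of_mem_normalizer hxV hvV
  have hnorm : q * v * b = 1 := by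
    have h1 : (j * x * j⁻¹) * (j * x * j⁻¹) * (j * x * j⁻¹) = 1 := by
      calc (j * x * j⁻¹) * (j * x * j⁻¹) * (j * x * j⁻¹) = j * (x * x * x) * j⁻¹ := by group
        _ = 1 := by rw [hx3]; group
    rw [show j * x * j⁻¹ = q * x⁻¹ by rw [hq]; group] at h1
    calc q * v * b = q * x⁻¹ * (q * x⁻¹) * (q * x⁻¹) * (x * x * x) := by rw [hb, hv]; group
      _ = 1 := by rw [h1, hx3, one_mul]
  have hvi : v⁻¹ = v := inv_eq_of_mul_eq_one_right (mul_self_of_mem p.v_elem hvV)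
  obtain ⟨h, hh⟩ : ∃ h, h = v * j := ⟨_, rfl⟩
  have hhT : h ∈ T := hh ▸ T.mul_mem (p.h₁.v_le_T hvV) hjT
  have hhV : h ∉ vOf T K₁ := fun e =>
    hjn (p.v_eq ▸ (Subgroup.mul_mem_cancel_left _ hvV).1 (hh ▸ e))
  have hinv : h * x * h⁻¹ = x⁻¹ := by
    calc h * x * h⁻¹ = v * (j * x * j⁻¹ * x) * (x⁻¹ * v⁻¹ * x) * x⁻¹ := by rw [hh]; group
      _ = v * q * b * x⁻¹ := by rw [← hq, hvi, ← hb]
      _ = x⁻¹ := by rw [commute_of_mem p.v_elem hvV hqV, hnorm, one_mul]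
  refine ⟨h, hhT, hhV, ?_, hinv⟩
  rcases p.mul_self_mem hhT with (h1 | h2) | ⟨hW, -, hne⟩
  · exact absurd h1 hhV
  · exact mul_self_of_mem p.symm.v_elem h2
  refine absurd (wOf_fpf p.h₁.hK hx hxR hxo hW ?_) hne
  have e : h * h * x * (h * h)⁻¹ = x := by
    calc h * h * x * (h * h)⁻¹ = h * (h * x * h⁻¹) * h⁻¹ := by group
      _ = h * x⁻¹ * h⁻¹ := by rw [hinv]
      _ = (h * x * h⁻¹)⁻¹ := by group
      _ = x := by rw [hinv, inv_inv]
  exact (mul_inv_eq_iff_eq_mul.1 e).symm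

lemma centralizer_wOf_eq : L₁ ⊓ centralizer (wOf K₁ : Set G) = vOf T K₁ := by
  refine le_antisymm (fun g hg => ?_) (p.v_eq ▸ le_inf (inf_le_left.trans p.h₁.hLT.1.1) inf_le_right)
  obtain ⟨x, hx, hxR, hxo⟩ := comp_exists_odd p.h₁.hK
  have hx3 := comp_pow_three p.h₁.hK hx hxo
  obtain ⟨hgL, hgc⟩ := mem_inf.1 hg
  rw [p.local_eq'] at hgL
  obtain ⟨y, hy, t, ht, rfl⟩ := p.h₁.exists_decomp hgL hx hxR
  obtain ⟨w, hw, hw1, -, -, hwT, -, -⟩ := p.h₁.exists_w
  have hyw : y * w * y⁻¹ = w := by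
    calc y * w * y⁻¹ = y * (t * w * t⁻¹) * y⁻¹ := by rw [hwT t ht]
      _ = (y * t) * w * (y * t)⁻¹ := by group
      _ = w := mul_inv_eq_iff_eq_mul.2 (mem_centralizer_iff.1 hgc w hw).symm
  obtain rfl : y = 1 := by
    by_contra hy1
    refine hw1 (wOf_fpf p.h₁.hK hx hxR hxo hw ?_)
    have hc : Commute y w := mul_inv_eq_iff_eq_mul.1 hyw
    rcases (zpowers_cases hx3 hy).resolve_left hy1 with rfl | rfl
    · exact hc.eq
    · have h2 := hc.mul_left hc
      rw [show x * x * (x * x) = x * x * x * x by group, hx3, one_mul] at h2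
      exact h2.eq
  rw [p.v_eq, one_mul]
  exact mem_inf.2 ⟨ht, by rwa [one_mul] at hgc⟩

/-- The isomorphism type. -/
theorem iso_local :
    (Nat.card (zJ T) = 2 → Nonempty (↥L₁ ≃* Equiv.Perm (Fin 4))) ∧
    (Nat.card (zJ T) = 4 → Nonempty (↥L₁ ≃* Equiv.Perm (Fin 4) × Multiplicative (ZMod 2))) := by
  obtain ⟨x, hx, hxR, hxo, hx3, h, hhT, hhV, hh2, hinv⟩ := p.exists_inverter
  set W := wOf K₁ with hW
  set c := cOf T K₁ with hc
  set H := L₁ ⊓ normalizer ((zpowers x : Subgroup G) : Set G) with hH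
  have hxL : x ∈ L₁ := p.h₁.hKL hx
  have hTL : T ≤ L₁ := p.h₁.hLT.1.1
  have hLW : L₁ ≤ normalizer (W : Set G) := by
    rw [p.local_eq']
    exact (sup_le le_normalizer p.h₁.norm).trans (normalizer_le_normalizer_wOf K₁)
  have hWL : W ≤ L₁ := p.h₁.wOf_le.trans hTL
  have hxH : x ∈ H := mem_inf.2 ⟨hxL, le_normalizer (mem_zpowers x)⟩
  have hhH : h ∈ H := mem_inf.2 ⟨hTL hhT, mem_normalizer_of_forall fun y hy => by
    obtain ⟨i, rfl⟩ := mem_zpowers_iff.1 hy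
    rw [← conj_zpow, hinv, inv_zpow]
    exact inv_mem (zpow_mem (mem_zpowers x) i)⟩
  have hcH : c ≤ H := fun u hu => mem_inf.2 ⟨hTL (p.h₁.zJ_le hu.1),
    mem_normalizer_of_forall fun y hy => by
      obtain ⟨i, rfl⟩ := mem_zpowers_iff.1 hy
      have h1 : Commute u (x ^ i) :=
        (show Commute u x from (mem_centralizer_iff.1 hu.2 x hx).symm).zpow_right i
      rw [h1.eq, mul_inv_cancel_right]
      exact zpow_mem (mem_zpowers x) i⟩
  have hx1 : x ≠ 1 := fun e => hxR (e ▸ one_mem _)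
  have hxT : ∀ b ∈ zpowers x, b ∈ T → b = 1 := by
    intro b hb hbT
    rcases zpowers_cases hx3 hb with rfl | rfl | rfl
    · rfl
    all_goals
      exfalso
      obtain ⟨k, hk⟩ := dvd_two_pow_of_mem p.h₁.toSide.isPGroup hbT
    · exact hx1 (orderOf_eq_one_iff.1 (Nat.eq_one_of_dvd_coprimes
        ((Nat.coprime_two_left.2 hxo).pow_left k) hk dvd_rfl))
    · have hbT' : x ∈ T := by
        have := T.mul_mem hbT hbT
        rwa [show x * x * (x * x) = x * x * x * x by group, hx3, one_mul] at this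
      obtain ⟨k', hk'⟩ := dvd_two_pow_of_mem p.h₁.toSide.isPGroup hbT'
      exact hx1 (orderOf_eq_one_iff.1 (Nat.eq_one_of_dvd_coprimes
        ((Nat.coprime_two_left.2 hxo).pow_left k') hk' dvd_rfl))
  -- `W ∩ H = 1`
  have hWH : H ⊓ W = ⊥ := by
    refine (eq_bot_iff_forall _).2 fun v ⟨hvH, hvW⟩ => ?_
    have hxv : x * v⁻¹ * x⁻¹ ∈ W := conj_mem_of_mem_normalizer (hLW hxL) (inv_mem hvW)
    have h1 : v * x * v⁻¹ * x⁻¹ ∈ zpowers x :=
      mul_mem (conj_mem_of_mem_normalizer (mem_inf.1 hvH).2 (mem_zpowers x))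
        (inv_mem (mem_zpowers x))
    have h2 : v * x * v⁻¹ * x⁻¹ ∈ W := by
      rw [show v * x * v⁻¹ * x⁻¹ = v * (x * v⁻¹ * x⁻¹) by group]
      exact mul_mem hvW hxv
    have h3 := hxT _ h1 (p.h₁.wOf_le h2)
    rw [mul_inv_eq_one, mul_inv_eq_iff_eq_mul] at h3
    exact wOf_fpf p.h₁.hK hx hxR hxo hvW h3.symm
  have hVH : vOf T K₁ = W ⊔ c := p.h₁.omega_qs_eq
  have hHW : H ⊔ W = L₁ := by
    refine le_antisymm (sup_le inf_le_left hWL) fun g hg => ?_
    rw [p.local_eq'] at hg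
    obtain ⟨y, hy, t, ht, rfl⟩ := p.h₁.exists_decomp hg hx hxR
    have hV : vOf T K₁ ≤ H ⊔ W := hVH ▸ sup_le le_sup_right (hcH.trans le_sup_left)
    refine mul_mem (mem_sup_left (zpowers_le.2 hxH hy)) ?_
    by_cases htV : t ∈ vOf T K₁
    · exact hV htV
    · have h1 := mul_mem (inv_mem (mem_sup_left (T := W) hhH))
        (hV (p.v_eq ▸ p.h₁.mul_mem_qs hhT ht (p.v_eq ▸ hhV) (p.v_eq ▸ htV)))
      simpa using h1
  have hcardW : Nat.card W = 4 := wOf_card p.h₁.hK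
  have hcardH : Nat.card H * 4 = Nat.card L₁ := by
    have h1 := card_sup_mul_inf ((inf_le_left : H ≤ L₁).trans hLW)
    rw [hHW, hWH, card_bot, mul_one, hcardW] at h1
    exact h1.symm
  have hcardL : Nat.card L₁ = 24 * Nat.card c := by
    rw [p.card_local, p.card_T, p.h₁.card_v]; ring
  have hidx : H.relIndex L₁ = 4 := by
    have h1 := card_mul_relIndex' (inf_le_left : H ≤ L₁)
    exact Nat.eq_of_mul_eq_mul_left Nat.card_pos (h1.trans hcardH.symm)
  -- the action on the cosets of `H`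
  set φ := MulAction.toPermHom ↥L₁ (↥L₁ ⧸ H.subgroupOf L₁) with hφ
  have hker : ∀ n : ↥L₁, φ n = 1 → (n : G) ∈ c := by
    intro n hn
    have hcore : n ∈ (H.subgroupOf L₁).normalCore := by
      rw [Subgroup.normalCore_eq_ker]; exact hn
    have hall : ∀ g ∈ L₁, g * (n : G) * g⁻¹ ∈ H := fun g hg =>
      mem_subgroupOf.1 (hcore ⟨g, hg⟩)
    have hnH : (n : G) ∈ H := by simpa using hall 1 L₁.one_mem
    have hnC : (n : G) ∈ centralizer (W : Set G) := by
      refine mem_centralizer_iff.2 fun v hv => ?_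
      have h1 : (n : G) * v * (n : G)⁻¹ * v⁻¹ ∈ H ⊓ W := by
        refine mem_inf.2 ⟨?_, W.mul_mem (conj_mem_of_mem_normalizer (hLW n.2) hv) (W.inv_mem hv)⟩
        rw [show (n : G) * v * (n : G)⁻¹ * v⁻¹ = (n : G) * (v * (n : G) * v⁻¹)⁻¹ by group]
        exact H.mul_mem hnH (H.inv_mem (hall v (hWL hv)))
      rw [hWH, mem_bot, mul_inv_eq_one, mul_inv_eq_iff_eq_mul] at h1
      exact h1.symm
    have hnV : (n : G) ∈ W ⊔ c := hVH ▸ p.centralizer_wOf_eq ▸ mem_inf.2 ⟨n.2, hnC⟩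
    rw [mem_sup_iff_of_le_normalizer] at hnV
    · obtain ⟨r, hr, u, hu, e⟩ := hnV
      have hr1 : r ∈ H ⊓ W := by
        refine mem_inf.2 ⟨?_, hr⟩
        rw [show r = (n : G) * u⁻¹ by rw [← e]; group]
        exact H.mul_mem hnH (H.inv_mem (hcH hu))
      rw [hWH, mem_bot] at hr1
      rw [← e, hr1, one_mul]; exact hu
    · exact fun a ha => mem_normalizer_of_forall fun y hy => by
        have hc' := mem_centralizer_iff.1 (p.h₁.central (p.h₁.wOf_le ha)) y hy.1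
        rwa [← hc', mul_inv_cancel_right]
  have hperm : Nat.card (Equiv.Perm (↥L₁ ⧸ H.subgroupOf L₁)) = 24 := by
    rw [Nat.card_perm, show Nat.card (↥L₁ ⧸ H.subgroupOf L₁) = 4 from hidx]
    rfl
  obtain ⟨e4⟩ : Nonempty (Equiv.Perm (↥L₁ ⧸ H.subgroupOf L₁) ≃* Equiv.Perm (Fin 4)) :=
    ⟨(Finite.equivFinOfCardEq (show Nat.card (↥L₁ ⧸ H.subgroupOf L₁) = 4 from hidx)).permCongrHom⟩
  refine ⟨fun h2 => ?_, fun h4 => ?_⟩
  · have hc1 : Nat.card c = 1 := (p.card_cases.resolve_right (by omega)).2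
    have hbij : Function.Bijective φ := by
      refine (Nat.bijective_iff_injective_and_card _).2
        ⟨(injective_iff_map_eq_one _).2 fun n hn => Subtype.ext ?_,
          by rw [hperm, hcardL, hc1, mul_one]⟩
      exact mem_bot.1 (Subgroup.card_eq_one.1 hc1 ▸ hker n hn)
    exact ⟨(MulEquiv.ofBijective φ hbij).trans e4⟩
  have hc2 : Nat.card c = 2 := (p.card_cases.resolve_left (by omega)).2
  set H₀ := zpowers h ⊔ zpowers x with hH₀
  have hH₀H : H₀ ≤ H := sup_le (zpowers_le.2 hhH) (zpowers_le.2 hxH)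
  have hhn : zpowers h ≤ normalizer ((zpowers x : Subgroup G) : Set G) :=
    zpowers_le.2 (mem_inf.1 hhH).2
  have hh1 : h ≠ 1 := fun e => hhV (e ▸ one_mem _)
  have hh_cases : ∀ a ∈ zpowers h, a = 1 ∨ a = h := by
    intro a ha
    obtain ⟨i, rfl⟩ := mem_zpowers_iff.1 ha
    have h2' : h ^ (2 : ℤ) = 1 := by rw [show h ^ (2 : ℤ) = h * h by simp [zpow_ofNat, pow_two]]; exact hh2
    rcases Int.even_or_odd' i with ⟨k, rfl | rfl⟩
    · exact .inl (by rw [zpow_mul, h2', one_zpow])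
    · exact .inr (by rw [zpow_add, zpow_mul, h2', one_zpow, one_mul, zpow_one])
  have hcardH₀ : Nat.card H₀ = 6 := by
    have h1 := card_sup_mul_inf hhn
    have hd : zpowers h ⊓ zpowers x = ⊥ := (eq_bot_iff_forall _).2 fun a ⟨ha, ha'⟩ =>
      hxT a ha' ((zpowers_le.2 hhT) ha)
    rw [hd, card_bot, mul_one, Nat.card_zpowers, Nat.card_zpowers,
      orderOf_eq_prime (p := 2) (by rw [pow_two]; exact hh2) hh1,
      (haveI : Fact (Nat.Prime 3) := ⟨Nat.prime_three⟩;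
        orderOf_eq_prime (p := 3) (by rw [pow_succ, pow_two]; exact hx3) hx1)] at h1
    exact h1
  set N := H₀ ⊔ W with hN
  have hH₀W : H₀ ≤ normalizer (W : Set G) := (hH₀H.trans inf_le_left).trans hLW
  have hNL : N ≤ L₁ := sup_le (hH₀H.trans inf_le_left) hWL
  have hNidx : (N.subgroupOf L₁).index = 2 := by
    have h1 := card_sup_mul_inf hH₀W
    rw [show H₀ ⊓ W = ⊥ from le_bot_iff.1 ((inf_le_inf_right _ hH₀H).trans hWH.le), card_bot,
      mul_one, hcardH₀, hcardW] at h1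
    have h2 := card_mul_relIndex' hNL
    rw [← hN] at h1
    rw [h1, hcardL, hc2] at h2
    show N.relIndex L₁ = 2
    omega
  haveI hNn : (N.subgroupOf L₁).Normal := normal_of_index_eq_two hNidx
  set ψ := φ.prod (QuotientGroup.mk' (N.subgroupOf L₁)) with hψ
  have hinj : Function.Injective ψ := by
    refine (injective_iff_map_eq_one _).2 fun n hn => Subtype.ext ?_
    have hn1 : φ n = 1 := congrArg Prod.fst hn
    have hn2 : (n : G) ∈ N := mem_subgroupOf.1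
      ((QuotientGroup.eq_one_iff n).1 (congrArg Prod.snd hn))
    have hnc := hker n hn1
    rw [hN, mem_sup_iff_of_le_normalizer hH₀W] at hn2
    obtain ⟨y, hy, r, hr, e⟩ := hn2
    have hr1 : r ∈ H ⊓ W := by
      refine mem_inf.2 ⟨?_, hr⟩
      rw [show r = y⁻¹ * (n : G) by rw [← e]; group]
      exact H.mul_mem (H.inv_mem (hH₀H hy)) (hcH hnc)
    rw [hWH, mem_bot] at hr1
    rw [hr1, mul_one] at e
    subst e
    rw [hH₀, mem_sup_iff_of_le_normalizer hhn] at hy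
    obtain ⟨a, ha, b, hb, e⟩ := hy
    have hnV : (n : G) ∈ vOf T K₁ := hVH ▸ mem_sup_right hnc
    rcases hh_cases a ha with e' | e' <;> rw [e'] at e
    · rw [one_mul] at e
      rw [← e, hxT b hb (e ▸ p.h₁.v_le_T hnV)]; rfl
    · exfalso
      have hbT : b ∈ T := by
        rw [show b = h⁻¹ * (n : G) by rw [← e]; group]
        exact T.mul_mem (T.inv_mem hhT) (p.h₁.v_le_T hnV)
      rw [hxT b hb hbT, mul_one] at e
      exact hhV (e ▸ hnV)
  have hbij : Function.Bijective ψ := by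
    refine (Nat.bijective_iff_injective_and_card _).2 ⟨hinj, ?_⟩
    rw [Nat.card_prod, hperm, hcardL, hc2]
    show 24 * 2 = 24 * (N.subgroupOf L₁).index
    rw [hNidx]
  haveI : Fact (Nat.Prime 2) := ⟨Nat.prime_two⟩
  have e2 : (↥L₁ ⧸ N.subgroupOf L₁) ≃* Multiplicative (ZMod 2) :=
    mulEquivOfPrimeCardEq (p := 2) hNidx (by simp)
  exact ⟨(MulEquiv.ofBijective ψ hbij).trans (e4.prodCongr e2)⟩

end Pair

end CfsgLib.JComponents
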