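import Cfsg.Agent.Lib.JComponents.Local
import Cfsg.Agent.Lib.JComponents.FourLemma

/-!
The `J(T)`-components contained in a member `L` of `jOvergroups T`: they correspond to the classes
of lifts of transvections lying in the image of `J(T)`, their four-groups lie in `Ω₁(Z(O₂(L)))`
and meet trivially in pairs, and they are subnormal in `L`.
-/

set_option autoImplicit false

open scoped IsMulCommutative commutatorElement

namespace CfsgLib.JComponents

open Cfsg CfsgLib.ThompsonJ Subgroup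

variable {G : Type*} [Group G]

/-! ### Generalities -/

lemma oddGen_oddGen (X : Subgroup G) : oddGen (oddGen X) = oddGen X :=
  le_antisymm (oddGen_le _)
    ((closure_le _).2 fun _ hg => mem_oddGen (mem_oddGen hg.1 hg.2) hg.2)

lemma oddGen_mono {X Y : Subgroup G} (h : X ≤ Y) : oddGen X ≤ oddGen Y :=
  (closure_le _).2 fun _ hg => mem_oddGen (h hg.1) hg.2

lemma normalizer_le_normalizer_oddGen [Finite G] (X : Subgroup G) :
    normalizer (X : Set G) ≤ normalizer (oddGen X : Set G) := fun g hg =>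
  mem_normalizer_of_forall fun x hx => by
    induction hx using closure_induction with
    | mem x hx =>
      refine mem_oddGen (conj_mem_of_mem_normalizer hg hx.1) ?_
      rw [← MulAut.conj_apply, MulEquiv.orderOf_eq]
      exact hx.2
    | one => simp
    | mul a b _ _ iha ihb => simpa [mul_assoc] using mul_mem iha ihb
    | inv a _ ih => simpa [mul_assoc] using inv_mem ih

lemma three_cases {H : Type*} [Group H] {E : Subgroup H} (hE : Nat.card E = 3) {e y : H}
    (he : e ∈ E) (he1 : e ≠ 1) (hy : y ∈ E) : y = 1 ∨ y = e ∨ y = e⁻¹ := by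
  haveI : Finite ↥E := Nat.finite_of_card_ne_zero (by omega)
  have ho : orderOf e = 3 := by
    have h : orderOf (⟨e, he⟩ : ↥E) ∣ 3 := hE ▸ _root_.orderOf_dvd_natCard _
    rw [Subgroup.orderOf_mk] at h
    exact ((Nat.dvd_prime Nat.prime_three).1 h).resolve_left fun h1 =>
      he1 (orderOf_eq_one_iff.1 h1)
  have hz : zpowers e = E :=
    eq_of_le_of_card_ge (zpowers_le.2 he) (by rw [hE, Nat.card_zpowers, ho])
  rw [← hz] at hy
  obtain ⟨i, rfl⟩ := mem_zpowers_iff.1 hy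
  rw [← zpow_mod_orderOf e i, ho]
  have h1 := Int.emod_nonneg i (show ((3 : ℕ) : ℤ) ≠ 0 by norm_num)
  have h2 := Int.emod_lt_of_pos i (show (0 : ℤ) < ((3 : ℕ) : ℤ) by norm_num)
  generalize i % ((3 : ℕ) : ℤ) = r at h1 h2
  interval_cases r
  · left; simp
  · right; left; simp
  · right; right
    rw [zpow_two]
    exact eq_inv_of_mul_eq_one_left (by rw [← pow_three', ← ho, pow_orderOf_eq_one])

/-- The Thompson subgroup of a 2-subgroup of `L` containing `J(T)`. -/
theorem thompson_eq_of_le_local [Finite G] {T L U : Subgroup G} (hTL : IsSylowTwoIn T L)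
    (hUL : U ≤ L) (hU : IsPGroup 2 U) (hJ : thompsonSubgroupOf 2 T ≤ U) :
    thompsonSubgroupOf 2 U = thompsonSubgroupOf 2 T := by
  obtain ⟨x, -, hx⟩ := exists_conj_le hTL hUL hU
  set f := (MulAut.conj x).toMonoidHom
  have hf : Function.Injective f := (MulAut.conj x).injective
  obtain ⟨A, hA⟩ := exists_isMaxEA 2 T
  have hAU : ∀ B, IsMaxEA 2 T B → IsMaxEA 2 U B := fun B hB =>
    ⟨(le_thompsonSubgroupOf hB).trans hJ, hB.elem, fun C hC hCe => by
      rw [← card_map_of_injective (K := C) hf]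
      exact hB.card_le _ ((map_mono hC).trans hx) (isElementaryAbelian_map hCe f)⟩
  have h1 : thompsonSubgroupOf 2 T ≤ thompsonSubgroupOf 2 U :=
    thompsonSubgroupOf_le_iff.2 fun B hB => le_thompsonSubgroupOf (hAU B hB)
  have h2 : (thompsonSubgroupOf 2 U).map f ≤ thompsonSubgroupOf 2 T := by
    rw [map_thompsonSubgroupOf hf]
    refine thompsonSubgroupOf_le_iff.2 fun B hB =>
      le_thompsonSubgroupOf ⟨hB.le.trans hx, hB.elem, fun C hC hCe => ?_⟩
    refine (hA.card_le C hC hCe).trans ?_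
    rw [← card_map_of_injective (K := A) hf]
    exact hB.card_le _ (map_mono ((le_thompsonSubgroupOf hA).trans hJ))
      (isElementaryAbelian_map hA.elem f)
  refine (eq_of_le_of_card_ge h1 ?_).symm
  rw [← card_map_of_injective (K := thompsonSubgroupOf 2 U) hf]
  exact card_le_of_le h2

/-- `wOf_fpf` without the component hypothesis. -/
lemma fpf_of_sup_eq [Finite G] {K : Subgroup G} {x : G} (hx : x ∈ K)
    (hsup : pCoreOf 2 K ⊔ zpowers x = K) (hxo : Odd (orderOf x)) {w : G} (hw : w ∈ wOf K)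
    (hc : x * w = w * x) : w = 1 := by
  set U := omegaCenterOf (pCoreOf 2 K) with hU
  have hxn : zpowers x ≤ normalizer (U : Set G) := zpowers_le.2
    (normalizer_le_normalizer_omegaCenterOf _ (CfsgLib.FFModules.le_normalizer_pCoreOf K hx))
  have heq : wOf K = ⁅U, zpowers x⁆ := by
    refine le_antisymm (commutator_le.2 fun u hu k hk => ?_)
      (commutator_mono le_rfl (zpowers_le.2 hx))
    rw [← hsup, sup_comm, mem_sup_iff_of_le_normalizer
      (zpowers_le.2 (CfsgLib.FFModules.le_normalizer_pCoreOf K hx))] at hk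
    obtain ⟨y, hy, r, hr, rfl⟩ := hk
    have hcu : r * u⁻¹ = u⁻¹ * r := omegaCenterOf_le_centralizer _ (inv_mem hu) r hr
    have e : ⁅u, y * r⁆ = ⁅u, y⁆ := by
      calc ⁅u, y * r⁆ = u * y * (r * u⁻¹) * r⁻¹ * y⁻¹ := by rw [commutatorElement_def]; group
        _ = ⁅u, y⁆ := by rw [hcu, commutatorElement_def]; group
    rw [e]
    exact commutator_mem_commutator hu hy
  haveI : IsMulCommutative ↥U := (isElementaryAbelian_omegaCenterOf _).1
  have h := CfsgLib.CoprimeAction.inf_commutator_eq_bot (A := zpowers x) (V := U) hxn ?_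
  · rw [← mem_bot, ← h]
    refine ⟨⟨wOf_le_omega K hw, mem_centralizer_iff.2 fun y hy => ?_⟩, heq ▸ hw⟩
    obtain ⟨k, rfl⟩ := mem_zpowers_iff.1 hy
    exact ((show Commute x w from hc).zpow_left k).eq
  · obtain ⟨k, hk⟩ := IsPGroup.iff_card.1
      (isPGroup_of_isElementaryAbelian (isElementaryAbelian_omegaCenterOf (pCoreOf 2 K)))
    rw [Nat.card_zpowers, hk]
    exact ((Nat.coprime_two_right).2 hxo).pow_right k

lemma mk_eq_one_iff {L : Subgroup G} {g : ↥L} :
    (QuotientGroup.mk g : ↥L ⧸ pCore 2 ↥L) = 1 ↔ (g : G) ∈ pCoreOf 2 L := by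
  rw [QuotientGroup.eq_one_iff, pCoreOf]
  exact ⟨fun h => mem_map_of_mem L.subtype h, fun ⟨g', h, e⟩ => by
    have e' : g' = g := L.subtype_injective e
    rwa [e'] at h⟩

/-- The 2-core of a subgroup of `L` of exponent three modulo `O₂(L)`. -/
lemma core_eq_inf [Finite G] {K L : Subgroup G} (hKL : K ≤ L)
    (h3 : ∀ g ∈ K, g ^ 3 ∈ pCoreOf 2 L) : pCoreOf 2 K = K ⊓ pCoreOf 2 L := by
  refine le_antisymm ?_ ?_
  · intro g hg
    refine ⟨CfsgLib.FFModules.pCoreOf_le K hg, ?_⟩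
    obtain ⟨k, hk⟩ := dvd_two_pow_of_mem (CfsgLib.FFModules.isPGroup_pCoreOf K) hg
    obtain ⟨m, hm⟩ := exists_pow_eq_self_of_coprime (x := g) (n := 3)
      (Nat.Coprime.coprime_dvd_right hk (Nat.Coprime.pow_right k (by norm_num)))
    rw [← hm]
    exact pow_mem (h3 g (CfsgLib.FFModules.pCoreOf_le K hg)) m
  · exact CfsgLib.FFModules.le_pCoreOf inf_le_left
      (fun g hg => mem_normalizer_of_forall fun y hy =>
        ⟨K.mul_mem (K.mul_mem hg hy.1) (K.inv_mem hg),
          conj_mem_of_mem_normalizer (CfsgLib.FFModules.le_normalizer_pCoreOf (p := 2) L (hKL hg))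
            hy.2⟩)
      ((CfsgLib.FFModules.isPGroup_pCoreOf (p := 2) L).to_le inf_le_right)

/-! ### The definitions -/

section defs

variable [Finite G]

/-- The image of `J(T)` modulo `O₂(L)`. -/
noncomputable def jImage (T L : Subgroup G) : Subgroup (↥L ⧸ pCore 2 ↥L) :=
  ((thompsonSubgroupOf 2 T).subgroupOf L).map (QuotientGroup.mk' (pCore 2 ↥L))

/-- The subgroup of order three attached to a lift. -/
noncomputable def cE (L : Subgroup G) (s : ↥L ⧸ pCore 2 ↥L) : Subgroup (↥L ⧸ pCore 2 ↥L) :=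
  lE (fittingSubgroup ↥(actL L).range) (proj L) s

/-- Its preimage in `G`. -/
noncomputable def pre (L : Subgroup G) (s : ↥L ⧸ pCore 2 ↥L) : Subgroup G :=
  ((cE L s).comap (QuotientGroup.mk' (pCore 2 ↥L))).map L.subtype

/-- The component attached to a lift. -/
noncomputable def comp (L : Subgroup G) (s : ↥L ⧸ pCore 2 ↥L) : Subgroup G := oddGen (pre L s)

lemma mem_pre {L : Subgroup G} {s : ↥L ⧸ pCore 2 ↥L} {g : G} :
    g ∈ pre L s ↔ ∃ hg : g ∈ L, (QuotientGroup.mk ⟨g, hg⟩ : ↥L ⧸ pCore 2 ↥L) ∈ cE L s := by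
  constructor
  · rintro ⟨g', hg', rfl⟩; exact ⟨g'.2, hg'⟩
  · rintro ⟨hg, h⟩; exact ⟨⟨g, hg⟩, h, rfl⟩

lemma pre_le (L : Subgroup G) (s : ↥L ⧸ pCore 2 ↥L) : pre L s ≤ L := map_subtype_le _

lemma comp_le_pre (L : Subgroup G) (s : ↥L ⧸ pCore 2 ↥L) : comp L s ≤ pre L s := oddGen_le _

lemma comp_le (L : Subgroup G) (s : ↥L ⧸ pCore 2 ↥L) : comp L s ≤ L :=
  (comp_le_pre L s).trans (pre_le L s)

lemma core_le_pre (L : Subgroup G) (s : ↥L ⧸ pCore 2 ↥L) : pCoreOf 2 L ≤ pre L s := fun g hg =>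
  mem_pre.2 ⟨CfsgLib.FFModules.pCoreOf_le L hg, by
    rw [(mk_eq_one_iff (g := ⟨g, CfsgLib.FFModules.pCoreOf_le L hg⟩)).2 hg]; exact one_mem _⟩

lemma core_le_normalizer_comp (L : Subgroup G) (s : ↥L ⧸ pCore 2 ↥L) :
    pCoreOf 2 L ≤ normalizer (comp L s : Set G) :=
  ((core_le_pre L s).trans le_normalizer).trans (normalizer_le_normalizer_oddGen _)

/-- Elements whose image normalises `cE L s` normalise `pre L s` and the component. -/
lemma mem_normalizer_pre {L : Subgroup G} {s : ↥L ⧸ pCore 2 ↥L} (g : ↥L)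
    (hg : (QuotientGroup.mk g : ↥L ⧸ pCore 2 ↥L) ∈ normalizer (cE L s : Set _)) :
    (g : G) ∈ normalizer (pre L s : Set G) ∧ (g : G) ∈ normalizer (comp L s : Set G) := by
  have h : (g : G) ∈ normalizer (pre L s : Set G) := by
    refine mem_normalizer_of_forall fun p hp => ?_
    obtain ⟨hpL, hp⟩ := mem_pre.1 hp
    refine mem_pre.2 ⟨(g * ⟨p, hpL⟩ * g⁻¹ : ↥L).2, ?_⟩
    show QuotientGroup.mk (g * ⟨p, hpL⟩ * g⁻¹) ∈ cE L s
    rw [QuotientGroup.mk_mul, QuotientGroup.mk_mul, QuotientGroup.mk_inv]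
    exact conj_mem_of_mem_normalizer hg hp
  exact ⟨h, normalizer_le_normalizer_oddGen _ h⟩

end defs

section

variable [Finite G] {T L : Subgroup G} (hZN : ZN G) (hT : IsPGroup 2 T) (hT1 : T ≠ ⊥)
  (hL : L ∈ jOvergroups T)
include hZN hT hT1 hL

lemma jImage_le_lifts : jImage T L ≤
    closure {c | ∃ w : ↥(omegaCenterOf (pCoreOf 2 L)), LTV (proj L) c w} :=
  (thompson_generated hZN hT hT1 hL).trans (closure_mono fun _ hc => hc.2)

lemma lift_mem_normalizer_cE {s c : ↥L ⧸ pCore 2 ↥L} {u z : ↥(omegaCenterOf (pCoreOf 2 L))}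
    (hs : LTV (proj L) s u) (hc : LTV (proj L) c z) : c ∈ normalizer (cE L s : Set _) := by
  have hS := liftSetting hZN hT hT1 hL
  refine mem_normalizer_of_forall fun e he => ?_
  induction he using closure_induction with
  | mem e he =>
    obtain ⟨p, hp, q, hq, rfl⟩ := he
    exact subset_closure ⟨_, conj_mem_lcl hS hs hc hp, _, conj_mem_lcl hS hs hc hq, by group⟩
  | one => simp
  | mul a b _ _ iha ihb => simpa [mul_assoc] using mul_mem iha ihb
  | inv a _ ih => simpa [mul_assoc] using inv_mem ih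

lemma thompson_le_normalizer_pre {s : ↥L ⧸ pCore 2 ↥L} {u : ↥(omegaCenterOf (pCoreOf 2 L))}
    (hs : LTV (proj L) s u) :
    thompsonSubgroupOf 2 T ≤ normalizer (pre L s : Set G) ∧
      thompsonSubgroupOf 2 T ≤ normalizer (comp L s : Set G) := by
  suffices h : ∀ g ∈ thompsonSubgroupOf 2 T, g ∈ normalizer (pre L s : Set G) ∧
      g ∈ normalizer (comp L s : Set G) from ⟨fun g hg => (h g hg).1, fun g hg => (h g hg).2⟩
  intro g hg
  refine mem_normalizer_pre ⟨g, thompson_le_local hT hL hg⟩ ?_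
  refine (closure_le _).2 ?_ (jImage_le_lifts hZN hT hT1 hL ⟨_, hg, rfl⟩)
  rintro c ⟨w, hc⟩
  exact lift_mem_normalizer_cE hZN hT hT1 hL hs hc

lemma cE_inverted {s : ↥L ⧸ pCore 2 ↥L} {u : ↥(omegaCenterOf (pCoreOf 2 L))}
    (hs : LTV (proj L) s u) {e : ↥L ⧸ pCore 2 ↥L} (he : e ∈ cE L s) : s * e * s⁻¹ = e⁻¹ := by
  have hS := liftSetting hZN hT hT1 hL
  obtain ⟨t, ht, hne, -⟩ := exists_lpartner hS hs
  rw [cE, lE_eq hS hs ht hne] at he
  obtain ⟨i, rfl⟩ := mem_zpowers_iff.1 he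
  rw [← MulAut.conj_apply, map_zpow, MulAut.conj_apply]
  have e1 : s * (s * t) * s⁻¹ = (s * t)⁻¹ := by
    rw [← mul_assoc, hs.1, one_mul, mul_inv_rev, inv_eq_of_mul_eq_one_right ht.1]
  rw [e1, inv_zpow]

lemma cE_card {s : ↥L ⧸ pCore 2 ↥L} {u : ↥(omegaCenterOf (pCoreOf 2 L))}
    (hs : LTV (proj L) s u) : Nat.card (cE L s) = 3 := lE_card (liftSetting hZN hT hT1 hL) hs

lemma pow_three_mem {s : ↥L ⧸ pCore 2 ↥L} {u : ↥(omegaCenterOf (pCoreOf 2 L))}
    (hs : LTV (proj L) s u) {g : G} (hg : g ∈ pre L s) : g ^ 3 ∈ pCoreOf 2 L := by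
  obtain ⟨hgL, hg⟩ := mem_pre.1 hg
  refine mk_eq_one_iff (g := (⟨g, hgL⟩ : ↥L) ^ 3) |>.1 ?_
  rw [QuotientGroup.mk_pow]
  have h := pow_card_eq_one' (x := (⟨_, hg⟩ : ↥(cE L s)))
  rw [cE_card hZN hT hT1 hL hs] at h
  exact congrArg Subtype.val h

lemma exists_preimage {s e : ↥L ⧸ pCore 2 ↥L} {u : ↥(omegaCenterOf (pCoreOf 2 L))}
    (hs : LTV (proj L) s u) (he : e ∈ cE L s) :
    ∃ x : ↥L, (x : G) ∈ comp L s ∧ (x : G) * x * x = 1 ∧ Odd (orderOf (x : G)) ∧
      QuotientGroup.mk' (pCore 2 ↥L) x = e := by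
  obtain ⟨g, rfl⟩ := QuotientGroup.mk'_surjective (pCore 2 ↥L) e
  have ho : Odd (orderOf (QuotientGroup.mk' (pCore 2 ↥L) g)) := by
    refine Odd.of_dvd_nat (n := 3) (by decide) ?_
    rw [← cE_card hZN hT hT1 hL hs]
    exact _root_.Subgroup.orderOf_dvd_natCard (cE L s) he
  obtain ⟨n, hn, e'⟩ := exists_odd_pow_eq _ ho
  have hn' : Odd (orderOf ((g ^ n : ↥L) : G)) := by rwa [Subgroup.orderOf_coe]
  have hpre : ((g ^ n : ↥L) : G) ∈ pre L s := mem_pre.2 ⟨(g ^ n).2, by
    show QuotientGroup.mk' (pCore 2 ↥L) (g ^ n) ∈ cE L s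
    rw [e']; exact he⟩
  refine ⟨g ^ n, mem_oddGen hpre hn', ?_, hn', e'⟩
  rw [← pow_three']
  have h3 := pow_three_mem hZN hT hT1 hL hs hpre
  obtain ⟨k, hk⟩ := dvd_two_pow_of_mem (CfsgLib.FFModules.isPGroup_pCoreOf L) h3
  exact orderOf_eq_one_iff.1 (Nat.eq_one_of_dvd_coprimes
    ((Nat.coprime_two_left.2 hn').pow_left k) hk (orderOf_pow_dvd 3))

lemma comp_sup_core {s : ↥L ⧸ pCore 2 ↥L} {u : ↥(omegaCenterOf (pCoreOf 2 L))}
    (hs : LTV (proj L) s u) : comp L s ⊔ pCoreOf 2 L = pre L s := by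
  refine le_antisymm (sup_le (comp_le_pre L s) (core_le_pre L s)) fun g hg => ?_
  obtain ⟨hgL, hg⟩ := mem_pre.1 hg
  obtain ⟨x, hx, -, -, hxe⟩ := exists_preimage hZN hT hT1 hL hs hg
  have h : ((x⁻¹ * ⟨g, hgL⟩ : ↥L) : G) ∈ pCoreOf 2 L := by
    refine mk_eq_one_iff.1 ?_
    rw [QuotientGroup.mk_mul, QuotientGroup.mk_inv]
    exact inv_mul_eq_one.2 hxe
  rw [show g = (x : G) * ((x⁻¹ * ⟨g, hgL⟩ : ↥L) : G) by simp]
  exact mul_mem_sup hx h

lemma pCoreOf_comp {s : ↥L ⧸ pCore 2 ↥L} {u : ↥(omegaCenterOf (pCoreOf 2 L))}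
    (hs : LTV (proj L) s u) : pCoreOf 2 (comp L s) = comp L s ⊓ pCoreOf 2 L :=
  core_eq_inf (comp_le L s) fun _ hg => pow_three_mem hZN hT hT1 hL hs (comp_le_pre L s hg)

lemma relIndex_core {s : ↥L ⧸ pCore 2 ↥L} {u : ↥(omegaCenterOf (pCoreOf 2 L))}
    (hs : LTV (proj L) s u) : (pCoreOf 2 (comp L s)).relIndex (comp L s) = 3 := by
  rw [pCoreOf_comp hZN hT hT1 hL hs, inf_comm,
    ← relIndex_sup_of_le_normalizer (core_le_normalizer_comp L s), sup_comm,
    comp_sup_core hZN hT hT1 hL hs, pre, pCoreOf,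
    relIndex_map_map_of_injective _ _ L.subtype_injective]
  have h := relIndex_ker (K := (cE L s).comap (QuotientGroup.mk' (pCore 2 ↥L)))
    (QuotientGroup.mk' (pCore 2 ↥L))
  rw [QuotientGroup.ker_mk', map_comap_eq_self_of_surjective (QuotientGroup.mk'_surjective _)] at h
  rw [h, cE_card hZN hT hT1 hL hs]

/-- A lift in the image of `J(T)` gives a component with four-group in `Ω₁(Z(O₂(L)))`. -/
theorem isJComponent_comp {s : ↥L ⧸ pCore 2 ↥L} {u : ↥(omegaCenterOf (pCoreOf 2 L))}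
    (hsJ : s ∈ jImage T L) (hs : LTV (proj L) s u) :
    IsJComponent T (comp L s) ∧ wOf (comp L s) ≤ omegaCenterOf (pCoreOf 2 L) := by
  have hS := liftSetting hZN hT hT1 hL
  set q := QuotientGroup.mk' (pCore 2 ↥L) with hq
  set J := thompsonSubgroupOf 2 T with hJ
  set K := comp L s with hK
  set R := pCoreOf 2 K with hR
  set Q := pCoreOf 2 L with hQ
  have hJL : J ≤ L := thompson_le_local hT hL
  have hJK : J ≤ normalizer (K : Set G) := (thompson_le_normalizer_pre hZN hT hT1 hL hs).2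
  have hKL : K ≤ L := comp_le L s
  have hRe : R = K ⊓ Q := pCoreOf_comp hZN hT hT1 hL hs
  have hQK : Q ≤ normalizer (K : Set G) := core_le_normalizer_comp L s
  obtain ⟨t, ht, hne, -⟩ := exists_lpartner hS hs
  have heE : s * t ∈ cE L s := subset_closure ⟨s, self_mem_lcl hS hs.1, t, ht, rfl⟩
  set e := s * t with he
  have he1 : e ≠ 1 := fun h => hne ((eq_inv_of_mul_eq_one_right h).trans (inv_eq_of_sq hs.1))
  have he2 : e ≠ e⁻¹ := fun h => he1 (orderOf_eq_one_of_odd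
    (Odd.of_dvd_nat (n := 3) (by decide) (cE_card hZN hT hT1 hL hs ▸
      Subgroup.orderOf_dvd_natCard (cE L s) heE)) (eq_inv_iff_mul_eq_one.1 h))
  obtain ⟨x, hxK, hx3, hxo, hxe⟩ := exists_preimage hZN hT hT1 hL hs heE
  obtain ⟨j, hjJ, hjs⟩ := hsJ
  -- every element of `K` is a power of `x` modulo `R`
  have hmod : ∀ g ∈ K, ∃ y ∈ zpowers (x : G), y⁻¹ * g ∈ R := by
    intro g hg
    obtain ⟨hgL, hg'⟩ := mem_pre.1 (comp_le_pre L s hg)
    have key : ∀ y : ↥L, (y : G) ∈ zpowers (x : G) →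
        (QuotientGroup.mk (⟨g, hgL⟩ : ↥L) : ↥L ⧸ pCore 2 ↥L) = q y →
        ∃ y ∈ zpowers (x : G), y⁻¹ * g ∈ R := fun y hy h =>
      ⟨y, hy, by
        rw [hRe]
        exact ⟨K.mul_mem (K.inv_mem (zpowers_le.2 hxK hy)) hg,
          (mk_eq_one_iff (g := y⁻¹ * ⟨g, hgL⟩)).1 (by
            rw [QuotientGroup.mk_mul, QuotientGroup.mk_inv]
            exact inv_mul_eq_one.2 h.symm)⟩⟩
    rcases three_cases (cE_card hZN hT hT1 hL hs) heE he1 hg' with h | h | h
    · exact key 1 (one_mem _) (by rw [h, map_one])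
    · exact key x (mem_zpowers _) (by rw [h, hxe])
    · exact key x⁻¹ (inv_mem (mem_zpowers _)) (by rw [h, map_inv, hxe])
  have hsup : R ⊔ zpowers (x : G) = K := by
    refine le_antisymm (sup_le (CfsgLib.FFModules.pCoreOf_le K) (zpowers_le.2 hxK)) fun g hg => ?_
    obtain ⟨y, hy, h⟩ := hmod g hg
    rw [← mul_inv_cancel_left y g]
    exact mul_mem (mem_sup_right hy) (mem_sup_left h)
  have hcomm : ⁅K, J⁆ = K := by
    refine le_antisymm (commutator_le.2 fun k hk i hi => ?_) ?_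
    · rw [commutatorElement_def, show k * i * k⁻¹ * i⁻¹ = k * (i * k⁻¹ * i⁻¹) by group]
      exact K.mul_mem hk (conj_mem_of_mem_normalizer (hJK hi) (inv_mem hk))
    have hc : q (x * j * x⁻¹ * j⁻¹) = e⁻¹ := by
      rw [map_mul, map_mul, map_mul, map_inv, map_inv, hxe, hjs,
        show e * s * e⁻¹ * s⁻¹ = e * (s * e⁻¹ * s⁻¹) by group,
        cE_inverted hZN hT hT1 hL hs (inv_mem heE), inv_inv]
      rcases three_cases (cE_card hZN hT hT1 hL hs) heE he1 (mul_mem heE heE) with h | h | h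
      · exact absurd (eq_inv_of_mul_eq_one_left h) he2
      · exact absurd (mul_eq_left.1 h) he1
      · exact h
    have hcm : ((x * j * x⁻¹ * j⁻¹ : ↥L) : G) ∈ ⁅K, J⁆ := by
      have := commutator_mem_commutator hxK (show (j : G) ∈ J from hjJ)
      simpa [commutatorElement_def] using this
    have hle : K ≤ ⁅K, J⁆ ⊔ R := by
      intro g hg
      have hR' : R ≤ K := CfsgLib.FFModules.pCoreOf_le K
      have hxmem : (x : G) ∈ ⁅K, J⁆ ⊔ R := by
        have h : ((x * (x * j * x⁻¹ * j⁻¹) : ↥L) : G) ∈ R := by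
          rw [hRe]
          refine ⟨K.mul_mem hxK ?_, mk_eq_one_iff.1 ?_⟩
          · refine (commutator_le.2 fun k hk i hi => ?_) hcm
            rw [commutatorElement_def, show k * i * k⁻¹ * i⁻¹ = k * (i * k⁻¹ * i⁻¹) by group]
            exact K.mul_mem hk (conj_mem_of_mem_normalizer (hJK hi) (inv_mem hk))
          · show q _ = 1
            rw [map_mul, hc, hxe, mul_inv_cancel]
        have h' := mul_mem (mem_sup_right (S := ⁅K, J⁆) h) (inv_mem (mem_sup_left (T := R) hcm))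
        simpa [mul_assoc] using h'
      rw [← hsup] at hg
      exact (sup_le le_sup_right (zpowers_le.2 hxmem)) hg
    have hn : R ≤ normalizer ((⁅K, J⁆ : Subgroup G) : Set G) := by
      refine (CfsgLib.FFModules.pCoreOf_le K).trans ?_
      rw [commutator_comm]
      exact le_normalizer_commutator_right J K
    calc K = oddGen K := (oddGen_oddGen _).symm
      _ ≤ oddGen (⁅K, J⁆ ⊔ R) := oddGen_mono hle
      _ ≤ _ := oddGen_sup_le (CfsgLib.FFModules.isPGroup_pCoreOf K) hn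
  -- the four-group
  have hfpf : ∀ w ∈ wOf K, (x : G) * w = w * x → w = 1 := fun w hw hc =>
    fpf_of_sup_eq hxK hsup hxo hw hc
  have hKW : normalizer (K : Set G) ≤ normalizer (wOf K : Set G) :=
    normalizer_le_normalizer_wOf K
  set V := omegaCenterOf Q with hV
  obtain ⟨v, hvV, hxv⟩ : ∃ v ∈ V, (x : G) * v * (x : G)⁻¹ ≠ v := by
    by_contra! hall
    have hp : proj L e = 1 := by
      rw [← hxe]
      refine proj_eq_one_iff.2 (mem_centralizer_iff.2 fun v hv => ?_)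
      exact (mul_inv_eq_iff_eq_mul.1 (hall v hv)).symm
    refine he2 ?_
    have h := cE_inverted hZN hT hT1 hL hs heE
    rwa [← (hS.kerComm e hp s hs.1).eq, mul_inv_cancel_right] at h
  set c := (x : G) * v * (x : G)⁻¹ * v⁻¹ with hc
  have hvQ : v ∈ Q := omegaCenterOf_le _ hvV
  have hxV : (x : G) ∈ normalizer (V : Set G) := le_normalizer_omega L x.2
  have hcV : c ∈ V := V.mul_mem (conj_mem_of_mem_normalizer hxV hvV) (V.inv_mem hvV)
  have hcR : c ∈ R := by
    rw [hRe]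
    refine ⟨?_, omegaCenterOf_le _ hcV⟩
    rw [hc, show (x : G) * v * (x : G)⁻¹ * v⁻¹ = (x : G) * (v * (x : G)⁻¹ * v⁻¹) by group]
    exact K.mul_mem hxK (conj_mem_of_mem_normalizer (hQK hvQ) (inv_mem hxK))
  have hc1 : c * c = 1 := mul_self_of_mem (isElementaryAbelian_omegaCenterOf _) hcV
  have hcU : c ∈ omegaCenterOf R := mem_omegaOne ⟨hcR,
    centralizer_le (hRe.trans_le inf_le_right) (omegaCenterOf_le_centralizer _ hcV)⟩
    (by rw [pow_two]; exact hc1)
  set d := c * (x : G) * c⁻¹ * (x : G)⁻¹ with hd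
  have hdW : d ∈ wOf K := by
    have := commutator_mem_commutator hcU hxK
    rw [commutatorElement_def] at this
    exact this
  have hd1 : d ≠ 1 := by
    intro h
    have hcx : (x : G) * c * (x : G)⁻¹ = c := by
      rw [hd, mul_inv_eq_one, mul_inv_eq_iff_eq_mul] at h
      rw [← h, mul_inv_cancel_right]
    have h2 : (x : G) * ((x : G) * v * (x : G)⁻¹) * (x : G)⁻¹ = v := by
      calc _ = (x : G) * (c * v) * (x : G)⁻¹ := by rw [hc]; group
        _ = ((x : G) * c * (x : G)⁻¹) * ((x : G) * v * (x : G)⁻¹) := by group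
        _ = c * (c * v) := by rw [hcx, hc]; group
        _ = v := by rw [← mul_assoc, hc1, one_mul]
    refine hxv ?_
    calc (x : G) * v * (x : G)⁻¹
        = (x : G) * ((x : G) * ((x : G) * v * (x : G)⁻¹) * (x : G)⁻¹) * (x : G)⁻¹ := by rw [h2]
      _ = ((x : G) * x * x) * v * ((x : G) * x * x)⁻¹ := by group
      _ = v := by rw [hx3]; group
  have hdV : d ∈ V := by
    rw [hd, show c * (x : G) * c⁻¹ * (x : G)⁻¹ = c * ((x : G) * c⁻¹ * (x : G)⁻¹) by group]
    exact V.mul_mem hcV (conj_mem_of_mem_normalizer hxV (V.inv_mem hcV))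
  have hW1 : wOf K ≠ ⊥ := fun h => hd1 (mem_bot.1 (h ▸ hdW))
  have hRT : R ≤ T := (hRe.trans_le inf_le_right).trans (core_le_sylow hL.1)
  -- an elementary abelian subgroup of largest order inverting `x`
  obtain ⟨A, hA, a, ha, hae⟩ : ∃ A, IsMaxEA 2 T A ∧ ∃ a : ↥L, (a : G) ∈ A ∧
      q a * e * (q a)⁻¹ ≠ e := by
    by_contra! hall
    refine he2 ?_
    have hle : J ≤ ((centralizer ({e} : Set _)).comap q).map L.subtype :=
      thompsonSubgroupOf_le_iff.2 fun A hA a ha =>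
        ⟨⟨a, hJL (le_thompsonSubgroupOf hA ha)⟩, mem_centralizer_singleton_iff.2
          (mul_inv_eq_iff_eq_mul.1 (hall A hA ⟨a, hJL (le_thompsonSubgroupOf hA ha)⟩ ha)), rfl⟩
    obtain ⟨j', hj', ej⟩ := hle hjJ
    have ej' : j' = j := L.subtype_injective ej
    have h := cE_inverted hZN hT hT1 hL hs heE
    rw [ej'] at hj'
    rw [← hjs] at h
    rwa [mul_inv_eq_iff_eq_mul.2 (mem_centralizer_singleton_iff.1 hj')] at h
  have hAJ : A ≤ J := le_thompsonSubgroupOf hA
  have hcase : ∀ b : ↥L, (b : G) ∈ A → q b * e * (q b)⁻¹ = e ∨ q b * e * (q b)⁻¹ = e⁻¹ := by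
    intro b hb
    have hn : q b ∈ normalizer (cE L s : Set _) := by
      refine (closure_le _).2 ?_ (jImage_le_lifts hZN hT hT1 hL ⟨b, hAJ hb, rfl⟩)
      rintro c' ⟨w, hc'⟩
      exact lift_mem_normalizer_cE hZN hT hT1 hL hs hc'
    refine (three_cases (cE_card hZN hT hT1 hL hs) heE he1
      (conj_mem_of_mem_normalizer hn heE)).resolve_left fun h => he1 ?_
    rwa [mul_inv_eq_one, mul_eq_left] at h
  have hRc : ∀ r ∈ R, ∀ w ∈ wOf K, r * w * r⁻¹ = w := fun r hr w hw =>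
    mul_inv_eq_iff_eq_mul.2 (omegaCenterOf_le_centralizer _ (wOf_le_omega K hw) r hr)
  have hxW : ∀ w ∈ wOf K, (x : G) * w * (x : G)⁻¹ ∈ wOf K := fun w hw =>
    conj_mem_of_mem_normalizer (hKW (le_normalizer hxK)) hw
  have hxW' : ∀ w ∈ wOf K, (x : G)⁻¹ * w * x ∈ wOf K := fun w hw =>
    conj_inv_mem_of_mem_normalizer (hKW (le_normalizer hxK)) hw
  have hrel : ∀ (b : ↥L) (y : ↥L), (b : G) ∈ A → (y : G) ∈ K → q b * e * (q b)⁻¹ = q y →
      ((b * x * b⁻¹ * y⁻¹ : ↥L) : G) ∈ R := by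
    intro b y hb hy h
    rw [hRe]
    refine ⟨K.mul_mem (conj_mem_of_mem_normalizer (hJK (hAJ hb)) hxK) (K.inv_mem hy),
      mk_eq_one_iff.1 ?_⟩
    show q _ = 1
    rw [map_mul, map_mul, map_mul, map_inv, map_inv, hxe, h, mul_inv_cancel]
  have hact1 : ∀ b : ↥L, (b : G) ∈ A → q b * e * (q b)⁻¹ = e → ∀ w ∈ wOf K,
      (b : G) * (x * w * (x : G)⁻¹) * (b : G)⁻¹ = x * (b * w * (b : G)⁻¹) * (x : G)⁻¹ := by
    intro b hb h w hw
    have hbw : (b : G) * w * (b : G)⁻¹ ∈ wOf K :=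
      conj_mem_of_mem_normalizer (hKW (hJK (hAJ hb))) hw
    conv_rhs => rw [← hRc _ (hrel b x hb hxK (h.trans hxe.symm)) _ (hxW _ hbw)]
    simp only [Subgroup.coe_mul, Subgroup.coe_inv]
    group
  have hact2 : ∀ b : ↥L, (b : G) ∈ A → q b * e * (q b)⁻¹ = e⁻¹ → ∀ w ∈ wOf K,
      (b : G) * (x * w * (x : G)⁻¹) * (b : G)⁻¹ = (x : G)⁻¹ * (b * w * (b : G)⁻¹) * x := by
    intro b hb h w hw
    have hbw : (b : G) * w * (b : G)⁻¹ ∈ wOf K :=
      conj_mem_of_mem_normalizer (hKW (hJK (hAJ hb))) hw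
    conv_rhs => rw [← hRc _ (hrel b x⁻¹ hb (K.inv_mem hxK) (by rw [h, map_inv, hxe])) _
      (hxW' _ hbw)]
    simp only [Subgroup.coe_mul, Subgroup.coe_inv]
    group
  have hfour : Nat.card ↥(wOf K) = 4 := by
    refine card_eq_four hT hA ha ((wOf_le_core K).trans hRT)
      (isElementaryAbelian_mono (isElementaryAbelian_omegaCenterOf _) (wOf_le_omega K)) hW1
      hx3 hxW ((hAJ.trans hJK).trans hKW) hfpf (fun b hb => ?_)
      (hact2 a ha ((hcase a ha).resolve_left hae))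
    exact (hcase ⟨b, hJL (hAJ hb)⟩ hb).imp (hact1 ⟨b, hJL (hAJ hb)⟩ hb)
      (hact2 ⟨b, hJL (hAJ hb)⟩ hb)
  have hWsq : ∀ w ∈ wOf K, w * w = 1 := fun w hw =>
    mul_self_of_mem (isElementaryAbelian_omegaCenterOf _) (wOf_le_omega K hw)
  refine ⟨⟨oddGen_oddGen _, hcomm, relIndex_core hZN hT hT1 hL hs, fun S hS' hJS => ?_, hfour,
    hWsq⟩, fun z hz => ?_⟩
  · exact thompson_eq_of_le_local hL.1 (hS'.1.trans (sup_le hKL hJL)) hS'.2.1 hJS
  · have hxd1 : (x : G) * d * (x : G)⁻¹ ≠ 1 := fun h => hd1 (by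
      rwa [mul_inv_eq_one, mul_eq_left] at h)
    have hxd : (x : G) * d * (x : G)⁻¹ ≠ d := fun h =>
      hd1 (hfpf d hdW (mul_inv_eq_iff_eq_mul.1 h))
    have hxdV := conj_mem_of_mem_normalizer hxV hdV
    rcases four_cases hfour hWsq hdW (hxW d hdW) hd1 hxd1 hxd hz with rfl | rfl | rfl | rfl
    · exact one_mem _
    · exact hdV
    · exact hxdV
    · exact mul_mem hxdV hdV

/-- Every component in `L` comes from a lift. -/
theorem exists_comp_eq {K : Subgroup G} (hK : IsJComponent T K) (hKL : K ≤ L) :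
    ∃ (s : ↥L ⧸ pCore 2 ↥L) (u : ↥(omegaCenterOf (pCoreOf 2 L))),
      s ∈ jImage T L ∧ LTV (proj L) s u ∧ K = comp L s := by
  have hS := liftSetting hZN hT hT1 hL
  set q := QuotientGroup.mk' (pCore 2 ↥L) with hq
  set J := thompsonSubgroupOf 2 T with hJ
  set Q := pCoreOf 2 L with hQ
  set N := closure {c | ∃ w : ↥(omegaCenterOf (pCoreOf 2 L)), LTV (proj L) c w} with hN
  have hJL : J ≤ L := thompson_le_local hT hL
  have hNn : ∀ g, ∀ n ∈ N, g * n * g⁻¹ ∈ N := by
    intro g n hn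
    induction hn using closure_induction with
    | mem c hc =>
      obtain ⟨w, hc⟩ := hc
      exact subset_closure ⟨_, hc.conj hS g⟩
    | one => simp
    | mul a b _ _ iha ihb => simpa [mul_assoc] using mul_mem iha ihb
    | inv a _ ih => simpa [mul_assoc] using inv_mem ih
  have hKN : K ≤ (N.comap q).map L.subtype := by
    conv_lhs => rw [← hK.2.1]
    refine commutator_le.2 fun k hk j hj => ?_
    refine ⟨⁅(⟨k, hKL hk⟩ : ↥L), ⟨j, hJL hj⟩⁆, ?_, by simp [commutatorElement_def]⟩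
    show q _ ∈ N
    have hjN : q ⟨j, hJL hj⟩ ∈ N := jImage_le_lifts hZN hT hT1 hL ⟨_, hj, rfl⟩
    rw [map_commutatorElement, commutatorElement_def]
    exact N.mul_mem (hNn _ _ hjN) (N.inv_mem hjN)
  have hKP : K ≤ ((lP (fittingSubgroup ↥(actL L).range) (proj L)
      ↥(omegaCenterOf (pCoreOf 2 L))).comap q).map L.subtype := by
    conv_lhs => rw [← hK.1]
    refine (closure_le _).2 fun g hg => ?_
    obtain ⟨g', hg', e⟩ := hKN hg.1
    refine ⟨g', odd_mem_lP hS hg' ?_, e⟩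
    refine Odd.of_dvd_nat ?_ (orderOf_map_dvd q g')
    rw [← Subgroup.orderOf_coe, show (g' : G) = g from e]
    exact hg.2
  have hK3 : ∀ g ∈ K, g ^ 3 ∈ Q := by
    intro g hg
    obtain ⟨g', hg', e⟩ := hKP hg
    rw [← e, ← map_pow]
    show ((g' ^ 3 : ↥L) : G) ∈ Q
    refine mk_eq_one_iff.1 ?_
    show q (g' ^ 3) = 1
    rw [map_pow]
    exact lP_pow_three hS hg'
  have hR := core_eq_inf hKL hK3
  obtain ⟨x, hx, hxR, hxo⟩ := comp_exists_odd hK
  set x' : ↥L := ⟨x, hKL hx⟩ with hx'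
  have hxP : q x' ∈ lP (fittingSubgroup ↥(actL L).range) (proj L)
      ↥(omegaCenterOf (pCoreOf 2 L)) := by
    obtain ⟨g', hg', e⟩ := hKP hx
    have e' : g' = x' := Subtype.ext e
    exact e' ▸ hg'
  set k := q x' with hk
  have hk1 : k ≠ 1 := fun h => hxR (hR ▸ ⟨hx, mk_eq_one_iff.1 h⟩)
  have hk3 : Nat.card ↥(zpowers k) = 3 := by
    rw [Nat.card_zpowers]
    exact orderOf_eq_prime (hp := ⟨Nat.prime_three⟩) (lP_pow_three hS hxP) hk1
  -- images of elements of `K`
  have hKk : ∀ g (hg : g ∈ K), q ⟨g, hKL hg⟩ ∈ zpowers k := by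
    intro g hg
    have hle : K ≤ ((zpowers k).comap q).map L.subtype := by
      conv_lhs => rw [← comp_sup_eq hK hx hxR]
      refine sup_le (fun r hr => ?_) (zpowers_le.2 ⟨x', mem_zpowers k, rfl⟩)
      refine ⟨⟨r, hKL (CfsgLib.FFModules.pCoreOf_le K hr)⟩, ?_, rfl⟩
      show q _ ∈ zpowers k
      rw [show q ⟨r, hKL (CfsgLib.FFModules.pCoreOf_le K hr)⟩ = 1 from
        mk_eq_one_iff.2 (hR ▸ hr : r ∈ K ⊓ Q).2]
      exact one_mem _
    obtain ⟨g', hg', e⟩ := hle hg
    have e' : g' = ⟨g, hKL hg⟩ := Subtype.ext e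
    exact e' ▸ hg'
  obtain ⟨s, ⟨hsJ, u, hs⟩, hsk⟩ : ∃ s, (s ∈ jImage T L ∧
      ∃ w : ↥(omegaCenterOf (pCoreOf 2 L)), LTV (proj L) s w) ∧ s * k * s⁻¹ ≠ k := by
    by_contra! hall
    have hJc : jImage T L ≤ centralizer ({k} : Set _) :=
      (thompson_generated hZN hT hT1 hL).trans ((closure_le _).2 fun s hs =>
        mem_centralizer_singleton_iff.2 (mul_inv_eq_iff_eq_mul.1 (hall s hs)))
    refine hxR (hR ▸ ⟨hx, ?_⟩)
    have hle : K ≤ Q := by
      conv_lhs => rw [← hK.2.1]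
      refine commutator_le.2 fun g hg j hj => ?_
      have h1 : Commute (q ⟨j, hJL hj⟩) k :=
        mem_centralizer_singleton_iff.1 (hJc ⟨_, hj, rfl⟩)
      obtain ⟨i, hi⟩ := mem_zpowers_iff.1 (hKk g hg)
      have h2 : q ⁅(⟨g, hKL hg⟩ : ↥L), ⟨j, hJL hj⟩⁆ = 1 := by
        rw [map_commutatorElement, ← hi, commutatorElement_eq_one_iff_mul_comm]
        exact ((h1.zpow_right i).symm).eq
      simpa [commutatorElement_def] using mk_eq_one_iff.1 h2
    exact hle hx
  obtain ⟨j, hj, hjs⟩ := hsJ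
  have hsk' : s * k * s⁻¹ = k⁻¹ := by
    have hm : s * k * s⁻¹ ∈ zpowers k := by
      have h := hKk _ (conj_mem_of_mem_normalizer (comp_le_normalizer hK hj) hx)
      have h' : q (j * x' * j⁻¹) ∈ zpowers k := h
      rwa [map_mul, map_mul, map_inv, show q j = s from hjs] at h'
    rcases three_cases hk3 (mem_zpowers k) hk1 hm with h | h | h
    · rw [mul_inv_eq_one, mul_eq_left] at h; exact absurd h hk1
    · exact absurd h hsk
    · exact h
  have hkE : k ∈ cE L s := by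
    have hNl : ∀ g ∈ N, ∀ t ∈ lcl (fittingSubgroup ↥(actL L).range) (proj L) s,
        g * t * g⁻¹ ∈ lcl (fittingSubgroup ↥(actL L).range) (proj L) s ∧
          g⁻¹ * t * g ∈ lcl (fittingSubgroup ↥(actL L).range) (proj L) s := by
      intro g hg
      induction hg using closure_induction with
      | mem c hc =>
        obtain ⟨w, hc⟩ := hc
        intro t ht
        have h := conj_mem_lcl hS hs hc ht
        exact ⟨h, by rwa [inv_eq_of_sq hc.1] at h ⊢⟩
      | one => intro t ht; simp [ht]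
      | mul a b _ _ iha ihb =>
        intro t ht
        exact ⟨by simpa [mul_assoc] using (iha _ (ihb t ht).1).1,
          by simpa [mul_assoc] using (ihb _ (iha t ht).2).2⟩
      | inv a _ ih => intro t ht; exact ⟨by simpa using (ih t ht).2, by simpa using (ih t ht).1⟩
    have hkN : k ∈ N := by
      obtain ⟨g', hg', e⟩ := hKN hx
      have e' : g' = x' := Subtype.ext e
      have hg'' : q g' ∈ N := hg'
      rwa [e'] at hg''
    have h := (hNl k hkN s (self_mem_lcl hS hs.1)).1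
    have hmem : s * (k * s * k⁻¹) ∈ cE L s :=
      subset_closure ⟨s, self_mem_lcl hS hs.1, _, h, rfl⟩
    have hkk : s * (k * s * k⁻¹) = k := by
      calc s * (k * s * k⁻¹) = (s * k * s⁻¹) * (s * s) * k⁻¹ := by group
        _ = k⁻¹ * k⁻¹ := by rw [hsk', hs.1, mul_one]
        _ = k := by
          rw [← mul_inv_rev, inv_eq_iff_mul_eq_one, ← pow_three']
          exact lP_pow_three hS hxP
    rwa [hkk] at hmem
  have hcEk : cE L s = zpowers k :=
    (eq_of_le_of_card_ge (zpowers_le.2 hkE) (by rw [hk3, cE_card hZN hT hT1 hL hs])).symm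
  have hKpre : K ≤ pre L s := fun g hg => mem_pre.2 ⟨hKL hg, hcEk ▸ hKk g hg⟩
  have hKQ : pre L s ≤ K ⊔ Q := by
    intro g hg
    obtain ⟨hgL, hg⟩ := mem_pre.1 hg
    rw [hcEk] at hg
    obtain ⟨i, hi⟩ := mem_zpowers_iff.1 hg
    have h : (((x' ^ i)⁻¹ * ⟨g, hgL⟩ : ↥L) : G) ∈ Q := by
      refine mk_eq_one_iff.1 ?_
      show q _ = 1
      rw [map_mul, map_inv, map_zpow, inv_mul_eq_one]
      exact hi
    rw [show g = x ^ i * (((x' ^ i)⁻¹ * ⟨g, hgL⟩ : ↥L) : G) by simp [hx']]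
    exact mul_mem_sup (zpow_mem hx i) h
  -- `Q` normalises `K`
  have hQK : Q ≤ normalizer (K : Set G) := by
    set Y := K ⊔ J with hY
    have hYL : Y ≤ L := sup_le hKL hJL
    have hQT : Q ≤ T := core_le_sylow hL.1
    let H : Subgroup G :=
      { carrier := {y | y ∈ Y ∧ ∀ v ∈ Q, v * y * v⁻¹ ∈ Y}
        one_mem' := ⟨Y.one_mem, fun v _ => by simp⟩
        mul_mem' := fun {a b} ha hb => ⟨Y.mul_mem ha.1 hb.1, fun v hv => by
          rw [show v * (a * b) * v⁻¹ = (v * a * v⁻¹) * (v * b * v⁻¹) by group]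
          exact Y.mul_mem (ha.2 v hv) (hb.2 v hv)⟩
        inv_mem' := fun {a} ha => ⟨Y.inv_mem ha.1, fun v hv => by
          rw [show v * a⁻¹ * v⁻¹ = (v * a * v⁻¹)⁻¹ by group]
          exact Y.inv_mem (ha.2 v hv)⟩ }
    have hJH : J ≤ H := fun j hj => ⟨le_sup_right (a := K) hj, fun v hv =>
      le_sup_right (a := K) (conj_mem_of_mem_normalizer
        (normalizer_le_normalizer_thompsonSubgroupOf 2 T (le_normalizer (hQT hv))) hj)⟩
    have hKH : K ≤ H := by
      conv_lhs => rw [← hK.2.1]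
      refine commutator_le.2 fun g hg j hj => ?_
      rw [commutatorElement_def]
      refine H.mul_mem ⟨Y.mul_mem (Y.mul_mem (le_sup_left (b := J) hg)
        (le_sup_right (a := K) hj)) (Y.inv_mem (le_sup_left (b := J) hg)), fun v hv => ?_⟩
        (H.inv_mem (hJH hj))
      have hgY : g ∈ Y := le_sup_left (b := J) hg
      have hv' : g⁻¹ * v * g ∈ Q := conj_inv_mem_of_mem_normalizer
        (CfsgLib.FFModules.le_normalizer_pCoreOf L (hKL hg)) hv
      rw [show v * (g * j * g⁻¹) * v⁻¹ =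
        g * ((g⁻¹ * v * g) * j * (g⁻¹ * v * g)⁻¹) * g⁻¹ by group]
      exact Y.mul_mem (Y.mul_mem hgY ((hJH hj).2 _ hv')) (Y.inv_mem hgY)
    have hKY : oddGen Y = K := by
      refine le_antisymm (oddGen_sup_le (isPGroup_thompson hK hT) (comp_le_normalizer hK)) ?_
      conv_lhs => rw [← hK.1]
      exact oddGen_mono le_sup_left
    rw [← hKY]
    refine le_trans (fun v hv => mem_normalizer_of_forall fun y hy => ?_)
      (normalizer_le_normalizer_oddGen _)
    exact ((sup_le hKH hJH) hy).2 v hv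
  refine ⟨s, u, ⟨j, hj, hjs⟩, hs, le_antisymm ?_ ?_⟩
  · conv_lhs => rw [← hK.1]
    exact oddGen_mono hKpre
  · exact (oddGen_mono hKQ).trans (oddGen_sup_le (CfsgLib.FFModules.isPGroup_pCoreOf L) hQK)

/-- There is a component in `L`. -/
theorem exists_component : ∃ K, IsJComponent T K ∧ K ≤ L := by
  by_contra! hno
  refine hL.2.1 fun j hj => ?_
  have h := thompson_generated hZN hT hT1 hL (x := QuotientGroup.mk' _ ⟨j, thompson_le_local hT hL hj⟩)
    ⟨_, hj, rfl⟩
  have hempty : {s | s ∈ jImage T L ∧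
      ∃ w : ↥(omegaCenterOf (pCoreOf 2 L)), LTV (proj L) s w} = ∅ :=
    Set.eq_empty_of_forall_notMem fun s ⟨hsJ, w, hs⟩ =>
      hno _ (isJComponent_comp hZN hT hT1 hL hsJ hs).1 (comp_le L s)
  rw [← jImage, hempty, Subgroup.closure_empty, mem_bot] at h
  exact mk_eq_one_iff.1 h

theorem wOf_le_omega_local {K : Subgroup G} (hK : IsJComponent T K) (hKL : K ≤ L) :
    wOf K ≤ omegaCenterOf (pCoreOf 2 L) := by
  obtain ⟨s, u, hsJ, hs, rfl⟩ := exists_comp_eq hZN hT hT1 hL hK hKL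
  exact (isJComponent_comp hZN hT hT1 hL hsJ hs).2

theorem core_le_normalizer_component {K : Subgroup G} (hK : IsJComponent T K) (hKL : K ≤ L) :
    pCoreOf 2 L ≤ normalizer (K : Set G) := by
  obtain ⟨s, u, -, -, rfl⟩ := exists_comp_eq hZN hT hT1 hL hK hKL
  exact core_le_normalizer_comp L s

/-- Components of `L` normalise one another. -/
theorem component_le_normalizer {K K' : Subgroup G} (hK : IsJComponent T K) (hKL : K ≤ L)
    (hK' : IsJComponent T K') (hKL' : K' ≤ L) : K' ≤ normalizer (K : Set G) := by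
  obtain ⟨s, u, -, hs, rfl⟩ := exists_comp_eq hZN hT hT1 hL hK hKL
  obtain ⟨s', u', -, hs', rfl⟩ := exists_comp_eq hZN hT hT1 hL hK' hKL'
  intro g hg
  obtain ⟨hgL, hg'⟩ := mem_pre.1 (comp_le_pre L s' hg)
  refine (mem_normalizer_pre ⟨g, hgL⟩ (mem_normalizer_of_forall fun e he => ?_)).2
  rwa [(lE_commute (liftSetting hZN hT hT1 hL) hs' hs hg' he).eq, mul_inv_cancel_right]

/-- **Components of `L` are subnormal.** -/
theorem component_isSubnormal {K : Subgroup G} (hK : IsJComponent T K) (hKL : K ≤ L) :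
    (K.subgroupOf L).IsSubnormal := by
  have hS := liftSetting hZN hT hT1 hL
  obtain ⟨s, u, -, hs, rfl⟩ := exists_comp_eq hZN hT hT1 hL hK hKL
  set q := QuotientGroup.mk' (pCore 2 ↥L)
  set P := lP (fittingSubgroup ↥(actL L).range) (proj L) ↥(omegaCenterOf (pCoreOf 2 L)) with hP
  haveI : P.Normal := ⟨fun e he g => conj_mem_lP hS g he⟩
  have hPn : (P.comap q).Normal := inferInstance
  have hsub : cE L s ≤ P := lE_le_lP hS hs
  refine IsSubnormal.step _ ((cE L s).comap q) ?_ ?_ ?_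
  · intro g hg
    obtain ⟨hgL, h⟩ := mem_pre.1 (comp_le_pre L s hg)
    exact h
  · refine IsSubnormal.step _ (P.comap q) (comap_mono hsub) hPn.isSubnormal ?_
    refine (normal_subgroupOf_iff_le_normalizer (comap_mono hsub)).2 fun g hg =>
      mem_normalizer_of_forall fun y hy => ?_
    show q (g * y * g⁻¹) ∈ cE L s
    haveI := lP_comm hS
    have hc : Commute (q g) (q y) := congrArg Subtype.val
      (mul_comm' (⟨q g, hg⟩ : ↥P) ⟨q y, hsub hy⟩)
    rw [map_mul, map_mul, map_inv, hc.eq, mul_inv_cancel_right]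
    exact hy
  · refine (normal_subgroupOf_iff_le_normalizer ?_).2 fun g hg =>
      mem_normalizer_of_forall fun y hy => ?_
    · intro g hg
      obtain ⟨hgL, h⟩ := mem_pre.1 (comp_le_pre L s hg)
      exact h
    show ((g * y * g⁻¹ : ↥L) : G) ∈ comp L s
    exact conj_mem_of_mem_normalizer (normalizer_le_normalizer_oddGen _
      (le_normalizer (mem_pre.2 ⟨g.2, hg⟩ : (g : G) ∈ pre L s))) hy

/-- The centre of a lift lies in the four-group of its component. -/
theorem center_mem_wOf {s' : ↥L ⧸ pCore 2 ↥L} {u' : ↥(omegaCenterOf (pCoreOf 2 L))}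
    (hsJ' : s' ∈ jImage T L) (hs' : LTV (proj L) s' u') : (u' : G) ∈ wOf (comp L s') := by
  have hS := liftSetting hZN hT hT1 hL
  set q := QuotientGroup.mk' (pCore 2 ↥L) with hq
  obtain ⟨hK', hWV'⟩ := isJComponent_comp hZN hT hT1 hL hsJ' hs'
  obtain ⟨t', ht', hne', -⟩ := exists_lpartner hS hs'
  have heE' : s' * t' ∈ cE L s' := subset_closure ⟨s', self_mem_lcl hS hs'.1, t', ht', rfl⟩
  obtain ⟨x', hxK', hx3', hxo', hxe'⟩ := exists_preimage hZN hT hT1 hL hs' heE'
  have hxR₂ : (x' : G) ∉ pCoreOf 2 (comp L s') := fun h => by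
    rw [pCoreOf_comp hZN hT hT1 hL hs'] at h
    exact hne' ((eq_inv_of_mul_eq_one_right (hxe'.symm.trans (mk_eq_one_iff.2 h.2))).trans
      (inv_eq_of_sq hs'.1))
  have hact : ∀ (g : ↥L) (v : ↥(omegaCenterOf (pCoreOf 2 L))),
      ((proj L (q g) • v : ↥(omegaCenterOf (pCoreOf 2 L))) : G) = (g : G) * v * (g : G)⁻¹ :=
    fun g v => smul_coe g v
  obtain ⟨j, hj, hjs⟩ := id hsJ'
  obtain ⟨v, hv, hjv⟩ : ∃ v ∈ wOf (comp L s'), (j : G) * v * (j : G)⁻¹ ≠ v := by
    by_contra! hall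
    have hinv : ((j * x' * j⁻¹ * x' : ↥L) : G) ∈ pCoreOf 2 (comp L s') := by
      rw [pCoreOf_comp hZN hT hT1 hL hs']
      refine ⟨mul_mem (conj_mem_of_mem_normalizer (comp_le_normalizer hK' hj) hxK') hxK',
        mk_eq_one_iff.1 ?_⟩
      show q _ = 1
      rw [map_mul, map_mul, map_mul, map_inv, show q j = s' from hjs, hxe',
        cE_inverted hZN hT hT1 hL hs' heE', inv_mul_cancel]
    have hWn : ∀ w ∈ wOf (comp L s'), (x' : G) * w * (x' : G)⁻¹ ∈ wOf (comp L s') := fun w hw =>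
      conj_mem_of_mem_normalizer (normalizer_le_normalizer_wOf _ (le_normalizer hxK')) hw
    refine absurd (wOf_card hK') ?_
    suffices hbot : wOf (comp L s') = ⊥ by rw [hbot, card_bot]; omega
    refine (eq_bot_iff_forall _).2 fun w hw =>
      wOf_fpf hK' hxK' hxR₂ hxo' hw (mul_inv_eq_iff_eq_mul.1 ?_)
    have hr := mem_centralizer_iff.1 (core_centralizes_wOf hK' hinv) w hw
    simp only [Subgroup.coe_mul, Subgroup.coe_inv] at hr
    have hjw : (j : G)⁻¹ * w * j = w := by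
      conv_lhs => rw [← hall w hw]
      group
    have hjw' : (j : G)⁻¹ * ((x' : G) * w * (x' : G)⁻¹) * j = (x' : G) * w * (x' : G)⁻¹ := by
      conv_lhs => rw [← hall _ (hWn w hw)]
      group
    have hkey : (x' : G) * ((x' : G) * w * (x' : G)⁻¹) * (x' : G)⁻¹ = w := by
      calc _ = (j : G) * ((x' : G) * ((j : G)⁻¹ * ((x' : G) * w * (x' : G)⁻¹) * j) *
            (x' : G)⁻¹) * (j : G)⁻¹ := by rw [hjw', hall _ (hWn _ (hWn w hw))]
        _ = ((j : G) * x' * (j : G)⁻¹ * x') * w * ((j : G) * x' * (j : G)⁻¹ * x')⁻¹ := by group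
        _ = w := mul_inv_eq_iff_eq_mul.2 hr.symm
    calc (x' : G) * w * (x' : G)⁻¹
        = (x' : G) * ((x' : G) * ((x' : G) * w * (x' : G)⁻¹) * (x' : G)⁻¹) * (x' : G)⁻¹ := by
          rw [hkey]
      _ = ((x' : G) * x' * x') * w * ((x' : G) * x' * x')⁻¹ := by group
      _ = w := by rw [hx3']; group
  rcases hs'.2.moves ⟨v, hWV' hv⟩ with h | h
  · refine absurd ?_ hjv
    have := hact j ⟨v, hWV' hv⟩
    rw [show q j = s' from hjs, h] at this
    exact this.symm
  · have := hact j ⟨v, hWV' hv⟩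
    rw [show q j = s' from hjs, h] at this
    have h' : (u' : G) = v⁻¹ * ((j : G) * v * (j : G)⁻¹) := by
      rw [← this]; simp
    rw [h']
    exact mul_mem (inv_mem hv) (conj_mem_of_mem_normalizer (normalizer_le_normalizer_wOf _
      (comp_le_normalizer hK' hj)) hv)

/-- A component centralises the four-group of every other component of `L`. -/
theorem wOf_le_centralizer_of_ne {K K' : Subgroup G} (hK : IsJComponent T K) (hKL : K ≤ L)
    (hK' : IsJComponent T K') (hKL' : K' ≤ L) (hne0 : K ≠ K') :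
    wOf K' ≤ centralizer (K : Set G) := by
  have hS := liftSetting hZN hT hT1 hL
  obtain ⟨s, u, hsJ, hs, rfl⟩ := exists_comp_eq hZN hT hT1 hL hK hKL
  obtain ⟨s', u', hsJ', hs', rfl⟩ := exists_comp_eq hZN hT hT1 hL hK' hKL'
  set q := QuotientGroup.mk' (pCore 2 ↥L) with hq
  by_cases hcl : s' ∈ lcl (fittingSubgroup ↥(actL L).range) (proj L) s
  · refine absurd ?_ hne0
    show oddGen _ = oddGen _
    rw [pre, pre, show cE L s' = cE L s from lE_congr hS hcl]
  intro z hz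
  obtain ⟨t, ht, hne, w₁, ht₁, -⟩ := exists_lpartner hS hs
  obtain ⟨t', ht', hne', -⟩ := exists_lpartner hS hs'
  have heE : s * t ∈ cE L s := subset_closure ⟨s, self_mem_lcl hS hs.1, t, ht, rfl⟩
  have heE' : s' * t' ∈ cE L s' := subset_closure ⟨s', self_mem_lcl hS hs'.1, t', ht', rfl⟩
  obtain ⟨x, hxK, hx3, hxo, hxe⟩ := exists_preimage hZN hT hT1 hL hs heE
  obtain ⟨x', hxK', hx3', hxo', hxe'⟩ := exists_preimage hZN hT hT1 hL hs' heE'
  have hne1 : ∀ {a b : ↥L ⧸ pCore 2 ↥L}, b * b = 1 → b ≠ a → a * a = 1 → a * b ≠ 1 :=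
    fun hb hba ha h => hba ((eq_inv_of_mul_eq_one_right h).trans (inv_eq_of_sq ha))
  have hxR : ∀ {a b : ↥L ⧸ pCore 2 ↥L} {g : ↥L} {v : ↥(omegaCenterOf (pCoreOf 2 L))}, LTV (proj L) a v → q g = b → b ≠ 1 →
      (g : G) ∈ comp L a → (g : G) ∉ pCoreOf 2 (comp L a) := by
    intro a b g v ha hg hb _ h
    rw [pCoreOf_comp hZN hT hT1 hL ha] at h
    exact hb (hg ▸ mk_eq_one_iff.2 h.2)
  have hxR₁ := hxR hs hxe (hne1 ht.1 hne hs.1) hxK
  have hxR₂ := hxR hs' hxe' (hne1 ht'.1 hne' hs'.1) hxK'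
  have hact : ∀ (g : ↥L) (v : ↥(omegaCenterOf (pCoreOf 2 L))),
      ((proj L (q g) • v : ↥(omegaCenterOf (pCoreOf 2 L))) : G) = (g : G) * v * (g : G)⁻¹ := fun g v => smul_coe g v
  -- the centre of `s'` lies in `W'` and is fixed by `x`
  have hcomm : Commute (s * t) s' := by
    refine (commute_of_not_mem_lcl hS hs hs' hcl).mul_left
      (commute_of_not_mem_lcl hS ht₁ hs' ?_)
    rwa [lcl_eq_of_mem hS ht]
  have hfix : proj L (s * t) • u' = u' := by
    have h := hs'.conj hS (s * t)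
    rw [hcomm.eq, mul_inv_cancel_right] at h
    exact (hs'.2.unique h.2).symm
  have hfix' : (x : G) * (u' : G) * (x : G)⁻¹ = u' := by
    rw [← hact, show q x = s * t from hxe, hfix]
  have hWV' := (isJComponent_comp hZN hT hT1 hL hsJ' hs').2
  have hu'W : (u' : G) ∈ wOf (comp L s') := center_mem_wOf hZN hT hT1 hL hsJ' hs'
  have hu1 : (u' : G) ≠ 1 := fun h => hs'.2.ne_one (Subtype.ext h)
  set w' := (x' : G) * (u' : G) * (x' : G)⁻¹ with hw'
  have hw'W : w' ∈ wOf (comp L s') :=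
    conj_mem_of_mem_normalizer (normalizer_le_normalizer_wOf _ (le_normalizer hxK')) hu'W
  have hw'1 : w' ≠ 1 := fun h => hu1 (by rwa [hw', mul_inv_eq_one, mul_eq_left] at h)
  have hw'u : w' ≠ u' := fun h =>
    hu1 (wOf_fpf hK' hxK' hxR₂ hxo' hu'W (mul_inv_eq_iff_eq_mul.1 h))
  have hfixw : (x : G) * w' * (x : G)⁻¹ = w' := by
    have hee : Commute (s * t) (s' * t') := lE_commute hS hs hs' heE heE'
    have hv : w' = ((proj L (q x') • u' : ↥(omegaCenterOf (pCoreOf 2 L))) : G) := (hact x' u').symm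
    rw [hv, ← hact, show q x = s * t from hxe, show q x' = s' * t' from hxe', ← mul_smul,
      ← map_mul, hee.eq, map_mul, mul_smul, hfix]
  have hzfix : (x : G) * z * (x : G)⁻¹ = z := by
    rcases four_cases (wOf_card hK') (wOf_sq hK') hu'W hw'W hu1 hw'1 hw'u hz with
      rfl | rfl | rfl | rfl
    · group
    · exact hfix'
    · exact hfixw
    · calc (x : G) * (w' * u') * (x : G)⁻¹
          = ((x : G) * w' * (x : G)⁻¹) * ((x : G) * u' * (x : G)⁻¹) := by group
        _ = w' * u' := by rw [hfixw, hfix']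
  have hle : comp L s ≤ centralizer ({z} : Set G) := by
    rw [← comp_sup_eq hK hxK hxR₁]
    refine sup_le (fun r hr => mem_centralizer_singleton_iff.2 ?_)
      (zpowers_le.2 (mem_centralizer_singleton_iff.2 (mul_inv_eq_iff_eq_mul.1 hzfix)))
    rw [pCoreOf_comp hZN hT hT1 hL hs] at hr
    exact omegaCenterOf_le_centralizer _ (hWV' hz) r hr.2
  exact mem_centralizer_iff.2 fun g hg => mem_centralizer_singleton_iff.1 (hle hg)

/-- **The four-groups of distinct components of `L` meet trivially.** -/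
theorem component_eq_of_wOf {K K' : Subgroup G} (hK : IsJComponent T K) (hKL : K ≤ L)
    (hK' : IsJComponent T K') (hKL' : K' ≤ L) (hW : wOf K ⊓ wOf K' ≠ ⊥) : K = K' := by
  by_contra hne
  refine hW ((eq_bot_iff_forall _).2 fun z hz => ?_)
  obtain ⟨x, hx, hxR, hxo⟩ := comp_exists_odd hK
  exact wOf_fpf hK hx hxR hxo hz.1
    (mem_centralizer_iff.1 (wOf_le_centralizer_of_ne hZN hT hT1 hL hK hKL hK' hKL' hne hz.2) x hx)

end

end CfsgLib.JComponents
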