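import Cfsg.Agent.Lib.JComponents.Walk

/-!
The structure of two sides over the same `T`.
-/

set_option autoImplicit false

open scoped IsMulCommutative

namespace CfsgLib.JComponents

open Cfsg CfsgLib.ThompsonJ Subgroup

variable {G : Type*} [Group G] [Finite G]

local notation "MC[" g "]" => Subgroup.map (MulEquiv.toMonoidHom (MulAut.conj g))

/-- Two distinct sides over `T`. -/
structure Pair (T L₁ K₁ L₂ K₂ : Subgroup G) : Prop where
  h₁ : FSide T L₁ K₁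
  h₂ : FSide T L₂ K₂
  hne : L₁ ≠ L₂

lemma pair_of_sides {T L₁ K₁ L₂ K₂ : Subgroup G} (hZN : ZN G) (h₁ : Side T L₁ K₁)
    (h₂ : Side T L₂ K₂) (hne : L₁ ≠ L₂) : Pair T L₁ K₁ L₂ K₂ :=
  ⟨fside_of_two hZN h₁ h₂ hne, fside_of_two hZN h₂ h₁ hne.symm, hne⟩

namespace Pair

variable {T L₁ K₁ L₂ K₂ : Subgroup G} (p : Pair T L₁ K₁ L₂ K₂)
include p

lemma symm : Pair T L₂ K₂ L₁ K₁ := ⟨p.h₂, p.h₁, p.hne.symm⟩

lemma not_le : ¬ vOf T K₁ ≤ qsOf T K₂ := not_v_le_qs p.h₁ p.h₂ p.hne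

lemma v_eq : vOf T K₁ = qsOf T K₁ := v_eq_qs p.h₁ p.h₂ p.hne p.not_le

lemma local_eq' : L₁ = K₁ ⊔ T := local_eq p.h₁ p.h₂ p.hne p.not_le

lemma card_local : Nat.card ↥L₁ = 3 * Nat.card T := by
  rw [p.local_eq']; exact p.h₁.card_sup

lemma core_eq : pCoreOf 2 L₁ = vOf T K₁ := core_local_eq p.h₁ p.h₂ p.hne p.not_le

lemma centralizer_v : centralizer (vOf T K₁ : Set G) ≤ vOf T K₁ :=
  centralizer_v_le p.h₁ p.h₂ p.hne p.not_le

lemma v_elem : IsElementaryAbelian 2 (vOf T K₁) := isElementaryAbelian_omegaCenterOf _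

lemma card_T : Nat.card T = 2 * Nat.card (vOf T K₁) := by
  rw [p.v_eq]; exact p.h₁.card_qs

lemma card_v_zJ : Nat.card (vOf T K₁) = 2 * Nat.card (zJ T) := by
  have a := p.h₁.card_v
  have b := p.h₁.card_zJ
  omega

lemma card_v_eq : Nat.card (vOf T K₁) = Nat.card (vOf T K₂) := by
  rw [p.card_v_zJ, p.symm.card_v_zJ]

lemma card_cases : (Nat.card (zJ T) = 2 ∧ Nat.card (cOf T K₁) = 1) ∨
    (Nat.card (zJ T) = 4 ∧ Nat.card (cOf T K₁) = 2) := by
  have a := p.h₁.card_zJ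
  have b := (card_cOf_le_two p.h₁.toSide p.h₂.toSide p.hne).1
  have c : 0 < Nat.card (cOf T K₁) := Nat.card_pos
  omega

lemma sup_eq : T = vOf T K₁ ⊔ vOf T K₂ := (centres_eq p.h₁ p.h₂ p.hne p.not_le).1

lemma v_ne : vOf T K₁ ≠ vOf T K₂ := fun e => p.not_le (e ▸ p.symm.v_eq.le)

/-- The common central involution of the two four-groups. -/
lemma exists_common : ∃ w ∈ wOf K₁, w ∈ wOf K₂ ∧ w ≠ 1 ∧ w ∈ zJ T ∧
    ∀ v ∈ vOf T K₁, v ∉ vOf T K₂ → ∀ u ∈ vOf T K₂, u ∉ vOf T K₁ → v * u * v⁻¹ = u * w :=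
  (centres_eq p.h₁ p.h₂ p.hne p.not_le).2

/-- Squares of elements of `T`. -/
lemma mul_self_mem {t : G} (ht : t ∈ T) :
    (t ∈ vOf T K₁ ∨ t ∈ vOf T K₂) ∨ (t * t ∈ wOf K₁ ∧ t * t ∈ zJ T ∧ t * t ≠ 1) := by
  obtain ⟨w, hw, hw₂, hw1, hwZ, hrel⟩ := p.exists_common
  rw [p.sup_eq, mem_sup_iff_of_le_normalizer] at ht
  · obtain ⟨v, hv, u, hu, rfl⟩ := ht
    by_cases hv2 : v ∈ vOf T K₂
    · exact .inl (.inr (mul_mem hv2 hu))
    by_cases hu1 : u ∈ vOf T K₁
    · exact .inl (.inl (mul_mem hv hu1))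
    have e : v * u * (v * u) = w := by
      have hvi : v⁻¹ = v := inv_eq_of_mul_eq_one_right (mul_self_of_mem p.v_elem hv)
      calc v * u * (v * u) = v * u * v⁻¹ * u := by rw [hvi]; simp [mul_assoc]
        _ = u * w * u := by rw [hrel v hv hv2 u hu hu1]
        _ = w * u * u := by rw [commute_of_mem p.symm.v_elem hu (p.h₂.wOf_le_omega_qs hw₂)]
        _ = w := by rw [mul_assoc, mul_self_of_mem p.symm.v_elem hu, mul_one]
    exact .inr ⟨e ▸ hw, e ▸ hwZ, e ▸ hw1⟩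
  · exact p.h₁.v_le_T.trans (le_sup_right.trans p.h₂.normalizer_v)

lemma mem_or {t : G} (ht : t ∈ T) (h2 : t * t = 1) : t ∈ vOf T K₁ ∨ t ∈ vOf T K₂ :=
  (p.mul_self_mem ht).resolve_right fun h => h.2.2 h2

lemma le_or {E : Subgroup G} (hE : IsElementaryAbelian 2 E) (hET : E ≤ T) :
    E ≤ vOf T K₁ ∨ E ≤ vOf T K₂ := by
  by_contra! hno
  obtain ⟨a, ha, ha1⟩ := SetLike.not_le_iff_exists.1 hno.1
  obtain ⟨b, hb, hb2⟩ := SetLike.not_le_iff_exists.1 hno.2
  have ha2 := (p.mem_or (hET ha) (mul_self_of_mem hE ha)).resolve_left ha1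
  have hb1 := (p.mem_or (hET hb) (mul_self_of_mem hE hb)).resolve_right hb2
  rcases p.mem_or (hET (E.mul_mem ha hb)) (mul_self_of_mem hE (E.mul_mem ha hb)) with h | h
  · exact ha1 ((Subgroup.mul_mem_cancel_right _ hb1).1 h)
  · exact hb2 ((Subgroup.mul_mem_cancel_left _ ha2).1 h)

lemma normalizer_v_le : normalizer (vOf T K₁ : Set G) ≤ L₁ := by
  refine p.h₁.toSide.normalizer_le (isPGroup_of_isElementaryAbelian p.v_elem) ?_
    ((sup_le_sup_left (thompsonSubgroupOf_le 2 T) _).trans p.h₁.normalizer_v)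
  intro e
  have h := p.h₁.card_v
  rw [e, card_bot] at h
  omega

lemma inf_eq : L₁ ⊓ L₂ = T := by
  have hle : T ≤ L₁ ⊓ L₂ := le_inf p.h₁.hLT.1.1 p.h₂.hLT.1.1
  have h1 := card_mul_relIndex' hle
  have h2 := card_mul_relIndex' (inf_le_left : L₁ ⊓ L₂ ≤ L₁)
  rw [← h1, p.card_local, mul_assoc, mul_comm 3] at h2
  rcases (Nat.dvd_prime Nat.prime_three).1
    (Dvd.intro _ (Nat.eq_of_mul_eq_mul_left Nat.card_pos h2)) with e | e
  · exact le_antisymm (relIndex_eq_one.1 e) hle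
  · refine absurd (p.h₁.hmax.2 L₂ p.h₂.hmax.1 ?_).symm p.hne
    have h4 : Nat.card ↥L₁ ≤ Nat.card ↥(L₁ ⊓ L₂) := by
      rw [← h1, e, p.card_local, mul_comm]
    exact (eq_of_le_of_card_ge inf_le_left h4).ge.trans inf_le_right

lemma conj_v {g : G} (hg : g ∈ normalizer (T : Set G)) :
    MC[g] (vOf T K₁) = vOf T K₁ ∨ MC[g] (vOf T K₁) = vOf T K₂ := by
  have hle : MC[g] (vOf T K₁) ≤ T :=
    (map_mono p.h₁.v_le_T).trans (mem_normalizer_iff_map_conj_eq.1 hg).le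
  have hc : Nat.card ↥(MC[g] (vOf T K₁)) = Nat.card (vOf T K₁) :=
    card_map_of_injective (MulAut.conj g).injective
  rcases p.le_or (isElementaryAbelian_map p.v_elem _) hle with h | h
  · exact .inl (eq_of_le_of_card_ge h hc.ge)
  · exact .inr (eq_of_le_of_card_ge h (hc.trans p.card_v_eq).ge)

/-- Only `T` normalises `T` and `V₁`. -/
lemma mem_of_normalizes {g : G} (hg : g ∈ normalizer (T : Set G))
    (hg1 : MC[g] (vOf T K₁) = vOf T K₁) : g ∈ T := by
  rw [← p.inf_eq]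
  refine mem_inf.2 ⟨p.normalizer_v_le (mem_normalizer_iff_map_conj_eq.2 hg1), ?_⟩
  refine p.symm.normalizer_v_le (mem_normalizer_iff_map_conj_eq.2 ?_)
  rcases p.symm.conj_v hg with h | h
  · exact h
  · exact absurd ((map_injective (MulAut.conj g).injective) (h.trans hg1.symm)) p.v_ne.symm

lemma inf_v : vOf T K₁ ⊓ vOf T K₂ = zJ T := by
  refine le_antisymm (fun z hz => ?_) (le_inf p.h₁.zJ_le_v p.h₂.zJ_le_v)
  rw [← p.h₁.omega_eq]
  refine mem_omegaOne ⟨p.h₁.v_le_T hz.1, ?_⟩ (by rw [pow_two]; exact mul_self_of_mem p.v_elem hz.1)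
  have hle : T ≤ centralizer ({z} : Set G) := p.sup_eq.le.trans (sup_le
    (fun a ha => mem_centralizer_singleton_iff.2 (commute_of_mem p.v_elem ha hz.1))
    fun a ha => mem_centralizer_singleton_iff.2 (commute_of_mem p.symm.v_elem ha hz.2))
  exact mem_centralizer_iff.2 fun a ha => mem_centralizer_singleton_iff.1 (hle ha)

lemma centralizer_zJ_eq (h4 : Nat.card (zJ T) = 4) : centralizer (zJ T : Set G) = T := by
  refine le_antisymm (fun g hg => ?_) p.h₁.central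
  rw [← p.inf_eq]
  have key : ∀ {L K : Subgroup G}, FSide T L K → g ∈ L := by
    intro L K h
    have hc := h.card_zJ
    have hne : cOf T K ≠ ⊥ := fun e => by rw [e, card_bot, h4] at hc; omega
    obtain ⟨⟨u, hu⟩, hu1'⟩ := ne_bot_iff_exists_ne_one.1 hne
    have hu1 : u ≠ 1 := fun e => hu1' (Subtype.ext e)
    exact h.toSide.centralizer_le hu hu1
      (mem_centralizer_singleton_iff.2 (mem_centralizer_iff.1 hg u hu.1).symm)
  exact mem_inf.2 ⟨key p.h₁, key p.h₂⟩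

lemma centralizer_le : centralizer (T : Set G) ≤ T :=
  ((Subgroup.centralizer_le p.h₁.v_le_T).trans p.centralizer_v).trans p.h₁.v_le_T

/-- `|N_G(T) : T| ≤ 2`. -/
lemma card_normalizer_le : Nat.card ↥(normalizer (T : Set G)) ≤ 2 * Nat.card T := by
  refine card_le_two_mul le_normalizer fun a ha b hb han hbn => ?_
  refine p.mem_of_normalizes (mul_mem ha hb) ?_
  have ha1 := (p.conj_v ha).resolve_left fun e => han (p.mem_of_normalizes ha e)
  have hb1 := (p.conj_v hb).resolve_left fun e => hbn (p.mem_of_normalizes hb e)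
  have ha2 : MC[a] (vOf T K₂) = vOf T K₁ := by
    rcases p.symm.conj_v ha with h | h
    · exact absurd ((map_injective (MulAut.conj a).injective) (ha1.trans h.symm)) p.v_ne
    · exact h
  rw [CfsgLib.FFModules.map_conj_mul, hb1, ha2]

end Pair

end CfsgLib.JComponents
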