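import Cfsg.Agent.Lib.JComponents.SideFacts

/-!
Two sides over the same `T` whose four-groups' modules do not commute: both local subgroups are
`K T`, and the 2-cores are elementary abelian of order at most eight.
-/

set_option autoImplicit false

open scoped IsMulCommutative commutatorElement

namespace CfsgLib.JComponents

open Cfsg CfsgLib.ThompsonJ Subgroup

variable {G : Type*} [Group G] [Finite G]

/-- `Ω₁(Z(C_T(W_K)))`. -/
abbrev vOf (T K : Subgroup G) : Subgroup G := omegaCenterOf (qsOf T K)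

/-- The subgroup generated by the squares. -/
def sqOf (X : Subgroup G) : Subgroup G := closure {y | ∃ d ∈ X, y = d * d}

omit [Finite G] in
lemma sqOf_le (X : Subgroup G) : sqOf X ≤ X :=
  (closure_le _).2 fun _ ⟨_, hd, e⟩ => e ▸ X.mul_mem hd hd

omit [Finite G] in
lemma sqOf_mono {X Y : Subgroup G} (h : X ≤ Y) : sqOf X ≤ sqOf Y :=
  closure_mono fun _ ⟨d, hd, e⟩ => ⟨d, h hd, e⟩

lemma normalizer_le_normalizer_sqOf (X : Subgroup G) :
    normalizer (X : Set G) ≤ normalizer (sqOf X : Set G) := fun g hg =>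
  mem_normalizer_of_forall fun y hy => by
    induction hy using closure_induction with
    | mem y hy =>
      obtain ⟨d, hd, rfl⟩ := hy
      exact subset_closure ⟨g * d * g⁻¹, conj_mem_of_mem_normalizer hg hd, by group⟩
    | one => simp
    | mul a b _ _ iha ihb => simpa [mul_assoc] using mul_mem iha ihb
    | inv a _ ih => simpa [mul_assoc] using inv_mem ih

omit [Finite G] in
lemma omegaCenterOf_eq_self {Q : Subgroup G} (hQ : ∀ q ∈ Q, q * q = 1) : omegaCenterOf Q = Q := by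
  refine le_antisymm (omegaCenterOf_le Q) fun q hq => ?_
  refine mem_omegaOne ⟨hq, mem_centralizer_iff.2 fun y hy => ?_⟩ (by rw [pow_two]; exact hQ q hq)
  have h1 : y⁻¹ = y := inv_eq_of_mul_eq_one_right (hQ y hy)
  have h2 : q⁻¹ = q := inv_eq_of_mul_eq_one_right (hQ q hq)
  have h3 : (y * q)⁻¹ = y * q := inv_eq_of_mul_eq_one_right (hQ _ (Q.mul_mem hy hq))
  rw [← h3, mul_inv_rev, h1, h2]

namespace FSide

variable {T L K : Subgroup G} (h : FSide T L K)
include h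

lemma qs_le_centralizer_v : qsOf T K ≤ centralizer (vOf T K : Set G) :=
  le_centralizer_iff.1 (omegaCenterOf_le_centralizer _)

lemma v_le : vOf T K ≤ qsOf T K := omegaCenterOf_le _

lemma v_le_T : vOf T K ≤ T := h.v_le.trans inf_le_left

lemma mem_qs_of_centralizes {t : G} (ht : t ∈ T) (hc : t ∈ centralizer (vOf T K : Set G)) :
    t ∈ qsOf T K := h.qs_eq ▸ mem_inf.2 ⟨ht, hc⟩

lemma eq_or_eq_mul_v {w : G} (hw : w ∈ wOf K) (hw1 : w ≠ 1) (hwT : ∀ t ∈ T, t * w * t⁻¹ = w)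
    {t v : G} (ht : t ∈ T) (hv : v ∈ vOf T K) : t * v * t⁻¹ = v ∨ t * v * t⁻¹ = v * w := by
  rw [vOf, h.omega_qs_eq, mem_sup_iff_of_le_normalizer] at hv
  · obtain ⟨r, hr, u, hu, rfl⟩ := hv
    have hu' : t * u * t⁻¹ = u :=
      mul_inv_eq_iff_eq_mul.2 (mem_centralizer_iff.1 (h.central ht) u hu.1).symm
    have hwu : w * u = u * w :=
      (mem_centralizer_iff.1 (h.central (h.zJ_le hu.1)) w ?_)
    · rw [show t * (r * u) * t⁻¹ = (t * r * t⁻¹) * (t * u * t⁻¹) by group, hu']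
      rcases h.eq_or_eq_mul hw hw1 hwT ht hr with e | e <;> rw [e]
      · exact .inl rfl
      · exact .inr (by rw [mul_assoc, hwu, mul_assoc])
    · obtain ⟨w₀, hw₀, hw₀1, hw₀Z, -, hw₀T, -, -⟩ := h.exists_w
      obtain ⟨j, hjT, hjn⟩ : ∃ j ∈ T, j ∉ qsOf T K := by
        obtain ⟨-, -, -, -, j, hjT, -, hjn, -⟩ := h.exists_mover
        exact ⟨j, hjT, hjn⟩
      by_cases hww : w = w₀
      · exact hww ▸ hw₀Z
      · exfalso
        refine hjn (mem_inf.2 ⟨hjT, mem_centralizer_iff.2 fun y hy =>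
          (mul_inv_eq_iff_eq_mul.1 (four_neighbours (hwT j hjT) (hw₀T j hjT)
            (four_cases (wOf_card h.hK) (wOf_sq h.hK) hw₀ hw hw₀1 hw1 hww hy))).symm⟩)
  · exact fun a ha => mem_normalizer_of_forall fun y hy => by
      have hc := mem_centralizer_iff.1 (h.central (h.wOf_le ha)) y hy.1
      rwa [← hc, mul_inv_cancel_right]

lemma normalizer_v : K ⊔ T ≤ normalizer (vOf T K : Set G) :=
  h.sup_le_normalizer_qs.trans (normalizer_le_normalizer_omegaCenterOf _)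

lemma wOf_inf_cOf : wOf K ⊓ cOf T K = ⊥ := by
  obtain ⟨x, hx, hxR, hxo⟩ := comp_exists_odd h.hK
  exact (eq_bot_iff_forall _).2 fun z hz =>
    wOf_fpf h.hK hx hxR hxo hz.1 (mem_centralizer_iff.1 hz.2.2 x hx)

lemma card_v : Nat.card (vOf T K) = 4 * Nat.card (cOf T K) := by
  have hn : wOf K ≤ normalizer (cOf T K : Set G) := fun a ha =>
    mem_normalizer_of_forall fun y hy => by
      have hc := mem_centralizer_iff.1 (h.central (h.wOf_le ha)) y hy.1
      rwa [← hc, mul_inv_cancel_right]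
  have h1 := card_sup_mul_inf hn
  rw [h.wOf_inf_cOf, card_bot, mul_one, ← h.omega_qs_eq, wOf_card h.hK] at h1
  exact h1

lemma card_zJ : Nat.card (zJ T) = 2 * Nat.card (cOf T K) := by
  refine le_antisymm h.toSide.card_zJ_le ?_
  obtain ⟨w, hw, hw1, hwZ, hwc, -, -, -⟩ := h.exists_w
  have hlt : cOf T K < zJ T := lt_of_le_of_ne inf_le_left fun e => hwc (e.symm ▸ hwZ)
  have e := card_mul_relIndex' hlt.le
  have : 2 ≤ (cOf T K).relIndex (zJ T) := by
    by_contra! hlt2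
    have h0 : (cOf T K).relIndex (zJ T) ≠ 0 := fun e0 => by
      rw [e0, mul_zero] at e; exact Nat.card_pos.ne' e.symm
    exact hlt.not_ge (relIndex_eq_one.1 (by omega))
  rw [← e, mul_comm 2]
  exact Nat.mul_le_mul_left _ this

lemma mem_cOf_of_mem_v {z : G} (hz : z ∈ vOf T K) (hzK : z ∈ centralizer (K : Set G)) :
    z ∈ cOf T K := by
  obtain ⟨x, hx, hxR, hxo⟩ := comp_exists_odd h.hK
  rw [vOf, h.omega_qs_eq, mem_sup_iff_of_le_normalizer] at hz
  · obtain ⟨r, hr, u, hu, rfl⟩ := hz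
    have h2 : Commute x (r * u * u⁻¹) :=
      (show Commute x (r * u) from mem_centralizer_iff.1 hzK x hx).mul_right
        (show Commute x u from mem_centralizer_iff.1 hu.2 x hx).inv_right
    rw [mul_inv_cancel_right] at h2
    rw [wOf_fpf h.hK hx hxR hxo hr h2.eq, one_mul]
    exact hu
  · exact fun a ha => mem_normalizer_of_forall fun y hy => by
      have hc := mem_centralizer_iff.1 (h.central (h.wOf_le ha)) y hy.1
      rwa [← hc, mul_inv_cancel_right]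

end FSide

section two

variable {T L₁ K₁ L₂ K₂ : Subgroup G} (h₁ : FSide T L₁ K₁) (h₂ : FSide T L₂ K₂) (hne : L₁ ≠ L₂)
include h₁ h₂

lemma v_le_qs_symm (h : vOf T K₁ ≤ qsOf T K₂) : vOf T K₂ ≤ qsOf T K₁ := fun _ hv =>
  h₁.mem_qs_of_centralizes (h₂.v_le_T hv)
    ((le_centralizer_iff.1 (h.trans h₂.qs_le_centralizer_v)) hv)

lemma exists_outer (hb : ¬ vOf T K₁ ≤ qsOf T K₂) :
    ∃ v ∈ vOf T K₁, v ∉ qsOf T K₂ ∧ sqOf (qsOf T K₁) ≤ sqOf (qsOf T K₁ ⊓ qsOf T K₂) := by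
  obtain ⟨v, hv, hvn⟩ := SetLike.not_le_iff_exists.1 hb
  refine ⟨v, hv, hvn, (closure_le _).2 ?_⟩
  rintro _ ⟨q, hq, rfl⟩
  by_cases hq2 : q ∈ qsOf T K₂
  · exact subset_closure ⟨q, mem_inf.2 ⟨hq, hq2⟩, rfl⟩
  refine subset_closure ⟨v * q, mem_inf.2 ⟨(qsOf T K₁).mul_mem (h₁.v_le hv) hq,
    h₂.mul_mem_qs (h₁.v_le_T hv) (mem_inf.1 hq).1 hvn hq2⟩, ?_⟩
  have hc : q * v = v * q := omegaCenterOf_le_centralizer _ hv q hq
  have hvv : v * v = 1 := mul_self_of_mem (isElementaryAbelian_omegaCenterOf _) hv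
  rw [show v * q * (v * q) = v * (q * v) * q by group, hc, ← mul_assoc, hvv, one_mul]

include hne

lemma sq_eq_bot (hb : ¬ vOf T K₁ ≤ qsOf T K₂) :
    (∀ q ∈ qsOf T K₁, q * q = 1) ∧ ∀ q ∈ qsOf T K₂, q * q = 1 := by
  obtain ⟨v₁, -, -, e₁⟩ := exists_outer h₁ h₂ hb
  obtain ⟨v₂, -, -, e₂⟩ := exists_outer h₂ h₁ fun h => hb (v_le_qs_symm h₂ h₁ h)
  rw [inf_comm] at e₂
  have heq : sqOf (qsOf T K₁) = sqOf (qsOf T K₂) :=
    le_antisymm (e₁.trans (sqOf_mono inf_le_right)) (e₂.trans (sqOf_mono inf_le_left))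
  have hbot : sqOf (qsOf T K₁) = ⊥ := by
    by_contra hne1
    refine hne (h₁.toSide.eq_of_normalizes h₂.toSide
      (h₁.toSide.isPGroup.to_le ((sqOf_le _).trans inf_le_left)) hne1 ?_ ?_)
    · exact ((sup_le_sup_left (thompsonSubgroupOf_le 2 T) _).trans h₁.sup_le_normalizer_qs).trans
        (normalizer_le_normalizer_sqOf _)
    · rw [heq]
      exact ((sup_le_sup_left (thompsonSubgroupOf_le 2 T) _).trans h₂.sup_le_normalizer_qs).trans
        (normalizer_le_normalizer_sqOf _)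
  exact ⟨fun q hq => mem_bot.1 (hbot ▸ subset_closure ⟨q, hq, rfl⟩),
    fun q hq => mem_bot.1 (hbot ▸ heq.symm ▸ subset_closure ⟨q, hq, rfl⟩)⟩

lemma v_eq_qs (hb : ¬ vOf T K₁ ≤ qsOf T K₂) : vOf T K₁ = qsOf T K₁ :=
  omegaCenterOf_eq_self (sq_eq_bot h₁ h₂ hne hb).1

lemma centralizer_v_le (hb : ¬ vOf T K₁ ≤ qsOf T K₂) :
    centralizer (vOf T K₁ : Set G) ≤ vOf T K₁ := by
  rw [v_eq_qs h₁ h₂ hne hb]; exact h₁.centralizer_qs_le

lemma core_local_eq (hb : ¬ vOf T K₁ ≤ qsOf T K₂) : pCoreOf 2 L₁ = vOf T K₁ := by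
  refine le_antisymm (v_eq_qs h₁ h₂ hne hb ▸ h₁.coreLocal_le_qs) fun v hv => h₁.hLT.2.2 ?_
  exact mem_centralizer_iff.2 fun q hq =>
    commute_of_mem (isElementaryAbelian_omegaCenterOf (qsOf T K₁))
      (show q ∈ vOf T K₁ from v_eq_qs h₁ h₂ hne hb ▸ h₁.coreLocal_le_qs hq) hv

/-- `L₁ = K₁ T`. -/
theorem local_eq (hb : ¬ vOf T K₁ ≤ qsOf T K₂) : L₁ = K₁ ⊔ T := by
  have hT := h₁.toSide.isPGroup
  have hT1 := h₁.toSide.ne_bot
  have hV := core_local_eq h₁ h₂ hne hb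
  have hc2 : Nat.card (cOf T K₁) ≤ 2 := (card_cOf_le_two h₁.toSide h₂.toSide hne).1
  have huniq : ∀ K', IsJComponent T K' → K' ≤ L₁ → K' = K₁ := by
    intro K' hK' hle
    by_contra hne'
    have hd : wOf K₁ ⊓ wOf K' = ⊥ := by
      by_contra hW
      exact hne' (component_eq_of_wOf h₁.zn hT hT1 h₁.hLT h₁.hK h₁.hKL hK' hle hW).symm
    have hW' : wOf K' ≤ vOf T K₁ := by
      refine (wOf_le_omega_local h₁.zn hT hT1 h₁.hLT hK' hle).trans ?_
      rw [hV]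
      exact omegaCenterOf_le _
    have hn : wOf K₁ ≤ normalizer (wOf K' : Set G) := fun a ha =>
      mem_normalizer_of_forall fun y hy => by
        rwa [commute_of_mem (isElementaryAbelian_omegaCenterOf _) (h₁.wOf_le_omega_qs ha) (hW' hy),
          mul_inv_cancel_right]
    have h1 := card_sup_mul_inf hn
    rw [hd, card_bot, mul_one, wOf_card h₁.hK, wOf_card hK'] at h1
    have h2 := card_le_of_le (sup_le h₁.wOf_le_omega_qs hW')
    have h3 : Nat.card ↥(omegaCenterOf (qsOf T K₁)) = 4 * Nat.card (cOf T K₁) := h₁.card_v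
    change _ ≤ Nat.card ↥(omegaCenterOf (qsOf T K₁)) at h2
    omega
  have hLK : L₁ ≤ normalizer (K₁ : Set G) := by
    refine (le_of_components h₁.zn hT hT1 h₁.hLT (X := L₁ ⊓ normalizer (K₁ : Set G)) ?_ ?_ ?_).trans
      inf_le_right
    · intro g hg
      refine ⟨hg.1, mem_normalizer_iff_map_conj_eq.2 (huniq _ ?_ ?_)⟩
      · refine IsJComponent.congr (IsJComponent_conj h₁.hK g) ?_
        rw [thompson_conj]
        exact (mem_normalizer_iff_map_conj_eq.1 hg.2).symm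
      · rintro _ ⟨k, hk, rfl⟩
        exact L₁.mul_mem (L₁.mul_mem hg.1 (h₁.hKL hk)) (L₁.inv_mem hg.1)
    · exact le_inf (CfsgLib.FFModules.pCoreOf_le L₁)
        (core_le_normalizer_component h₁.zn hT hT1 h₁.hLT h₁.hK h₁.hKL)
    · intro K' hK' hle
      exact le_inf hle (huniq K' hK' hle ▸ le_normalizer)
  refine le_antisymm (fun g hg => ?_) (sup_le h₁.hKL h₁.hLT.1.1)
  obtain ⟨w, hw, hw1, hwZ, -, hwT, -, -⟩ := h₁.exists_w
  obtain ⟨x, hx, hxR, hxo⟩ := comp_exists_odd h₁.hK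
  have hx3 := comp_pow_three h₁.hK hx hxo
  have hxW : x ∈ normalizer (wOf K₁ : Set G) := normalizer_le_normalizer_wOf K₁ (le_normalizer hx)
  have hgW : g * w * g⁻¹ ∈ wOf K₁ :=
    conj_mem_of_mem_normalizer (normalizer_le_normalizer_wOf K₁ (hLK hg)) hw
  set v := x * w * x⁻¹ with hv
  have hvW : v ∈ wOf K₁ := conj_mem_of_mem_normalizer hxW hw
  have hv1 : v ≠ 1 := fun e => hw1 (by rwa [hv, mul_inv_eq_one, mul_eq_left] at e)
  have hvw : v ≠ w := fun e => hw1 (wOf_fpf h₁.hK hx hxR hxo hw (mul_inv_eq_iff_eq_mul.1 e))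
  have hv3 : x * v * x⁻¹ = v * w := by
    rcases four_cases (wOf_card h₁.hK) (wOf_sq h₁.hK) hw hvW hw1 hv1 hvw
      (conj_mem_of_mem_normalizer hxW hvW) with e | e | e | e
    · exact absurd (by rwa [mul_inv_eq_one, mul_eq_left] at e) hv1
    · refine absurd ?_ hvw
      calc v = x * (x * v * x⁻¹) * x⁻¹ := by rw [e]
        _ = (x * x * x) * w * (x * x * x)⁻¹ := by rw [hv]; group
        _ = w := by rw [hx3]; group
    · exact absurd (wOf_fpf h₁.hK hx hxR hxo hvW (mul_inv_eq_iff_eq_mul.1 e)) hv1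
    · exact e
  obtain ⟨y, hy, hyg⟩ : ∃ y ∈ K₁, (y * g) * w * (y * g)⁻¹ = w := by
    have e0 : ∀ y, (y * g) * w * (y * g)⁻¹ = y * (g * w * g⁻¹) * y⁻¹ := fun y => by group
    rcases four_cases (wOf_card h₁.hK) (wOf_sq h₁.hK) hw hvW hw1 hv1 hvw hgW with e | e | e | e
    · exact absurd (by rwa [mul_inv_eq_one, mul_eq_left] at e) hw1
    · exact ⟨1, K₁.one_mem, by rw [e0, e]; group⟩
    · exact ⟨x⁻¹, K₁.inv_mem hx, by rw [e0, e, hv]; group⟩
    · refine ⟨x, hx, ?_⟩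
      rw [e0, e, ← hv3]
      calc x * (x * v * x⁻¹) * x⁻¹ = (x * x * x) * w * (x * x * x)⁻¹ := by rw [hv]; group
        _ = w := by rw [hx3]; group
  set g' := y * g with hg'
  have hg'L : g' ∈ L₁ := L₁.mul_mem (h₁.hKL hy) hg
  suffices hgoal : g' ∈ T by
    have := mul_mem (inv_mem (mem_sup_left (T := T) hy)) (mem_sup_right (S := K₁) hgoal)
    simpa [hg'] using this
  have hg'V : g' ∈ normalizer (vOf T K₁ : Set G) :=
    hV ▸ CfsgLib.FFModules.le_normalizer_pCoreOf L₁ hg'L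
  have hcfix : ∀ u ∈ cOf T K₁, g' * u * g'⁻¹ = u := by
    intro u hu
    by_cases hu1 : u = 1
    · rw [hu1]; group
    refine eq_of_mem_cOf h₁.toSide h₂.toSide hne (h₁.mem_cOf_of_mem_v ?_ ?_) hu
      (fun e => hu1 (by rwa [mul_inv_eq_one, mul_eq_left] at e)) hu1
    · exact conj_mem_of_mem_normalizer hg'V
        ((h₁.omega_qs_eq).ge (mem_sup_right hu))
    · refine mem_centralizer_iff.2 fun k hk => ?_
      have := mem_centralizer_iff.1 hu.2 _ (conj_inv_mem_of_mem_normalizer (hLK hg'L) hk)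
      calc k * (g' * u * g'⁻¹) = g' * ((g'⁻¹ * k * g') * u) * g'⁻¹ := by group
        _ = g' * (u * (g'⁻¹ * k * g')) * g'⁻¹ := by rw [this]
        _ = g' * u * g'⁻¹ * k := by group
  have hcent : ∀ z ∈ L₁, z * w * z⁻¹ = w → z * v * z⁻¹ = v →
      (∀ u ∈ cOf T K₁, z * u * z⁻¹ = u) → z ∈ T := by
    intro z hz hzw hzv hzc
    refine h₁.v_le_T (centralizer_v_le h₁ h₂ hne hb ?_)
    have hle : wOf K₁ ⊔ cOf T K₁ ≤ centralizer ({z} : Set G) :=
      sup_le (fun a ha => mem_centralizer_singleton_iff.2 (mul_inv_eq_iff_eq_mul.1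
        (four_neighbours hzv hzw (four_cases (wOf_card h₁.hK) (wOf_sq h₁.hK) hw hvW hw1 hv1 hvw
          ha))).symm)
        (fun u hu => mem_centralizer_singleton_iff.2 (mul_inv_eq_iff_eq_mul.1 (hzc u hu)).symm)
    exact mem_centralizer_iff.2 fun a ha =>
      (mem_centralizer_singleton_iff.1 (hle (h₁.omega_qs_eq.le ha)))
  rcases four_cases (wOf_card h₁.hK) (wOf_sq h₁.hK) hw hvW hw1 hv1 hvw
    (conj_mem_of_mem_normalizer (normalizer_le_normalizer_wOf K₁ (hLK hg'L)) hvW) with e | e | e | e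
  · exact absurd (by rwa [mul_inv_eq_one, mul_eq_left] at e) hv1
  · refine absurd ?_ hvw
    calc v = g'⁻¹ * (g' * v * g'⁻¹) * g' := by group
      _ = g'⁻¹ * (g' * w * g'⁻¹) * g' := by rw [e, hyg]
      _ = w := by group
  · exact hcent g' hg'L hyg e hcfix
  · obtain ⟨-, -, -, -, j, hjT, -, hjn, -⟩ := h₁.exists_mover
    have hjv : j * v * j⁻¹ = v * w := by
      refine (h₁.eq_or_eq_mul hw hw1 hwT hjT hvW).resolve_left fun e' => hjn ?_
      exact mem_inf.2 ⟨hjT, mem_centralizer_iff.2 fun a ha => (mul_inv_eq_iff_eq_mul.1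
        (four_neighbours e' (hwT j hjT) (four_cases (wOf_card h₁.hK) (wOf_sq h₁.hK) hw hvW hw1 hv1
          hvw ha))).symm⟩
    have hm : j * g' ∈ T := by
      refine hcent _ (L₁.mul_mem (h₁.hLT.1.1 hjT) hg'L) ?_ ?_ fun u hu => ?_
      · calc j * g' * w * (j * g')⁻¹ = j * (g' * w * g'⁻¹) * j⁻¹ := by group
          _ = w := by rw [hyg, hwT j hjT]
      · calc j * g' * v * (j * g')⁻¹ = j * (g' * v * g'⁻¹) * j⁻¹ := by group
          _ = (j * v * j⁻¹) * (j * w * j⁻¹) := by rw [e]; group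
          _ = v := by rw [hjv, hwT j hjT, mul_assoc, wOf_sq h₁.hK w hw, mul_one]
      · calc j * g' * u * (j * g')⁻¹ = j * (g' * u * g'⁻¹) * j⁻¹ := by group
          _ = u := by
            rw [hcfix u hu,
              mul_inv_eq_iff_eq_mul.2 (mem_centralizer_iff.1 (h₁.central hjT) u hu.1).symm]
    simpa using T.mul_mem (T.inv_mem hjT) hm

/-- `T = V₁ V₂` and the centres agree. -/
theorem centres_eq (hb : ¬ vOf T K₁ ≤ qsOf T K₂) :
    T = vOf T K₁ ⊔ vOf T K₂ ∧ ∃ w ∈ wOf K₁, w ∈ wOf K₂ ∧ w ≠ 1 ∧ w ∈ zJ T ∧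
      ∀ v ∈ vOf T K₁, v ∉ vOf T K₂ → ∀ u ∈ vOf T K₂, u ∉ vOf T K₁ → v * u * v⁻¹ = u * w := by
  have hb' : ¬ vOf T K₂ ≤ qsOf T K₁ := fun h => hb (v_le_qs_symm h₂ h₁ h)
  have e2 := v_eq_qs h₂ h₁ hne.symm hb'
  have e1 := v_eq_qs h₁ h₂ hne hb
  obtain ⟨v, hv, hvn⟩ := SetLike.not_le_iff_exists.1 hb
  have hT : T = vOf T K₁ ⊔ vOf T K₂ := by
    refine le_antisymm (fun t ht => ?_) (sup_le h₁.v_le_T h₂.v_le_T)
    by_cases htq : t ∈ qsOf T K₂
    · exact mem_sup_right (e2 ▸ htq)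
    · have h' := mul_mem_sup ((vOf T K₁).inv_mem hv)
        (e2.symm ▸ h₂.mul_mem_qs (h₁.v_le_T hv) ht hvn htq : v * t ∈ vOf T K₂)
      simpa using h'
  refine ⟨hT, ?_⟩
  obtain ⟨w₁, hw₁, hw₁1, hw₁Z, -, hw₁T, -, -⟩ := h₁.exists_w
  obtain ⟨w₂, hw₂, hw₂1, hw₂Z, -, hw₂T, -, -⟩ := h₂.exists_w
  have hall : ∀ v ∈ vOf T K₁, v ∉ vOf T K₂ → ∀ u ∈ vOf T K₂, u ∉ vOf T K₁ →
      v * u * v⁻¹ = u * w₂ ∧ u * v * u⁻¹ = v * w₁ := by
    intro v hv hvn u hu hun
    have hmove : v * u * v⁻¹ ≠ u := by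
      intro e
      have hc : u * v = v * u := (mul_inv_eq_iff_eq_mul.1 e).symm
      refine hun (e1.symm ▸ ?_)
      refine h₁.mem_qs_of_centralizes (h₂.v_le_T hu) (mem_centralizer_iff.2 fun y hy => ?_)
      by_cases hy2 : y ∈ vOf T K₂
      · exact commute_of_mem (isElementaryAbelian_omegaCenterOf _) hy2 hu
      · have hvy : v * y ∈ vOf T K₂ := e2.symm ▸ h₂.mul_mem_qs (h₁.v_le_T hv) (h₁.v_le_T hy)
          (e2 ▸ hvn) (e2 ▸ hy2)
        have h3 : Commute u (v⁻¹ * (v * y)) :=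
          (show Commute u v from hc).inv_right.mul_right
            (show Commute u (v * y) from commute_of_mem (isElementaryAbelian_omegaCenterOf _) hu hvy)
        rw [inv_mul_cancel_left] at h3
        exact h3.eq.symm
    refine ⟨(h₂.eq_or_eq_mul_v hw₂ hw₂1 hw₂T (h₁.v_le_T hv) hu).resolve_left hmove,
      (h₁.eq_or_eq_mul_v hw₁ hw₁1 hw₁T (h₂.v_le_T hu) hv).resolve_left fun e => hmove ?_⟩
    rw [mul_inv_eq_iff_eq_mul] at e ⊢
    exact e.symm
  obtain ⟨u, hu, hun⟩ := SetLike.not_le_iff_exists.1 hb'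
  obtain ⟨a, b⟩ := hall v hv (e2.symm ▸ hvn) u hu (e1.symm ▸ hun)
  have hw : w₁ = w₂ := by
    have hvv := mul_self_of_mem (isElementaryAbelian_omegaCenterOf _) hv
    have huu := mul_self_of_mem (isElementaryAbelian_omegaCenterOf _) hu
    have hvi : v⁻¹ = v := inv_eq_of_mul_eq_one_right hvv
    have hui : u⁻¹ = u := inv_eq_of_mul_eq_one_right huu
    have e₂ : w₂ = u * v * u * v := by
      calc w₂ = u⁻¹ * (u * w₂) := by group
        _ = u * v * u * v := by rw [← a, hui, hvi, ← mul_assoc, ← mul_assoc]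
    have e₁ : w₁ = v * u * v * u := by
      calc w₁ = v⁻¹ * (v * w₁) := by group
        _ = v * u * v * u := by rw [← b, hui, hvi, ← mul_assoc, ← mul_assoc]
    have hw2 : w₂⁻¹ = w₂ := inv_eq_of_mul_eq_one_right (wOf_sq h₂.hK w₂ hw₂)
    rw [← hw2, e₁, e₂, mul_inv_rev, mul_inv_rev, mul_inv_rev, hvi, hui, ← mul_assoc, ← mul_assoc]
  exact ⟨w₁, hw₁, hw ▸ hw₂, hw₁1, hw₁Z, fun v hv hvn u hu hun =>
    hw ▸ (hall v hv hvn u hu hun).1⟩

end two

end CfsgLib.JComponents
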