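import Cfsg.Agent.Lib.JComponents.Pair
import Cfsg.Agent.Lib.TwoFusion.StrongEmbed

/-!
Every side has a partner over the same `T`.
-/

set_option autoImplicit false

open scoped IsMulCommutative

namespace CfsgLib.JComponents

open Cfsg CfsgLib.ThompsonJ Subgroup

variable {G : Type*} [Group G] [Finite G]

local notation "MC[" g "]" => Subgroup.map (MulEquiv.toMonoidHom (MulAut.conj g))

omit [Finite G] in
lemma map_conj_of_mem {X : Subgroup G} {g : G} (hg : g ∈ normalizer (X : Set G)) : MC[g] X = X :=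
  mem_normalizer_iff_map_conj_eq.1 hg

namespace Side

variable {T L K : Subgroup G} (h : Side T L K)
include h

lemma normalizer_le_self : normalizer (L : Set G) ≤ L := by
  have hQ : pCoreOf 2 L ≠ ⊥ := core_ne_bot h.isPGroup h.ne_bot h.hLT
  obtain ⟨hN, hle⟩ := isTwoLocal_ge_of_core_ne_bot hQ
  exact (CfsgLib.FFModules.normalizer_le_normalizer_pCoreOf L).trans (h.hmax.2 _ hN hle).le

lemma conj_ne {g : G} (hg : g ∉ L) : MC[g] L ≠ L := fun e =>
  hg (h.normalizer_le_self (mem_normalizer_iff_map_conj_eq.2 e))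

lemma conj_of_normalizer {g : G} (hg : g ∈ normalizer (T : Set G)) :
    Side T (MC[g] L) (MC[g] K) := by
  have h' := h.conj g
  rwa [map_conj_of_mem hg] at h'

lemma not_mem_of_normalizes {P : Subgroup G} (hP : IsPGroup 2 P) (hTP : T ≤ P) {g : G} (hg : g ∈ P)
    (hgT : g ∉ T) : g ∉ L := by
  intro hgL
  have e := eq_of_isSylowTwoIn h.hLT.1 (U := T ⊔ zpowers g)
    (sup_le h.hLT.1.1 (zpowers_le.2 hgL)) (hP.to_le (sup_le hTP (zpowers_le.2 hg))) le_sup_left
  exact hgT (e ▸ (mem_sup_right (mem_zpowers g) : g ∈ T ⊔ zpowers g))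

/-- If `T` is not a Sylow 2-subgroup of `G`. -/
lemma exists_of_lt {P : Subgroup G} (hP : IsPGroup 2 P) (hTP : T < P) :
    ∃ L' K', Side T L' K' ∧ L ≠ L' := by
  obtain ⟨g, hgP, hgT, hgn⟩ := exists_mem_normalizer_not_mem hP hTP
  exact ⟨_, _, h.conj_of_normalizer hgn,
    (h.conj_ne (h.not_mem_of_normalizes hP hTP.le hgP hgT)).symm⟩

end Side

/-- The fixed groups of two sides with the same `J` meet trivially. -/
lemma cross_disjoint {T L K T' L' K' : Subgroup G} (h : Side T L K) (h' : Side T' L' K')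
    (hJ : thompsonSubgroupOf 2 T' = thompsonSubgroupOf 2 T) (hne : L ≠ L') {u : G}
    (hu : u ∈ cOf T K) (hu' : u ∈ cOf T' K') : u = 1 := by
  by_contra hu1
  refine hne (h'.huniq L h.hmax ((sup_le (fun k hk => ?_) fun j hj => ?_).trans
    (h.centralizer_le hu hu1)))
  · exact mem_centralizer_singleton_iff.2 (mem_centralizer_iff.1 hu'.2 k hk)
  · exact mem_centralizer_singleton_iff.2 (omegaCenterOf_le_centralizer _ hu'.1 j hj)

lemma card_cOf_le_two_of_conj {T L K : Subgroup G} (h : Side T L K) {g : G}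
    (hg : g ∈ normalizer (thompsonSubgroupOf 2 T : Set G)) (hgL : g ∉ L) :
    Nat.card (cOf T K) ≤ 2 := by
  have h' := h.conj g
  have hJ : thompsonSubgroupOf 2 (MC[g] T) = thompsonSubgroupOf 2 T := by
    rw [thompson_conj]; exact map_conj_of_mem hg
  have hc : cOf (MC[g] T) (MC[g] K) = MC[g] (cOf T K) := by
    rw [Subgroup.map_inf _ _ _ (MulAut.conj g).injective, map_conj_centralizer, cOf, zJ,
      map_omegaCenterOf (MulAut.conj g).injective, thompson_conj]
  have hle : MC[g] (cOf T K) ≤ zJ T := by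
    rw [← hc]
    exact inf_le_left.trans (le_of_eq (congrArg omegaCenterOf hJ))
  have hmul : Nat.card (cOf T K) * Nat.card ↥(MC[g] (cOf T K)) ≤ Nat.card (zJ T) := by
    rw [← Nat.card_prod]
    refine Nat.card_le_card_of_injective
      (fun p : ↥(cOf T K) × ↥(MC[g] (cOf T K)) =>
        (⟨(p.1 : G) * p.2, mul_mem p.1.2.1 (hle p.2.2)⟩ : ↥(zJ T))) ?_
    rintro ⟨a, b⟩ ⟨a', b'⟩ e
    have e' : (a : G) * b = a' * b' := congrArg Subtype.val e
    have h1 : (a' : G)⁻¹ * a = b' * (b : G)⁻¹ := by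
      calc (a' : G)⁻¹ * a = (a' : G)⁻¹ * (a * b) * (b : G)⁻¹ := by group
        _ = _ := by rw [e']; group
    have h2 : (a' : G)⁻¹ * a = 1 := cross_disjoint h h' hJ (h.conj_ne hgL).symm
      ((cOf T K).mul_mem ((cOf T K).inv_mem a'.2) a.2)
      (hc ▸ h1 ▸ (MC[g] (cOf T K)).mul_mem b'.2 ((MC[g] (cOf T K)).inv_mem b.2))
    obtain rfl : a' = a := Subtype.ext (inv_mul_eq_one.1 h2)
    exact Prod.ext rfl (Subtype.ext (mul_left_cancel e'))
  rw [card_map_of_injective (MulAut.conj g).injective] at hmul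
  exact Nat.le_of_mul_le_mul_left ((hmul.trans h.card_zJ_le).trans (le_of_eq (mul_comm _ _)))
    Nat.card_pos

/-- If `N_G(T) ≤ L` for a Sylow subgroup `T`, then `N_G(J(T)) ≤ L`. -/
theorem normalizer_thompson_le_side (hZN : ZN G) {S : Sylow 2 G} {L K : Subgroup G}
    (h : Side (S : Subgroup G) L K) (hN : normalizer ((S : Subgroup G) : Set G) ≤ L) :
    normalizer (thompsonSubgroupOf 2 (S : Subgroup G) : Set G) ≤ L := by
  intro g hg
  by_contra hgL
  set T := (S : Subgroup G) with hTdef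
  have hSz : omegaCenterOf T ≤ zJ T := fun z hz => by
    have hle : omegaCenterOf T ≤ omegaOne 2 (T ⊓ centralizer (thompsonSubgroupOf 2 T : Set G)) :=
      omegaOne_mono (inf_le_inf_left _ (Subgroup.centralizer_le (thompsonSubgroupOf_le 2 T)))
    have h' := omegaOne_inf_centralizer_le_thompsonSubgroupOf (p := 2) T (hle hz)
    rwa [centerThompsonOf_def] at h'
  set C := centralizer (zJ T : Set G) with hC
  have hCN : C ≤ normalizer (T : Set G) := (Subgroup.centralizer_le hSz).trans (hZN.cz S)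
  have hgz : g ∈ normalizer (zJ T : Set G) := normalizer_le_normalizer_omegaCenterOf _ hg
  -- `T` moves `Z(J)`
  obtain ⟨t, ht, htn⟩ : ∃ t ∈ T, t ∉ C := by
    by_contra! hTC
    refine hgL (hN (mem_normalizer_iff_map_conj_eq.2 ?_))
    have hCg : MC[g] C = C := by rw [hC, map_conj_centralizer, map_conj_of_mem hgz]
    have hsub : MC[g] T ≤ C := hCg ▸ map_mono hTC
    have hp : IsPGroup 2 ↥(T ⊔ MC[g] T) := by
      rw [sup_comm]; exact isPGroup_sup (S.2.map _) S.2 (hsub.trans hCN)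
    exact eq_of_le_of_card_ge (le_sup_right.trans (S.is_maximal' hp le_sup_left).le)
      (card_map_of_injective (MulAut.conj g).injective).ge
  have hc2 := card_cOf_le_two_of_conj h hg hgL
  obtain ⟨w, hw, hw1, hwZ, hwc, huniq, hdec⟩ := h.exists_centre
  have htz : t ∈ normalizer (zJ T : Set G) :=
    normalizer_le_normalizer_omegaCenterOf _
      (normalizer_le_normalizer_thompsonSubgroupOf 2 T (le_normalizer ht))
  have hK' : MC[t] K ≠ K := by
    intro e
    have htK : t ∈ normalizer (K : Set G) := mem_normalizer_iff_map_conj_eq.2 e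
    have hw' : t * w * t⁻¹ = w := by
      rcases huniq _ (conj_mem_of_mem_normalizer htz hwZ)
        (conj_mem_of_mem_normalizer (normalizer_le_normalizer_wOf K htK) hw) with e' | e'
      · exact absurd (by rwa [mul_inv_eq_one, mul_eq_left] at e') hw1
      · exact e'
    refine htn (mem_centralizer_iff.2 fun z hz => (mul_inv_eq_iff_eq_mul.1 ?_).symm)
    have hcfix : ∀ u ∈ cOf T K, t * u * t⁻¹ = u := by
      intro u hu
      by_cases hu1 : u = 1
      · rw [hu1]; group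
      have hm : t * u * t⁻¹ ∈ cOf T K := by
        refine mem_inf.2 ⟨conj_mem_of_mem_normalizer htz hu.1, mem_centralizer_iff.2 fun k hk => ?_⟩
        have := mem_centralizer_iff.1 hu.2 _ (conj_inv_mem_of_mem_normalizer htK hk)
        calc k * (t * u * t⁻¹) = t * ((t⁻¹ * k * t) * u) * t⁻¹ := by group
          _ = t * (u * (t⁻¹ * k * t)) * t⁻¹ := by rw [this]
          _ = t * u * t⁻¹ * k := by group
      have h2 : Nat.card (cOf T K) = 2 := by
        have h' : 1 < Nat.card (cOf T K) :=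
          (one_lt_card_iff_ne_bot _).2 fun e0 => hu1 (mem_bot.1 (e0 ▸ hu))
        omega
      obtain ⟨r, -, hr⟩ := (Nat.card_eq_two_iff' (1 : ↥(cOf T K))).1 h2
      exact congrArg Subtype.val ((hr ⟨_, hm⟩ fun e0 => hu1 (by
        have e1 := congrArg Subtype.val e0
        rwa [OneMemClass.coe_one, mul_inv_eq_one, mul_eq_left] at e1)).trans
        (hr ⟨u, hu⟩ fun e0 => hu1 (congrArg Subtype.val e0)).symm)
    obtain ⟨u, hu, e' | e'⟩ := hdec z hz <;> subst e'
    · exact hcfix z hu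
    · rw [show t * (u * w) * t⁻¹ = (t * u * t⁻¹) * (t * w * t⁻¹) by group, hcfix u hu, hw']
  have htL : t ∈ L := h.hLT.1.1 ht
  have h'' : Side T L (MC[t] K) := by
    have := h.conj_of_normalizer (le_normalizer ht)
    rwa [map_conj_of_mem (le_normalizer htL)] at this
  obtain ⟨w', hw'def⟩ : ∃ b, b = t * w * t⁻¹ := ⟨_, rfl⟩
  have hw'c : w' ∈ cOf T K := by
    refine mem_inf.2 ⟨hw'def ▸ conj_mem_of_mem_normalizer htz hwZ, ?_⟩
    refine wOf_le_centralizer_of_ne hZN h.isPGroup h.ne_bot h.hLT h.hK h.hKL h''.hK h''.hKL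
      hK'.symm ?_
    rw [← map_wOf, hw'def]
    exact mem_map_of_mem _ hw
  have hwc' : w ∈ cOf T (MC[t] K) := mem_inf.2 ⟨hwZ,
    wOf_le_centralizer_of_ne hZN h.isPGroup h.ne_bot h.hLT h''.hK h''.hKL h.hK h.hKL hK' hw⟩
  have hw'1 : w' ≠ 1 := fun e => hw1 (by rwa [hw'def, mul_inv_eq_one, mul_eq_left] at e)
  have hall : ∀ z ∈ zJ T, z ≠ 1 → z = w ∨ z = w' ∨ z = w' * w := by
    intro z hz hz1
    have h2 : Nat.card (cOf T K) = 2 := by
      have h' : 1 < Nat.card (cOf T K) :=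
        (one_lt_card_iff_ne_bot _).2 fun e0 => hw'1 (mem_bot.1 (e0 ▸ hw'c))
      omega
    obtain ⟨r, -, hr⟩ := (Nat.card_eq_two_iff' (1 : ↥(cOf T K))).1 h2
    have hu' : ∀ u ∈ cOf T K, u ≠ 1 → u = w' := fun u hu hu1 =>
      congrArg Subtype.val ((hr ⟨u, hu⟩ fun e0 => hu1 (congrArg Subtype.val e0)).trans
        (hr ⟨w', hw'c⟩ fun e0 => hw'1 (congrArg Subtype.val e0)).symm)
    obtain ⟨u, hu, e' | e'⟩ := hdec z hz <;> by_cases hu1 : u = 1 <;> subst e'
    · exact absurd hu1 hz1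
    · exact .inr (.inl (hu' _ hu hu1))
    · exact .inl (by rw [hu1, one_mul])
    · exact .inr (.inr (by rw [hu' u hu hu1]))
  -- an element of `N(J)` mapping `w` to `w'` or `w'` to `w` lies in `L`
  have key : ∀ {a b : G} {K₁ K₂ : Subgroup G}, Side T L K₁ → Side T L K₂ → a ∈ cOf T K₁ →
      b ∈ cOf T K₂ → b ≠ 1 → ∀ y ∈ normalizer (thompsonSubgroupOf 2 T : Set G),
      y * a * y⁻¹ = b → y ∈ L := by
    intro a b K₁ K₂ h₁ h₂ ha hb hb1 y hy e
    refine h.normalizer_le_self (mem_normalizer_iff_map_conj_eq.2 ?_)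
    refine ((h₁.conj y).huniq L h.hmax ((sup_le ?_ ?_).trans (h₂.centralizer_le hb hb1))).symm
    · rintro _ ⟨k, hk, rfl⟩
      refine mem_centralizer_singleton_iff.2 ?_
      have hc := mem_centralizer_iff.1 ha.2 k hk
      simp only [MulEquiv.coe_toMonoidHom, MulAut.conj_apply, ← e]
      calc y * k * y⁻¹ * (y * a * y⁻¹) = y * (k * a) * y⁻¹ := by group
        _ = y * (a * k) * y⁻¹ := by rw [hc]
        _ = y * a * y⁻¹ * (y * k * y⁻¹) := by group
    · rw [thompson_conj, map_conj_of_mem hy]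
      exact fun j hj => mem_centralizer_singleton_iff.2 (omegaCenterOf_le_centralizer _ hb.1 j hj)
  have hgw1 : g * w * g⁻¹ ≠ 1 := fun e => hw1 (by rwa [mul_inv_eq_one, mul_eq_left] at e)
  rcases hall _ (conj_mem_of_mem_normalizer hgz hwZ) hgw1 with e | e | e
  · exact hgL (key h'' h'' hwc' hwc' hw1 g hg e)
  · exact hgL (key h'' h hwc' hw'c hw'1 g hg e)
  · have hgw'1 : g * w' * g⁻¹ ≠ 1 := fun e => hw'1 (by rwa [mul_inv_eq_one, mul_eq_left] at e)
    rcases hall _ (conj_mem_of_mem_normalizer hgz hw'c.1) hgw'1 with e' | e' | e'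
    · exact hgL (key h h'' hw'c hwc' hw1 g hg e')
    · exact hgL (key h h hw'c hw'c hw'1 g hg e')
    · have : w = w' := by
        calc w = g⁻¹ * (g * w * g⁻¹) * g := by group
          _ = g⁻¹ * (g * w' * g⁻¹) * g := by rw [e, e']
          _ = w' := by group
      exact hwc (this ▸ hw'c)

/-- Every 2-local subgroup containing a nontrivial 2-subgroup of `L` lies in `L`: then `L` is
strongly embedded. -/
lemma isStronglyEmbedded_of_no_straddling {S : Sylow 2 G} {L K : Subgroup G}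
    (h : Side (S : Subgroup G) L K) (hO : pCore 2 G = ⊥)
    (hN : normalizer ((S : Subgroup G) : Set G) ≤ L)
    (hno : straddlingTwoSubgroups L = ∅) : IsStronglyEmbedded L := by
  haveI : Fact (Nat.Prime 2) := ⟨Nat.prime_two⟩
  have hloc : ∀ {R : Subgroup G}, IsPGroup 2 R → R ≠ ⊥ → R ≤ L → normalizer (R : Set G) ≤ L := by
    intro R hR hR1 hRL
    by_contra hle
    exact Set.notMem_empty R (hno ▸ (⟨hR, hR1, hRL, _, ⟨R, hR, hR1, rfl⟩, le_normalizer, hle⟩ :
      R ∈ straddlingTwoSubgroups L))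
  refine ⟨?_, ?_, fun g hg => ?_⟩
  · intro e
    obtain ⟨P, hP, hP1, hPN⟩ := h.hmax.1
    haveI : P.Normal := normalizer_eq_top_iff.1 (hPN ▸ e)
    exact hP1 (le_bot_iff.1 (hO ▸ CfsgLib.FFModules.le_pCore inferInstance hP))
  · obtain ⟨k, hk⟩ := IsPGroup.iff_card.1 h.isPGroup
    refine (even_iff_two_dvd).2 (dvd_trans ?_ (card_dvd_of_le h.hLT.1.1))
    rcases k with - | k
    · exact absurd (card_eq_one.1 (by simpa using hk)) h.ne_bot
    · exact hk ▸ dvd_pow_self 2 (by omega)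
  · rw [← Nat.not_even_iff_odd]
    intro hev
    set X := L ⊓ MC[g] L with hX
    obtain ⟨R, hR, -⟩ := exists_isSylowTwoIn_ge (bot_le : ⊥ ≤ X) IsPGroup.of_bot
    have hR1 : R ≠ ⊥ := by
      rintro rfl
      have h' := hR.2.2
      rw [relIndex_bot_left] at h'
      exact (Nat.not_odd_iff_even.2 hev) h'
    have hRL : R ≤ L := hR.1.trans inf_le_left
    have hN1 : normalizer (R : Set G) ≤ X := by
      refine le_inf (hloc hR.2.1 hR1 hRL) fun y hy => ?_
      have hR' : MC[g⁻¹] R ≤ L := by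
        refine (map_mono (hR.1.trans inf_le_right)).trans (le_of_eq ?_)
        exact CfsgLib.FFModules.map_conj_inv_map L g
      have h1 := hloc (hR.2.1.map _)
        (fun e => hR1 ((map_eq_bot_iff_of_injective _ (MulAut.conj g⁻¹).injective).1 e)) hR'
      have h2 : g⁻¹ * y * g ∈ L := h1 <| by
        refine mem_normalizer_of_forall ?_
        rintro _ ⟨r, hr, rfl⟩
        refine ⟨y * r * y⁻¹, conj_mem_of_mem_normalizer hy hr, ?_⟩
        simp [mul_assoc]
      exact ⟨g⁻¹ * y * g, h2, by simp [mul_assoc]⟩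
    -- `R` is a Sylow subgroup of `G`
    obtain ⟨P, hRP⟩ := hR.2.1.exists_le_sylow
    have hRP' : R = P := by
      by_contra hne
      obtain ⟨y, hyP, hyR, hyn⟩ := exists_mem_normalizer_not_mem P.2 (lt_of_le_of_ne hRP hne)
      have e := eq_of_isSylowTwoIn hR (sup_le hR.1 (zpowers_le.2 (hN1 hyn)))
        (P.2.to_le (sup_le hRP (zpowers_le.2 hyP))) le_sup_left
      exact hyR (e ▸ (mem_sup_right (mem_zpowers y) : y ∈ R ⊔ zpowers y))
    have hsyl : ∀ U : Subgroup G, U ≤ L → IsPGroup 2 U → Nat.card U = Nat.card ↥(S : Subgroup G) →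
        ∃ l ∈ L, MC[l] U = (S : Subgroup G) := by
      intro U hU hU2 hc
      obtain ⟨l, hl, hle⟩ := exists_conj_le h.hLT.1 hU hU2
      exact ⟨l, hl, eq_of_le_of_card_ge hle
        (by rw [card_map_of_injective (MulAut.conj l).injective, hc])⟩
    have hcR : Nat.card R = Nat.card ↥(S : Subgroup G) := by
      rw [hRP', Sylow.card_eq_multiplicity, Sylow.card_eq_multiplicity]
    obtain ⟨l, hl, el⟩ := hsyl R hRL hR.2.1 hcR
    have hR' : MC[g⁻¹] R ≤ L := by
      refine (map_mono (hR.1.trans inf_le_right)).trans (le_of_eq ?_)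
      exact CfsgLib.FFModules.map_conj_inv_map L g
    obtain ⟨l', hl', el'⟩ := hsyl _ hR' (hR.2.1.map _)
      (by rw [card_map_of_injective (MulAut.conj g⁻¹).injective, hcR])
    have hmem : l' * g⁻¹ * l⁻¹ ∈ L := by
      refine hN (mem_normalizer_iff_map_conj_eq.2 ?_)
      show MC[l' * g⁻¹ * l⁻¹] (S : Subgroup G) = (S : Subgroup G)
      rw [CfsgLib.FFModules.map_conj_mul, CfsgLib.FFModules.map_conj_mul]
      conv_lhs => rw [← el, CfsgLib.FFModules.map_conj_inv_map]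
      exact el'
    have := L.mul_mem (L.mul_mem (L.inv_mem hl) (L.inv_mem hmem)) hl'
    exact hg (by simpa [mul_assoc] using this)

/-- A maximal straddling subgroup exists. -/
lemma exists_max_straddling {M : Subgroup G} (hne : (straddlingTwoSubgroups M).Nonempty) :
    ∃ T, T ∈ maxStraddlingTwoSubgroups M := by
  classical
  obtain ⟨T₀, hT₀, hmax⟩ := Set.exists_max_image (straddlingTwoSubgroups M)
    (fun T => toLex (maxElemAbelianOrder T,
      toLex (Nat.card ↥(thompsonSubgroupOf 2 T), Nat.card ↥T))) (Set.toFinite _) hne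
  refine ⟨T₀, hT₀, fun T hT => ?_⟩
  have h' := hmax T hT
  simp only [Prod.Lex.le_iff, ofLex_toLex] at h'
  rcases h' with h' | ⟨h1, h2 | ⟨h2, h3⟩⟩
  · exact ⟨h'.le, fun e => absurd e h'.ne⟩
  · exact ⟨h1.le, fun _ => ⟨h2.le, fun e => absurd e h2.ne⟩⟩
  · exact ⟨h1.le, fun _ => ⟨h2.le, fun _ => h3⟩⟩

/-- The maximal straddling case. -/
lemma exists_of_straddling (hZN : ZN G) {S : Sylow 2 G} {L K : Subgroup G}
    (h : Side (S : Subgroup G) L K)
    (hJ : normalizer (thompsonSubgroupOf 2 (S : Subgroup G) : Set G) ≤ L)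
    (hne : (straddlingTwoSubgroups L).Nonempty) :
    ∃ L' K', Side (S : Subgroup G) L' K' ∧ L ≠ L' := by
  haveI : Fact (Nat.Prime 2) := ⟨Nat.prime_two⟩
  obtain ⟨T₁, hT₁⟩ := exists_max_straddling hne
  have hctx : Ctx L T₁ := ⟨hZN, ⟨S, hJ⟩, hT₁⟩
  obtain ⟨K₁, hK₁⟩ := hctx.exists_outside
  obtain ⟨L₁, hL₁, hKJ, huniq, -, -, hLT₁⟩ := hctx.unique_local hK₁
  have h₁ : Side T₁ L₁ K₁ := ⟨hL₁, hLT₁, hK₁.1.1, le_sup_left.trans hKJ, huniq⟩
  have hL₁L : ¬ L₁ ≤ L := fun hle => hK₁.2.1 (h₁.hKL.trans hle)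
  obtain ⟨S', hS', hTS'⟩ := exists_isSylowTwoIn_ge hctx.le hctx.isPGroup
  by_cases hTS : T₁ = S'
  · subst hTS
    obtain ⟨l, hl, e⟩ := exists_conj_eq h.hLT.1 hS'
    refine ⟨_, _, e ▸ h₁.conj l, fun e' => hL₁L ?_⟩
    have hle : L₁ = MC[l⁻¹] L := by rw [e', CfsgLib.FFModules.map_conj_inv_map]
    rw [hle, map_conj_of_mem (le_normalizer (L.inv_mem hl))]
  exfalso
  obtain ⟨s, hsS, hsT, hsn⟩ := exists_mem_normalizer_not_mem hS'.2.1 (lt_of_le_of_ne hTS' hTS)
  have p : Pair T₁ L₁ K₁ (MC[s] L₁) (MC[s] K₁) :=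
    pair_of_sides hZN h₁ (h₁.conj_of_normalizer hsn)
      (h₁.conj_ne (h₁.not_mem_of_normalizes hS'.2.1 hTS' hsS hsT)).symm
  set V₁ := vOf T₁ K₁ with hV₁
  set V₂ := vOf T₁ (MC[s] K₁) with hV₂
  have hswap : ∀ g ∈ normalizer (T₁ : Set G), g ∉ T₁ → MC[g] V₁ = V₂ ∧ MC[g] V₂ = V₁ := by
    intro g hg hgT
    have e1 := (p.conj_v hg).resolve_left fun e => hgT (p.mem_of_normalizes hg e)
    refine ⟨e1, (p.symm.conj_v hg).resolve_left fun e => ?_⟩
    exact p.v_ne ((map_injective (MulAut.conj g).injective) (e1.trans e.symm))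
  set V := omegaCenterOf (pCoreOf 2 L) with hV
  have hVe : IsElementaryAbelian 2 V := isElementaryAbelian_omegaCenterOf _
  have hLV : L ≤ normalizer (V : Set G) :=
    (CfsgLib.FFModules.le_normalizer_pCoreOf L).trans (normalizer_le_normalizer_omegaCenterOf _)
  have hVS : V ≤ S' := (omegaCenterOf_le _).trans (core_le_sylow hS')
  have hWV : wOf K ≤ V := wOf_le_omega_local hZN h.isPGroup h.ne_bot h.hLT h.hK h.hKL
  -- `V ≤ T₁`
  have hVT : V ≤ T₁ := by
    by_contra hVn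
    obtain ⟨g, hgX, hgT, hgn⟩ := exists_mem_normalizer_not_mem
      (hS'.2.1.to_le (sup_le hTS' hVS)) (lt_of_le_of_ne (le_sup_left : T₁ ≤ T₁ ⊔ V)
        fun e => hVn (e ▸ le_sup_right))
    rw [mem_sup_iff_of_le_normalizer (hctx.le.trans hLV)] at hgX
    obtain ⟨a, ha, u, hu, rfl⟩ := hgX
    have hun : u ∈ normalizer (T₁ : Set G) :=
      (Subgroup.mul_mem_cancel_left _ (le_normalizer ha)).1 hgn
    have huT : u ∉ T₁ := fun e => hgT (T₁.mul_mem ha e)
    obtain ⟨e1, e2⟩ := hswap u hun huT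
    obtain ⟨v, hv, hv2⟩ := SetLike.not_le_iff_exists.1
      (fun hle => p.v_ne (eq_of_le_of_card_ge hle p.card_v_eq.ge))
    have hv' : u * v * u⁻¹ ∈ V₂ := e1 ▸ ⟨v, hv, rfl⟩
    have hv'1 : u * v * u⁻¹ ∉ V₁ := fun e => hv2 (by
      rw [← e2] at e
      obtain ⟨y, hy, ey⟩ := e
      exact (MulAut.conj u).injective ey ▸ hy)
    obtain ⟨w, hw, hw₂, hw1, -, hrel⟩ := p.exists_common
    have e3 := hrel v hv hv2 _ hv' hv'1
    have hvi : v⁻¹ = v := inv_eq_of_mul_eq_one_right (mul_self_of_mem p.v_elem hv)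
    have hd : v * (u * v * u⁻¹) ∈ V := by
      have h1 := V.mul_mem (conj_mem_of_mem_normalizer (hLV (hctx.le (p.h₁.v_le_T hv))) hu)
        (V.inv_mem hu)
      rwa [hvi, show v * u * v * u⁻¹ = v * (u * v * u⁻¹) by group] at h1
    have := mul_self_of_mem hVe hd
    refine hw1 (Eq.trans ?_ this)
    calc w = w * (u * v * u⁻¹) * (u * v * u⁻¹) := by
          rw [mul_assoc, mul_self_of_mem p.symm.v_elem hv', mul_one]
      _ = (u * v * u⁻¹) * w * (u * v * u⁻¹) := by
          rw [commute_of_mem p.symm.v_elem (p.h₂.wOf_le_omega_qs hw₂) hv']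
      _ = v * (u * v * u⁻¹) * v⁻¹ * (u * v * u⁻¹) := by rw [e3]
      _ = v * (u * v * u⁻¹) * (v * (u * v * u⁻¹)) := by rw [hvi]; group
  have hVs : MC[s] V = V := map_conj_of_mem (hLV (hS'.1 hsS))
  have hVZ : V ≤ zJ T₁ := by
    rw [← p.inf_v]
    obtain ⟨e1, e2⟩ := hswap s hsn hsT
    rcases p.le_or hVe hVT with hle | hle
    · refine le_inf hle ?_
      rw [← hVs, ← hV₂, ← e1]; exact map_mono hle
    · refine le_inf ?_ hle
      rw [← hVs, ← hV₁, ← e2]; exact map_mono hle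
  have h4 : Nat.card (zJ T₁) = 4 := by
    have := card_le_of_le (hWV.trans hVZ)
    rw [wOf_card h.hK] at this
    rcases p.card_cases with c | c <;> omega
  have hVeq : V = zJ T₁ := eq_of_le_of_card_ge hVZ (by
    have := card_le_of_le hWV
    rw [wOf_card h.hK] at this
    omega)
  obtain ⟨x, hx, hxR, hxo⟩ := comp_exists_odd h.hK
  have hx3 := comp_pow_three h.hK hx hxo
  have hxn : x ∈ normalizer (T₁ : Set G) := by
    rw [← p.centralizer_zJ_eq h4, ← hVeq]
    refine mem_normalizer_iff_map_conj_eq.2 ?_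
    show MC[x] (centralizer (V : Set G)) = _
    rw [map_conj_centralizer, map_conj_of_mem (hLV (h.hKL hx))]
  have hxT : x ∉ T₁ := by
    intro hxT
    obtain ⟨k, hk⟩ := dvd_two_pow_of_mem hctx.isPGroup hxT
    refine hxR ?_
    rw [orderOf_eq_one_iff.1 (Nat.eq_one_of_dvd_coprimes
      ((Nat.coprime_two_left.2 hxo).pow_left k) hk dvd_rfl)]
    exact one_mem _
  obtain ⟨e1, e2⟩ := hswap x hxn hxT
  refine p.v_ne ?_
  have e3 : MC[x * x * x] V₁ = V₂ := by
    rw [CfsgLib.FFModules.map_conj_mul, e1, CfsgLib.FFModules.map_conj_mul, e2, e1]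
  rw [← hV₁, ← hV₂, ← e3, hx3, map_one, MulAut.one_def]
  exact (Subgroup.map_id V₁).symm

/-- **Every side has a partner.** -/
theorem exists_second_side (hZN : ZN G) (hO : pCore 2 G = ⊥) {T L K : Subgroup G} (h : Side T L K) :
    ∃ L' K', Side T L' K' ∧ L ≠ L' := by
  haveI : Fact (Nat.Prime 2) := ⟨Nat.prime_two⟩
  obtain ⟨S, hTS⟩ := h.isPGroup.exists_le_sylow
  rcases lt_or_eq_of_le hTS with hlt | heq
  · exact h.exists_of_lt S.2 hlt
  subst heq
  by_cases hN : normalizer ((S : Subgroup G) : Set G) ≤ L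
  swap
  · obtain ⟨g, hg, hgL⟩ := SetLike.not_le_iff_exists.1 hN
    exact ⟨_, _, h.conj_of_normalizer hg, (h.conj_ne hgL).symm⟩
  have hJ := normalizer_thompson_le_side hZN h hN
  rcases Set.eq_empty_or_nonempty (straddlingTwoSubgroups L) with hno | hne
  swap
  · exact exists_of_straddling hZN h hJ hne
  exfalso
  have hse := isStronglyEmbedded_of_no_straddling h hO hN hno
  obtain ⟨A, hA, hAQ⟩ : ∃ A, IsMaxEA 2 (S : Subgroup G) A ∧ ¬ A ≤ pCoreOf 2 L := by
    by_contra! hall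
    exact h.hLT.2.1 (thompsonSubgroupOf_le_iff.2 hall)
  obtain ⟨a, ha, haQ⟩ := SetLike.not_le_iff_exists.1 hAQ
  obtain ⟨k, hk⟩ := IsPGroup.iff_card.1 (CfsgLib.FFModules.isPGroup_pCoreOf (p := 2) L)
  have hk0 : k ≠ 0 := fun e => core_ne_bot h.isPGroup h.ne_bot h.hLT
    (card_eq_one.1 (by rw [hk, e, pow_zero]))
  obtain ⟨i, hi⟩ := exists_prime_orderOf_dvd_card' (G := ↥(pCoreOf 2 L)) 2 (hk ▸ dvd_pow_self 2 hk0)
  have hi2 : orderOf (i : G) = 2 := by rw [orderOf_coe, hi]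
  have ha2 : orderOf a = 2 := orderOf_eq_prime (by rw [pow_two]; exact mul_self_of_mem hA.elem ha)
    fun e => haQ (e ▸ one_mem _)
  obtain ⟨g, hg⟩ := isConj_iff.1 (CfsgLib.TwoFusion.isConj_involutions hse hi2 ha2)
  have hgL : g ∈ L := by
    by_contra hgL
    have haX : a ∈ L ⊓ MC[g] L :=
      ⟨h.hLT.1.1 (hA.le ha), i, CfsgLib.FFModules.pCoreOf_le L i.2, hg⟩
    refine (Nat.not_even_iff_odd.2 (hse.2.2 g hgL)) (even_iff_two_dvd.2 ?_)
    exact ha2 ▸ Subgroup.orderOf_dvd_natCard _ haX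
  exact haQ (hg ▸ conj_mem_of_mem_normalizer (CfsgLib.FFModules.le_normalizer_pCoreOf L hgL) i.2)

end CfsgLib.JComponents
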