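import Cfsg.Agent.Lib.JComponents.Straddle

/-!
Sides: a component `K` with its unique maximal 2-local subgroup `L`, the 2-subgroup `T` being a
Sylow 2-subgroup of `L`; first consequences of having two sides over the same `T`.
-/

set_option autoImplicit false

open scoped IsMulCommutative

namespace CfsgLib.JComponents

open Cfsg CfsgLib.ThompsonJ Subgroup

variable {G : Type*} [Group G] [Finite G]

local notation "MC[" g "]" => Subgroup.map (MulEquiv.toMonoidHom (MulAut.conj g))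

/-- `Ω₁(Z(J(T)))`. -/
abbrev zJ (T : Subgroup G) : Subgroup G := omegaCenterOf (thompsonSubgroupOf 2 T)

/-- `C_{Ω₁(Z(J(T)))}(K)`. -/
abbrev cOf (T K : Subgroup G) : Subgroup G := zJ T ⊓ centralizer (K : Set G)

/-- A component with its unique maximal 2-local subgroup. -/
structure Side (T L K : Subgroup G) : Prop where
  hmax : IsMaximalTwoLocal L
  hLT : L ∈ jOvergroups T
  hK : IsJComponent T K
  hKL : K ≤ L
  huniq : ∀ L' : Subgroup G, IsMaximalTwoLocal L' → K ⊔ thompsonSubgroupOf 2 T ≤ L' → L' = L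

omit [Finite G] in
lemma map_conj_centralizer (g : G) (X : Subgroup G) :
    MC[g] (centralizer (X : Set G)) = centralizer ((MC[g] X : Subgroup G) : Set G) := by
  ext y
  constructor
  · rintro ⟨c, hc, rfl⟩
    refine mem_centralizer_iff.2 ?_
    rintro _ ⟨x, hx, rfl⟩
    rw [← map_mul, ← map_mul, mem_centralizer_iff.1 hc x hx]
  · intro hy
    refine ⟨g⁻¹ * y * g, mem_centralizer_iff.2 fun x hx => ?_, by simp [mul_assoc]⟩
    have h := mem_centralizer_iff.1 hy _ (mem_map_of_mem (MulAut.conj g).toMonoidHom hx)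
    simp only [MulEquiv.coe_toMonoidHom, MulAut.conj_apply] at h
    calc x * (g⁻¹ * y * g) = g⁻¹ * (g * x * g⁻¹ * y) * g := by group
      _ = g⁻¹ * (y * (g * x * g⁻¹)) * g := by rw [h]
      _ = g⁻¹ * y * g * x := by group

omit [Finite G] in
lemma isTwoLocal_conj {N : Subgroup G} (hN : IsTwoLocal N) (g : G) : IsTwoLocal (MC[g] N) := by
  obtain ⟨P, hP, hP1, rfl⟩ := hN
  refine ⟨MC[g] P, hP.map _, fun h => hP1 ((map_eq_bot_iff_of_injective _
    (MulAut.conj g).injective).1 h), ?_⟩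
  exact map_equiv_normalizer_eq P (MulAut.conj g)

omit [Finite G] in
lemma isMaximalTwoLocal_conj {N : Subgroup G} (hN : IsMaximalTwoLocal N) (g : G) :
    IsMaximalTwoLocal (MC[g] N) := by
  refine ⟨isTwoLocal_conj hN.1 g, fun X hX hle => ?_⟩
  have h := hN.2 _ (isTwoLocal_conj hX g⁻¹) (by
    have h' := map_mono (f := (MulAut.conj g⁻¹).toMonoidHom) hle
    rwa [CfsgLib.FFModules.map_conj_inv_map] at h')
  rw [← h, map_conj_map_inv]

lemma jOvergroups_conj {T L : Subgroup G} (h : L ∈ jOvergroups T) (g : G) :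
    MC[g] L ∈ jOvergroups (MC[g] T) := by
  refine ⟨isSylowTwoIn_conj h.1 g, ?_, ?_⟩
  · rw [thompson_conj, ← LargeSubgroups.map_conj_pCoreOf,
      map_le_map_iff_of_injective (MulAut.conj g).injective]
    exact h.2.1
  · rw [← LargeSubgroups.map_conj_pCoreOf, ← map_conj_centralizer]
    exact map_mono h.2.2

/-- The odd elements of a component outside its core have order three. -/
lemma comp_pow_three {T K : Subgroup G} (hK : IsJComponent T K) {x : G} (hx : x ∈ K)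
    (hxo : Odd (orderOf x)) : x * x * x = 1 := by
  haveI : ((pCoreOf 2 K).subgroupOf K).Normal :=
    (normal_subgroupOf_iff_le_normalizer (CfsgLib.FFModules.pCoreOf_le K)).2
      (CfsgLib.FFModules.le_normalizer_pCoreOf K)
  have h3 : x ^ 3 ∈ pCoreOf 2 K := by
    have h := pow_index_mem ((pCoreOf 2 K).subgroupOf K) (⟨x, hx⟩ : ↥K)
    rw [← relIndex, hK.2.2.1] at h
    exact h
  obtain ⟨k, hk⟩ := dvd_two_pow_of_mem (CfsgLib.FFModules.isPGroup_pCoreOf K) h3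
  rw [← pow_three']
  exact orderOf_eq_one_iff.1 (Nat.eq_one_of_dvd_coprimes
    ((Nat.coprime_two_left.2 hxo).pow_left k) hk (orderOf_pow_dvd 3))

lemma component_core_le {T L K : Subgroup G} (hZN : ZN G) (hT : IsPGroup 2 T) (hT1 : T ≠ ⊥)
    (hL : L ∈ jOvergroups T) (hK : IsJComponent T K) (hKL : K ≤ L) :
    pCoreOf 2 K ≤ pCoreOf 2 L := by
  obtain ⟨s, u, -, hs, rfl⟩ := exists_comp_eq hZN hT hT1 hL hK hKL
  rw [pCoreOf_comp hZN hT hT1 hL hs]
  exact inf_le_right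

namespace Side

variable {T L K : Subgroup G} (h : Side T L K)
include h

lemma isPGroup : IsPGroup 2 T := h.hLT.1.2.1

lemma ne_bot : T ≠ ⊥ := fun e => h.hLT.2.1 (by
  rw [e]; exact (thompsonSubgroupOf_le 2 _).trans bot_le)

lemma thompson_le : thompsonSubgroupOf 2 T ≤ L := (thompsonSubgroupOf_le 2 T).trans h.hLT.1.1

lemma conj (g : G) : Side (MC[g] T) (MC[g] L) (MC[g] K) := by
  refine ⟨isMaximalTwoLocal_conj h.hmax g, jOvergroups_conj h.hLT g, IsJComponent_conj h.hK g,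
    map_mono h.hKL, fun L' hL' hle => ?_⟩
  rw [thompson_conj, ← Subgroup.map_sup] at hle
  have e := h.huniq _ (isMaximalTwoLocal_conj hL' g⁻¹) (by
    have h' := map_mono (f := (MulAut.conj g⁻¹).toMonoidHom) hle
    rwa [CfsgLib.FFModules.map_conj_inv_map] at h')
  rw [← e, map_conj_map_inv]

/-- A local subgroup containing `K` and `J(T)` lies in `L`. -/
lemma le_of_local {N : Subgroup G} (hN : IsTwoLocal N) (hle : K ⊔ thompsonSubgroupOf 2 T ≤ N) :
    N ≤ L := by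
  obtain ⟨L', hL', hNL⟩ := exists_isMaximalTwoLocal_ge hN
  rwa [h.huniq L' hL' (hle.trans hNL)] at hNL

lemma normalizer_le {X : Subgroup G} (hX : IsPGroup 2 X) (hX1 : X ≠ ⊥)
    (hle : K ⊔ thompsonSubgroupOf 2 T ≤ normalizer (X : Set G)) : normalizer (X : Set G) ≤ L :=
  h.le_of_local ⟨X, hX, hX1, rfl⟩ hle

lemma centralizer_le {u : G} (hu : u ∈ cOf T K) (hu1 : u ≠ 1) :
    centralizer ({u} : Set G) ≤ L := by
  have hn : centralizer ({u} : Set G) ≤ normalizer ((zpowers u : Subgroup G) : Set G) := by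
    intro c hc
    refine mem_normalizer_of_forall fun y hy => ?_
    obtain ⟨i, rfl⟩ := mem_zpowers_iff.1 hy
    have : Commute c u := mem_centralizer_singleton_iff.1 hc
    rw [(this.zpow_right i).eq, mul_inv_cancel_right]
    exact hy
  have hu2 : u * u = 1 := mul_self_of_mem (isElementaryAbelian_omegaCenterOf _) hu.1
  refine hn.trans (h.normalizer_le ?_ ?_ ((sup_le (fun k hk => ?_) fun j hj => ?_).trans hn))
  · exact isPGroup_zpowers_of_dvd (k := 1) (orderOf_dvd_of_pow_eq_one (by rw [pow_one, pow_two, hu2]))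
  · exact fun e => hu1 (zpowers_eq_bot.1 e)
  · exact mem_centralizer_singleton_iff.2 (mem_centralizer_iff.1 hu.2 k hk)
  · exact mem_centralizer_singleton_iff.2 (omegaCenterOf_le_centralizer _ hu.1 j hj)

/-- A nontrivial 2-subgroup normalised by two sides. -/
lemma eq_of_normalizes {T' L' K' X : Subgroup G} (h' : Side T' L' K') (hX : IsPGroup 2 X)
    (hX1 : X ≠ ⊥) (hn : K ⊔ thompsonSubgroupOf 2 T ≤ normalizer (X : Set G))
    (hn' : K' ⊔ thompsonSubgroupOf 2 T' ≤ normalizer (X : Set G)) : L = L' := by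
  obtain ⟨N, hN, hle⟩ := exists_isMaximalTwoLocal_ge (show IsTwoLocal _ from ⟨X, hX, hX1, rfl⟩)
  rw [← h.huniq N hN (hn.trans hle), ← h'.huniq N hN (hn'.trans hle)]

/-- The centre of `W_K` relative to `T`. -/
lemma exists_centre : ∃ w ∈ wOf K, w ≠ 1 ∧ w ∈ zJ T ∧ w ∉ cOf T K ∧
    (∀ z ∈ zJ T, z ∈ wOf K → z = 1 ∨ z = w) ∧ ∀ z ∈ zJ T, ∃ u ∈ cOf T K, z = u ∨ z = u * w := by
  obtain ⟨w, hw, hw1, hwZ, huniq, hdec⟩ := comp_center h.hK h.isPGroup
  refine ⟨w, hw, hw1, hwZ, fun hc => hw1 ?_, huniq, fun z hz => ?_⟩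
  · obtain ⟨x, hx, hxR, hxo⟩ := comp_exists_odd h.hK
    exact wOf_fpf h.hK hx hxR hxo hw (mem_centralizer_iff.1 hc.2 x hx)
  · obtain ⟨u, hu, hY, e⟩ := hdec z hz
    exact ⟨u, ⟨hu, mem_centralizer_iff.2 fun k hk => hY k (mem_sup_left hk)⟩, e⟩

lemma card_zJ_le : Nat.card (zJ T) ≤ 2 * Nat.card (cOf T K) := by
  obtain ⟨w, -, -, hwZ, -, -, hdec⟩ := h.exists_centre
  refine card_le_two_mul inf_le_left fun b hb b' hb' hbn hbn' => ?_
  obtain ⟨u, hu, e⟩ := hdec b hb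
  obtain ⟨u', hu', e'⟩ := hdec b' hb'
  obtain rfl := e.resolve_left fun e0 => hbn (e0 ▸ hu)
  obtain rfl := e'.resolve_left fun e0 => hbn' (e0 ▸ hu')
  have hc := commute_of_mem (isElementaryAbelian_omegaCenterOf (thompsonSubgroupOf 2 T)) hwZ hu'.1
  rw [show u * w * (u' * w) = u * (w * u') * w by group, hc,
    show u * (u' * w) * w = u * u' * (w * w) by group,
    mul_self_of_mem (isElementaryAbelian_omegaCenterOf _) hwZ, mul_one]
  exact mul_mem hu hu'

end Side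

/-! ### Two sides -/

section two

variable {T L₁ K₁ L₂ K₂ : Subgroup G} (h₁ : Side T L₁ K₁) (h₂ : Side T L₂ K₂) (hne : L₁ ≠ L₂)
include h₁ h₂ hne

lemma cOf_disjoint {u : G} (hu₁ : u ∈ cOf T K₁) (hu₂ : u ∈ cOf T K₂) : u = 1 := by
  by_contra hu1
  refine hne (h₂.huniq L₁ h₁.hmax ((sup_le (fun k hk => ?_) fun j hj => ?_).trans
    (h₁.centralizer_le hu₁ hu1)))
  · exact mem_centralizer_singleton_iff.2 (mem_centralizer_iff.1 hu₂.2 k hk)
  · exact mem_centralizer_singleton_iff.2 (omegaCenterOf_le_centralizer _ hu₂.1 j hj)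

lemma card_cOf_mul_le : Nat.card (cOf T K₁) * Nat.card (cOf T K₂) ≤ Nat.card (zJ T) := by
  rw [← Nat.card_prod]
  refine Nat.card_le_card_of_injective
    (fun p : ↥(cOf T K₁) × ↥(cOf T K₂) =>
      (⟨(p.1 : G) * p.2, mul_mem p.1.2.1 p.2.2.1⟩ : ↥(zJ T))) ?_
  rintro ⟨a, b⟩ ⟨a', b'⟩ e
  have e' : (a : G) * b = a' * b' := congrArg Subtype.val e
  have h1 : (a' : G)⁻¹ * a = b' * (b : G)⁻¹ := by
    calc (a' : G)⁻¹ * a = (a' : G)⁻¹ * (a * b) * (b : G)⁻¹ := by group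
      _ = _ := by rw [e']; group
  have h2 : (a' : G)⁻¹ * a = 1 := cOf_disjoint h₁ h₂ hne
    ((cOf T K₁).mul_mem ((cOf T K₁).inv_mem a'.2) a.2)
    (h1 ▸ (cOf T K₂).mul_mem b'.2 ((cOf T K₂).inv_mem b.2))
  obtain rfl : a' = a := Subtype.ext (inv_mul_eq_one.1 h2)
  exact Prod.ext rfl (Subtype.ext (mul_left_cancel e'))

lemma card_cOf_le_two : Nat.card (cOf T K₁) ≤ 2 ∧ Nat.card (cOf T K₂) ≤ 2 ∧
    Nat.card (zJ T) ≤ 4 := by
  have h12 := card_cOf_mul_le h₁ h₂ hne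
  have a1 := h₁.card_zJ_le
  have a2 := h₂.card_zJ_le
  have p1 : 0 < Nat.card (cOf T K₁) := Nat.card_pos
  have p2 : 0 < Nat.card (cOf T K₂) := Nat.card_pos
  have b2 : Nat.card (cOf T K₂) ≤ 2 :=
    Nat.le_of_mul_le_mul_left ((h12.trans a1).trans (le_of_eq (mul_comm _ _))) p1
  have b1 : Nat.card (cOf T K₁) ≤ 2 := Nat.le_of_mul_le_mul_right (h12.trans a2) p2
  exact ⟨b1, b2, a1.trans (Nat.mul_le_mul_left 2 b1)⟩

/-- A subgroup of order at most two. -/
lemma eq_of_mem_cOf {p q : G} (hp : p ∈ cOf T K₁) (hq : q ∈ cOf T K₁) (hp1 : p ≠ 1) (hq1 : q ≠ 1) :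
    p = q := by
  have h2 : Nat.card (cOf T K₁) = 2 := by
    have h' : 1 < Nat.card (cOf T K₁) :=
      (one_lt_card_iff_ne_bot _).2 fun e => hp1 (mem_bot.1 (e ▸ hp))
    have := (card_cOf_le_two h₁ h₂ hne).1
    omega
  obtain ⟨r, -, huniq⟩ := (Nat.card_eq_two_iff' (1 : ↥(cOf T K₁))).1 h2
  exact congrArg Subtype.val ((huniq ⟨p, hp⟩ fun e => hp1 (congrArg Subtype.val e)).trans
    (huniq ⟨q, hq⟩ fun e => hq1 (congrArg Subtype.val e)).symm)

/-- `T` normalises both components. -/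
theorem le_normalizer_left (hZN : ZN G) : T ≤ normalizer (K₁ : Set G) := by
  set J := thompsonSubgroupOf 2 T with hJ
  have hT := h₁.isPGroup
  have hT1 := h₁.ne_bot
  have hTZ : T ≤ normalizer (zJ T : Set G) :=
    (le_normalizer.trans (normalizer_le_normalizer_thompsonSubgroupOf 2 T)).trans
      (normalizer_le_normalizer_omegaCenterOf _)
  obtain ⟨w, hw, hw1, hwZ, hwc, hwu, hdec⟩ := h₁.exists_centre
  have hconj : ∀ {K L : Subgroup G}, IsJComponent T K → K ≤ L → T ≤ L → ∀ t ∈ T,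
      IsJComponent T (MC[t] K) ∧ MC[t] K ≤ L := by
    intro K L hK hKL hTL t ht
    refine ⟨?_, ?_⟩
    · have e := IsJComponent_conj hK t
      rwa [show MC[t] T = T from mem_normalizer_iff_map_conj_eq.1 (le_normalizer ht)] at e
    · rintro _ ⟨k, hk, rfl⟩
      exact L.mul_mem (L.mul_mem (hTL ht) (hKL hk)) (L.inv_mem (hTL ht))
  have hwconj : ∀ {K : Subgroup G} (t : G), ∀ v ∈ wOf K, t * v * t⁻¹ ∈ wOf (MC[t] K) :=
    fun {K} t v hv => by rw [← map_wOf]; exact ⟨v, hv, rfl⟩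
  suffices hfix : ∀ t ∈ T, t * w * t⁻¹ = w by
    intro t ht
    obtain ⟨hK', hK'L⟩ := hconj h₁.hK h₁.hKL h₁.hLT.1.1 t ht
    rw [mem_normalizer_iff_map_conj_eq]
    refine component_eq_of_wOf hZN hT hT1 h₁.hLT hK' hK'L h₁.hK h₁.hKL fun e => hw1 ?_
    have h' := hwconj t w hw
    rw [hfix t ht] at h'
    exact mem_bot.1 (e ▸ mem_inf.2 ⟨h', hw⟩)
  intro t ht
  by_contra hmove
  set w' := t * w * t⁻¹ with hw'
  obtain ⟨hK', hK'L⟩ := hconj h₁.hK h₁.hKL h₁.hLT.1.1 t ht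
  set K' := MC[t] K₁ with hK'def
  have hw'W : w' ∈ wOf K' := hwconj t w hw
  have hw'Z : w' ∈ zJ T := conj_mem_of_mem_normalizer (hTZ ht) hwZ
  have hw'1 : w' ≠ 1 := fun e => hw1 (by rwa [hw', mul_inv_eq_one, mul_eq_left] at e)
  have hKK : K₁ ≠ K' := fun e => by
    rcases hwu w' hw'Z (e ▸ hw'W) with h' | h'
    · exact hw'1 h'
    · exact hmove h'
  have hc₁ : w' ∈ cOf T K₁ :=
    ⟨hw'Z, wOf_le_centralizer_of_ne hZN hT hT1 h₁.hLT h₁.hK h₁.hKL hK' hK'L hKK hw'W⟩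
  have hwc' : ∀ k ∈ K', k * w = w * k := fun k hk => mem_centralizer_iff.1
    (wOf_le_centralizer_of_ne hZN hT hT1 h₁.hLT hK' hK'L h₁.hK h₁.hKL hKK.symm hw) k hk
  -- a fixed point of `T` in `Ω₁(Z(J))`
  obtain ⟨f, hf, hf1, hffix⟩ := exists_fixed_ne_one
    (isPGroup_of_isElementaryAbelian (isElementaryAbelian_omegaCenterOf J))
    (fun e => hw1 (mem_bot.1 (e ▸ hwZ))) hT hTZ
  have hfw : f = w' * w := by
    obtain ⟨u, hu, e⟩ := hdec f hf
    by_cases hu1 : u = 1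
    · rcases e with e | e
      · exact absurd (e.trans hu1) hf1
      · exfalso
        refine hmove ?_
        rw [hu1, one_mul] at e
        have h' := hffix t ht
        rw [e] at h'
        exact mul_inv_eq_iff_eq_mul.2 h'
    · obtain rfl := eq_of_mem_cOf h₁ h₂ hne hu hc₁ hu1 hw'1
      rcases e with e | e
      · exfalso
        refine hmove ?_
        have e' := hffix t ht
        rw [e] at e'
        -- `w'` fixed gives `w` fixed
        have e2 : t * w' = w' * t := e'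
        calc t * w * t⁻¹ = t⁻¹ * (t * (t * w * t⁻¹)) := by group
          _ = t⁻¹ * ((t * w * t⁻¹) * t) := by rw [← hw', e2]
          _ = w := by group
      · exact e
  have hc₂ne : w' ∉ cOf T K₂ := fun hc => hw'1 (cOf_disjoint h₁ h₂ hne hc₁ hc)
  obtain ⟨w₂, hw₂, hw₂1, hw₂Z, hw₂c, hw₂u, hdec₂⟩ := h₂.exists_centre
  have hwc₂ : w ∉ cOf T K₂ := by
    intro hc
    have hle : K' ≤ L₂ := fun k hk =>
      h₂.centralizer_le hc hw1 (mem_centralizer_singleton_iff.2 (hwc' k hk))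
    have hne' : K₂ ≠ K' := fun e => hne (h₂.huniq L₁ h₁.hmax
      (sup_le (e.le.trans hK'L) h₁.thompson_le))
    have : w' ∈ cOf T K₂ :=
      ⟨hw'Z, wOf_le_centralizer_of_ne hZN hT hT1 h₂.hLT h₂.hK h₂.hKL hK' hle hne' hw'W⟩
    exact hc₂ne this
  have hfc₂ : f ∈ cOf T K₂ := by
    obtain ⟨u, hu, e⟩ := hdec₂ w' hw'Z
    obtain ⟨v, hv, e'⟩ := hdec₂ w hwZ
    have e1 := e.resolve_left fun e0 => hc₂ne (e0 ▸ hu)
    have e1' := e'.resolve_left fun e0 => hwc₂ (e0 ▸ hv)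
    rw [hfw, e1, e1', show u * w₂ * (v * w₂) = u * (w₂ * v) * w₂ by group,
      commute_of_mem (isElementaryAbelian_omegaCenterOf J) hw₂Z hv.1,
      show u * (v * w₂) * w₂ = u * v * (w₂ * w₂) by group,
      mul_self_of_mem (isElementaryAbelian_omegaCenterOf J) hw₂Z, mul_one]
    exact mul_mem hu hv
  -- `T` must move the centre of the second component as well
  have hw₂f : t * w₂ * t⁻¹ ≠ w₂ := by
    intro e
    refine hmove ?_
    obtain ⟨v, hv, e'⟩ := hdec₂ w hwZ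
    obtain rfl := e'.resolve_left fun e0 => hwc₂ (e0 ▸ hv)
    have hvf : t * v * t⁻¹ = v := by
      by_cases hv1 : v = 1
      · rw [hv1]; group
      · rw [eq_of_mem_cOf h₂ h₁ hne.symm hv hfc₂ hv1 hf1, mul_inv_eq_iff_eq_mul]
        exact hffix t ht
    calc t * (v * w₂) * t⁻¹ = (t * v * t⁻¹) * (t * w₂ * t⁻¹) := by group
      _ = v * w₂ := by rw [hvf, e]
  obtain ⟨hK₂', hK₂'L⟩ := hconj h₂.hK h₂.hKL h₂.hLT.1.1 t ht
  have hw₂'W := hwconj t w₂ hw₂
  have hw₂'Z : t * w₂ * t⁻¹ ∈ zJ T := conj_mem_of_mem_normalizer (hTZ ht) hw₂Z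
  have hw₂'1 : t * w₂ * t⁻¹ ≠ 1 := fun e => hw₂1 (by rwa [mul_inv_eq_one, mul_eq_left] at e)
  have hKK₂ : K₂ ≠ MC[t] K₂ := fun e => by
    rcases hw₂u _ hw₂'Z (by rw [← e] at hw₂'W; exact hw₂'W) with h' | h'
    · exact hw₂'1 h'
    · exact hw₂f h'
  have hmem : t * w₂ * t⁻¹ ∈ cOf T K₂ :=
    ⟨hw₂'Z, wOf_le_centralizer_of_ne hZN hT hT1 h₂.hLT h₂.hK h₂.hKL hK₂' hK₂'L hKK₂ hw₂'W⟩
  have e := eq_of_mem_cOf h₂ h₁ hne.symm hmem hfc₂ hw₂'1 hf1
  refine hw₂c ?_
  have : w₂ = f := by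
    calc w₂ = t⁻¹ * (t * w₂ * t⁻¹) * t := by group
      _ = t⁻¹ * (f * t) := by rw [e, mul_assoc]
      _ = f := by rw [← hffix t ht, inv_mul_cancel_left]
  rw [this]; exact hfc₂

theorem le_centralizer_zJ (hZN : ZN G) : T ≤ centralizer (zJ T : Set G) := by
  have hn := le_normalizer_left h₁ h₂ hne hZN
  have hTZ : T ≤ normalizer (zJ T : Set G) :=
    (le_normalizer.trans (normalizer_le_normalizer_thompsonSubgroupOf 2 T)).trans
      (normalizer_le_normalizer_omegaCenterOf _)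
  obtain ⟨w, hw, hw1, hwZ, hwc, hwu, hdec⟩ := h₁.exists_centre
  intro t ht
  refine mem_centralizer_iff.2 fun z hz => ?_
  have hw_t : t * w * t⁻¹ = w := by
    rcases hwu _ (conj_mem_of_mem_normalizer (hTZ ht) hwZ)
      (conj_mem_of_mem_normalizer (normalizer_le_normalizer_wOf _ (hn ht)) hw) with e | e
    · exact absurd (by rwa [mul_inv_eq_one, mul_eq_left] at e) hw1
    · exact e
  have hc_t : ∀ u ∈ cOf T K₁, t * u * t⁻¹ = u := by
    intro u hu
    by_cases hu1 : u = 1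
    · rw [hu1]; group
    refine eq_of_mem_cOf h₁ h₂ hne ⟨conj_mem_of_mem_normalizer (hTZ ht) hu.1,
      mem_centralizer_iff.2 fun k hk => ?_⟩ hu (fun e => hu1 (by
        rwa [mul_inv_eq_one, mul_eq_left] at e)) hu1
    have := mem_centralizer_iff.1 hu.2 _ (conj_inv_mem_of_mem_normalizer (hn ht) hk)
    calc k * (t * u * t⁻¹) = t * ((t⁻¹ * k * t) * u) * t⁻¹ := by group
      _ = t * (u * (t⁻¹ * k * t)) * t⁻¹ := by rw [this]
      _ = t * u * t⁻¹ * k := by group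
  obtain ⟨u, hu, rfl | rfl⟩ := hdec z hz
  · exact (mul_inv_eq_iff_eq_mul.1 (hc_t z hu)).symm
  · refine (mul_inv_eq_iff_eq_mul.1 ?_).symm
    calc t * (u * w) * t⁻¹ = (t * u * t⁻¹) * (t * w * t⁻¹) := by group
      _ = u * w := by rw [hc_t u hu, hw_t]

end two

/-- A side whose `T` behaves as if it had a partner. -/
structure FSide (T L K : Subgroup G) : Prop extends Side T L K where
  zn : ZN G
  norm : T ≤ normalizer (K : Set G)
  central : T ≤ centralizer (zJ T : Set G)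

lemma fside_of_two {T L₁ K₁ L₂ K₂ : Subgroup G} (hZN : ZN G) (h₁ : Side T L₁ K₁)
    (h₂ : Side T L₂ K₂) (hne : L₁ ≠ L₂) : FSide T L₁ K₁ :=
  { h₁ with
    zn := hZN
    norm := le_normalizer_left h₁ h₂ hne hZN
    central := le_centralizer_zJ h₁ h₂ hne hZN }

end CfsgLib.JComponents
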