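import Cfsg.Agent.Lib.JComponents.Side

/-!
The subgroup `K T` of a side and its 2-core `C_T(W_K)`.
-/

set_option autoImplicit false

open scoped IsMulCommutative commutatorElement

namespace CfsgLib.JComponents

open Cfsg CfsgLib.ThompsonJ Subgroup

variable {G : Type*} [Group G] [Finite G]

/-- `C_T(W_K)`. -/
abbrev qsOf (T K : Subgroup G) : Subgroup G := T ⊓ centralizer (wOf K : Set G)

omit [Finite G] in
lemma four_neighbours {a : G} {v w x : G} (h : a * v * a⁻¹ = v) (h' : a * w * a⁻¹ = w)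
    (hx : x = 1 ∨ x = w ∨ x = v ∨ x = v * w) : a * x * a⁻¹ = x := by
  rcases hx with rfl | rfl | rfl | rfl
  · group
  · exact h'
  · exact h
  · calc a * (v * w) * a⁻¹ = (a * v * a⁻¹) * (a * w * a⁻¹) := by group
      _ = v * w := by rw [h, h']

namespace FSide

variable {T L K : Subgroup G} (h : FSide T L K)
include h

lemma omega_eq : omegaCenterOf T = zJ T := by
  refine le_antisymm (fun z hz => ?_) ?_
  · have hle : omegaCenterOf T ≤ omegaOne 2 (T ⊓ centralizer (thompsonSubgroupOf 2 T : Set G)) :=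
      omegaOne_mono (inf_le_inf_left _ (Subgroup.centralizer_le (thompsonSubgroupOf_le 2 T)))
    have h' := omegaOne_inf_centralizer_le_thompsonSubgroupOf (p := 2) T (hle hz)
    rwa [centerThompsonOf_def] at h'
  · intro z hz
    exact mem_omegaOne ⟨(omegaCenterOf_le _).trans (thompsonSubgroupOf_le 2 T) hz,
      le_centralizer_iff.1 h.central hz⟩
      ((isElementaryAbelian_omegaCenterOf _).2 z hz)

lemma zJ_le : zJ T ≤ T := (omegaCenterOf_le _).trans (thompsonSubgroupOf_le 2 T)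

lemma core_le : pCoreOf 2 L ≤ T := core_le_sylow h.hLT.1

lemma componentCore_le : pCoreOf 2 K ≤ pCoreOf 2 L :=
  component_core_le h.zn h.toSide.isPGroup h.toSide.ne_bot h.hLT h.hK h.hKL

lemma wOf_le_local : wOf K ≤ omegaCenterOf (pCoreOf 2 L) :=
  wOf_le_omega_local h.zn h.toSide.isPGroup h.toSide.ne_bot h.hLT h.hK h.hKL

lemma wOf_le : wOf K ≤ T := ((wOf_le_local h).trans (omegaCenterOf_le _)).trans h.core_le

lemma le_normalizer_wOf : T ≤ normalizer (wOf K : Set G) :=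
  h.norm.trans (normalizer_le_normalizer_wOf K)

/-- The centre, fixed by `T`. -/
lemma exists_w : ∃ w ∈ wOf K, w ≠ 1 ∧ w ∈ zJ T ∧ w ∉ cOf T K ∧ (∀ t ∈ T, t * w * t⁻¹ = w) ∧
    (∀ z ∈ zJ T, z ∈ wOf K → z = 1 ∨ z = w) ∧ ∀ z ∈ zJ T, ∃ u ∈ cOf T K, z = u ∨ z = u * w := by
  obtain ⟨w, h1, h2, h3, h4, h5, h6⟩ := h.toSide.exists_centre
  exact ⟨w, h1, h2, h3, h4,
    fun t ht => mul_inv_eq_iff_eq_mul.2 (mem_centralizer_iff.1 (h.central ht) w h3).symm, h5, h6⟩

lemma eq_or_eq_mul {w : G} (hw : w ∈ wOf K) (hw1 : w ≠ 1) (hwT : ∀ t ∈ T, t * w * t⁻¹ = w)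
    {t v : G} (ht : t ∈ T) (hv : v ∈ wOf K) : t * v * t⁻¹ = v ∨ t * v * t⁻¹ = v * w := by
  by_cases hv1 : v = 1
  · left; rw [hv1]; group
  by_cases hvw : v = w
  · left; rw [hvw]; exact hwT t ht
  rcases four_cases (wOf_card h.hK) (wOf_sq h.hK) hw hv hw1 hv1 hvw
    (conj_mem_of_mem_normalizer (h.le_normalizer_wOf ht) hv) with e | e | e | e
  · exact absurd (by rwa [mul_inv_eq_one, mul_eq_left] at e) hv1
  · refine absurd ?_ hvw
    calc v = t⁻¹ * (t * v * t⁻¹) * t := by group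
      _ = t⁻¹ * (t * w * t⁻¹) * t := by rw [e, hwT t ht]
      _ = w := by group
  · exact .inl e
  · exact .inr e

/-- An odd element of `K` normalises `C_T(W_K)`. -/
lemma conj_mem_qs {x q : G} (hx : x ∈ K) (hq : q ∈ qsOf T K) : x * q * x⁻¹ ∈ qsOf T K := by
  have hxW : x ∈ normalizer (wOf K : Set G) := normalizer_le_normalizer_wOf K (le_normalizer hx)
  have hk : (q * x * q⁻¹) * x⁻¹ ∈ K :=
    K.mul_mem (conj_mem_of_mem_normalizer (h.norm hq.1) hx) (K.inv_mem hx)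
  have hfix : ∀ v ∈ wOf K, q * v = v * q := fun v hv => (mem_centralizer_iff.1 hq.2 v hv).symm
  have hkC : (q * x * q⁻¹) * x⁻¹ ∈ centralizer (wOf K : Set G) := by
    refine mem_centralizer_iff.2 fun v hv => ?_
    have hv' := conj_inv_mem_of_mem_normalizer hxW hv
    have e1 := hfix v hv
    have e2 := hfix _ hv'
    calc v * (q * x * q⁻¹ * x⁻¹) = (q * v) * x * q⁻¹ * x⁻¹ := by rw [e1]; group
      _ = q * x * ((x⁻¹ * v * x) * q⁻¹) * x⁻¹ := by group
      _ = q * x * (q⁻¹ * (q * (x⁻¹ * v * x)) * q⁻¹) * x⁻¹ := by group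
      _ = q * x * (q⁻¹ * ((x⁻¹ * v * x) * q) * q⁻¹) * x⁻¹ := by rw [e2]
      _ = q * x * q⁻¹ * x⁻¹ * v := by group
  have hR : (q * x * q⁻¹) * x⁻¹ ∈ pCoreOf 2 K :=
    centralizer_inf_comp h.hK ▸ mem_inf.2 ⟨hk, hkC⟩
  have hR' : ((q * x * q⁻¹) * x⁻¹)⁻¹ ∈ qsOf T K :=
    inv_mem (mem_inf.2 ⟨h.core_le (h.componentCore_le hR), core_centralizes_wOf h.hK hR⟩)
  have := (qsOf T K).mul_mem hR' hq
  simpa [mul_assoc] using this

lemma sup_le_normalizer_qs : K ⊔ T ≤ normalizer (qsOf T K : Set G) :=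
  sup_le (fun _ hx => mem_normalizer_of_forall fun _ hq => h.conj_mem_qs hx hq)
    fun t ht => mem_normalizer_of_forall fun q hq =>
      ⟨T.mul_mem (T.mul_mem ht hq.1) (T.inv_mem ht), by
        refine mem_centralizer_iff.2 fun v hv => ?_
        have hv' := conj_inv_mem_of_mem_normalizer (h.le_normalizer_wOf ht) hv
        calc v * (t * q * t⁻¹) = t * ((t⁻¹ * v * t) * q) * t⁻¹ := by group
          _ = t * (q * (t⁻¹ * v * t)) * t⁻¹ := by rw [mem_centralizer_iff.1 hq.2 _ hv']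
          _ = t * q * t⁻¹ * v := by group⟩

/-- An element of `J(T)` inducing a transvection with centre `w`. -/
lemma exists_mover : ∃ w ∈ wOf K, w ≠ 1 ∧ w ∈ zJ T ∧ ∃ j ∈ T, j ∈ thompsonSubgroupOf 2 T ∧
    j ∉ qsOf T K ∧ ∀ v ∈ omegaCenterOf (pCoreOf 2 L), j * v * j⁻¹ = v ∨ j * v * j⁻¹ = v * w := by
  obtain ⟨w, hw, hw1, hwZ, -, hwT, -, -⟩ := h.exists_w
  have hT := h.toSide.isPGroup
  have hT1 := h.toSide.ne_bot
  obtain ⟨s, u, hsJ, hs, hKs⟩ := exists_comp_eq h.zn hT hT1 h.hLT h.hK h.hKL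
  subst hKs
  obtain ⟨j, hj, hjs⟩ := id hsJ
  have hjJ : (j : G) ∈ thompsonSubgroupOf 2 T := hj
  have hjT : (j : G) ∈ T := thompsonSubgroupOf_le 2 T hjJ
  have hS := liftSetting h.zn hT hT1 h.hLT
  obtain ⟨t, ht, hne, -⟩ := exists_lpartner hS hs
  have heE : s * t ∈ cE L s := subset_closure ⟨s, self_mem_lcl hS hs.1, t, ht, rfl⟩
  have he1 : s * t ≠ 1 := fun e => hne ((eq_inv_of_mul_eq_one_right e).trans (inv_eq_of_sq hs.1))
  obtain ⟨x, hxK, hx3, hxo, hxe⟩ := exists_preimage h.zn hT hT1 h.hLT hs heE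
  have hjq : (j : G) ∉ qsOf T (comp L s) := by
    intro hjq
    have hk : ((j * x * j⁻¹ * x⁻¹ : ↥L) : G) ∈ pCoreOf 2 L := by
      have h1 := h.conj_mem_qs hxK ((qsOf T (comp L s)).inv_mem hjq)
      have h2 : ((j * x * j⁻¹ * x⁻¹ : ↥L) : G) ∈
          comp L s ⊓ centralizer (wOf (comp L s) : Set G) :=
        mem_inf.2 ⟨(comp L s).mul_mem (conj_mem_of_mem_normalizer (h.norm hjT) hxK)
          ((comp L s).inv_mem hxK), by
          have h3 := (centralizer (wOf (comp L s) : Set G)).mul_mem hjq.2 h1.2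
          simpa [mul_assoc] using h3⟩
      rw [centralizer_inf_comp h.hK] at h2
      exact h.componentCore_le h2
    have h4 := mk_eq_one_iff.2 hk
    have hjs' : (QuotientGroup.mk j : ↥L ⧸ pCore 2 ↥L) = s := hjs
    have hxe' : (QuotientGroup.mk x : ↥L ⧸ pCore 2 ↥L) = s * t := hxe
    rw [QuotientGroup.mk_mul, QuotientGroup.mk_mul, QuotientGroup.mk_mul, QuotientGroup.mk_inv,
      QuotientGroup.mk_inv, hjs', hxe', cE_inverted h.zn hT hT1 h.hLT hs heE] at h4
    refine he1 (orderOf_eq_one_of_odd (Odd.of_dvd_nat (n := 3) (by decide)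
      (cE_card h.zn hT hT1 h.hLT hs ▸ Subgroup.orderOf_dvd_natCard (cE L s) heE)) ?_)
    rw [← inv_eq_one, mul_inv_rev]
    exact h4
  have hu := center_mem_wOf h.zn hT hT1 h.hLT hsJ hs
  have hact : ∀ v (hv : v ∈ omegaCenterOf (pCoreOf 2 L)),
      (j : G) * v * (j : G)⁻¹ = v ∨ (j : G) * v * (j : G)⁻¹ = v * u := by
    intro v hv
    have e := smul_coe j (⟨v, hv⟩ : ↥(omegaCenterOf (pCoreOf 2 L)))
    rw [show (QuotientGroup.mk j : ↥L ⧸ pCore 2 ↥L) = s from hjs] at e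
    rcases hs.2.moves ⟨v, hv⟩ with h' | h' <;> rw [h'] at e
    · exact .inl e.symm
    · exact .inr e.symm
  obtain ⟨v, hv, hjv⟩ : ∃ v ∈ wOf (comp L s), (j : G) * v * (j : G)⁻¹ ≠ v := by
    by_contra! hall
    exact hjq (mem_inf.2 ⟨hjT, mem_centralizer_iff.2 fun v hv =>
      (mul_inv_eq_iff_eq_mul.1 (hall v hv)).symm⟩)
  have huw : (u : G) = w := by
    have e1 := (hact v (h.wOf_le_local hv)).resolve_left hjv
    have e2 := (h.eq_or_eq_mul hw hw1 hwT hjT hv).resolve_left hjv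
    exact mul_left_cancel (e1.symm.trans e2)
  exact ⟨w, hw, hw1, hwZ, j, hjT, hjJ, hjq, fun v hv => huw ▸ hact v hv⟩

lemma mul_mem_qs {t t' : G} (ht : t ∈ T) (ht' : t' ∈ T) (hn : t ∉ qsOf T K)
    (hn' : t' ∉ qsOf T K) : t * t' ∈ qsOf T K := by
  obtain ⟨w, hw, hw1, hwZ, hwc, hwT, -, -⟩ := h.exists_w
  refine mem_inf.2 ⟨T.mul_mem ht ht', mem_centralizer_iff.2 fun v hv =>
    (mul_inv_eq_iff_eq_mul.1 ?_).symm⟩
  by_cases hv1 : v = 1
  · rw [hv1]; group
  by_cases hvw : v = w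
  · rw [hvw]; exact hwT _ (T.mul_mem ht ht')
  have key : ∀ s ∈ T, s ∉ qsOf T K → s * v * s⁻¹ = v * w := by
    intro s hs hsn
    refine (h.eq_or_eq_mul hw hw1 hwT hs hv).resolve_left fun e => hsn ?_
    exact mem_inf.2 ⟨hs, mem_centralizer_iff.2 fun y hy => (mul_inv_eq_iff_eq_mul.1
      (four_neighbours e (hwT s hs)
        (four_cases (wOf_card h.hK) (wOf_sq h.hK) hw hv hw1 hv1 hvw hy))).symm⟩
  calc t * t' * v * (t * t')⁻¹ = t * (t' * v * t'⁻¹) * t⁻¹ := by group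
    _ = (t * v * t⁻¹) * (t * w * t⁻¹) := by rw [key t' ht' hn']; group
    _ = v := by rw [key t ht hn, hwT t ht, mul_assoc, wOf_sq h.hK w hw, mul_one]

lemma card_T_le : Nat.card T ≤ 2 * Nat.card (qsOf T K) :=
  card_le_two_mul inf_le_left fun _ ht _ ht' hn hn' => h.mul_mem_qs ht ht' hn hn'

lemma zJ_le_qs : zJ T ≤ qsOf T K :=
  le_inf h.zJ_le (le_centralizer_iff.1 ((h.wOf_le).trans h.central))

lemma coreLocal_le_qs : pCoreOf 2 L ≤ qsOf T K :=
  le_inf h.core_le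
    (le_centralizer_iff.1 (h.wOf_le_local.trans (omegaCenterOf_le_centralizer _)))

lemma centralizer_qs_le : centralizer (qsOf T K : Set G) ≤ qsOf T K :=
  ((Subgroup.centralizer_le h.coreLocal_le_qs).trans h.hLT.2.2).trans h.coreLocal_le_qs

lemma mem_cOf_of_fixed {x z : G} (hx : x ∈ K) (hxR : x ∉ pCoreOf 2 K) (hz : z ∈ zJ T)
    (hxz : x * z = z * x) : z ∈ cOf T K := by
  refine mem_inf.2 ⟨hz, ?_⟩
  have hle : K ≤ centralizer ({z} : Set G) := by
    rw [← comp_sup_eq h.hK hx hxR]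
    refine sup_le (fun r hr => mem_centralizer_singleton_iff.2 ?_)
      (zpowers_le.2 (mem_centralizer_singleton_iff.2 hxz))
    exact (mem_centralizer_iff.1 (h.central (h.core_le (h.componentCore_le hr))) z hz).symm
  exact mem_centralizer_iff.2 fun g hg => mem_centralizer_singleton_iff.1 (hle hg)

lemma omega_qs_le_local : omegaCenterOf (qsOf T K) ≤ omegaCenterOf (pCoreOf 2 L) := by
  intro z hz
  have hc : z ∈ centralizer (pCoreOf 2 L : Set G) :=
    Subgroup.centralizer_le h.coreLocal_le_qs (omegaCenterOf_le_centralizer _ hz)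
  exact mem_omegaOne ⟨h.hLT.2.2 hc, hc⟩ ((isElementaryAbelian_omegaCenterOf _).2 z hz)

lemma wOf_le_omega_qs : wOf K ≤ omegaCenterOf (qsOf T K) := fun v hv =>
  mem_omegaOne ⟨mem_inf.2 ⟨h.wOf_le hv, mem_centralizer_iff.2 fun y hy =>
    commute_of_mem (wOf_elem h.hK) hy hv⟩,
    mem_centralizer_iff.2 fun q hq => (mem_centralizer_iff.1 (mem_inf.1 hq).2 v hv).symm⟩
    (by rw [pow_two]; exact wOf_sq h.hK v hv)

lemma zJ_le_omega_qs : zJ T ≤ omegaCenterOf (qsOf T K) := fun v hv =>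
  mem_omegaOne ⟨h.zJ_le_qs hv, mem_centralizer_iff.2 fun q hq =>
    (mem_centralizer_iff.1 (h.central (mem_inf.1 hq).1) v hv).symm⟩
    ((isElementaryAbelian_omegaCenterOf _).2 v hv)

/-- `Ω₁(Z(C_T(W_K))) = W_K C_{Ω₁(Z(J))}(K)`. -/
theorem omega_qs_eq : omegaCenterOf (qsOf T K) = wOf K ⊔ cOf T K := by
  refine le_antisymm ?_ (sup_le h.wOf_le_omega_qs (inf_le_left.trans h.zJ_le_omega_qs))
  intro v hv
  obtain ⟨x, hx, hxR, hxo⟩ := comp_exists_odd h.hK
  have hx3 := comp_pow_three h.hK hx hxo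
  set V := omegaCenterOf (qsOf T K) with hV
  have hxQ : x ∈ normalizer (qsOf T K : Set G) := h.sup_le_normalizer_qs (mem_sup_left hx)
  have hxV : x ∈ normalizer (V : Set G) := normalizer_le_normalizer_omegaCenterOf _ hxQ
  set v₁ := x * v * x⁻¹ with hv₁
  set v₂ := x * v₁ * x⁻¹ with hv₂
  have hv₁V : v₁ ∈ V := conj_mem_of_mem_normalizer hxV hv
  have hv₂V : v₂ ∈ V := conj_mem_of_mem_normalizer hxV hv₁V
  have hVe := isElementaryAbelian_omegaCenterOf (qsOf T K)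
  have hcy : x * v₂ * x⁻¹ = v := by
    calc x * v₂ * x⁻¹ = (x * x * x) * v * (x * x * x)⁻¹ := by rw [hv₂, hv₁]; group
      _ = v := by rw [hx3]; group
  set u := v * v₁ * v₂ with hu
  have huV : u ∈ V := mul_mem (mul_mem hv hv₁V) hv₂V
  have hux : x * u * x⁻¹ = u := by
    calc x * u * x⁻¹ = (x * v * x⁻¹) * (x * v₁ * x⁻¹) * (x * v₂ * x⁻¹) := by rw [hu]; group
      _ = v₁ * v₂ * v := by rw [hcy, ← hv₁, ← hv₂]
      _ = v * (v₁ * v₂) := commute_of_mem hVe (mul_mem hv₁V hv₂V) hv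
      _ = u := by rw [hu, ← mul_assoc v v₁ v₂]
  have huC : u ∈ cOf T K := by
    obtain ⟨w, hw, hw1, hwZ, j, hjT, -, hjn, hjact⟩ := h.exists_mover
    have hju : j * u * j⁻¹ = u := by
      refine (hjact u (h.omega_qs_le_local huV)).resolve_right fun e => ?_
      -- `j` inverts `x` modulo `C_T(W)`, so `j u j⁻¹` is fixed by `x`
      have hxj : x * (j * u * j⁻¹) * x⁻¹ = j * u * j⁻¹ := by
        have hk : j⁻¹ * x * j ∈ K := conj_inv_mem_of_mem_normalizer (h.norm hjT) hx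
        rw [← comp_sup_eq h.hK hx hxR] at hk
        have hfix : pCoreOf 2 K ⊔ zpowers x ≤ centralizer ({u} : Set G) := by
          refine sup_le (fun r hr => mem_centralizer_singleton_iff.2 ?_)
            (zpowers_le.2 (mem_centralizer_singleton_iff.2 (mul_inv_eq_iff_eq_mul.1 hux)))
          exact omegaCenterOf_le_centralizer _ huV r (h.coreLocal_le_qs (h.componentCore_le hr))
        have := mem_centralizer_singleton_iff.1 (hfix hk)
        calc x * (j * u * j⁻¹) * x⁻¹ = j * ((j⁻¹ * x * j) * u) * j⁻¹ * x⁻¹ := by group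
          _ = j * (u * (j⁻¹ * x * j)) * j⁻¹ * x⁻¹ := by rw [this]
          _ = j * u * j⁻¹ := by group
      rw [e] at hxj
      refine hw1 (wOf_fpf h.hK hx hxR hxo hw (mul_inv_eq_iff_eq_mul.1 ?_))
      calc x * w * x⁻¹ = (x * u * x⁻¹)⁻¹ * (x * (u * w) * x⁻¹) := by group
        _ = w := by rw [hux, hxj, inv_mul_cancel_left]
    have huT : u ∈ omegaCenterOf T := by
      refine mem_omegaOne ⟨(mem_inf.1 (omegaCenterOf_le _ huV)).1,
        mem_centralizer_iff.2 fun t ht => ?_⟩ (hVe.2 u huV)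
      by_cases htq : t ∈ qsOf T K
      · exact omegaCenterOf_le_centralizer _ huV t htq
      · have h1 := omegaCenterOf_le_centralizer _ huV _ (h.mul_mem_qs hjT ht hjn htq)
        have h2 : Commute (j⁻¹ * (j * t)) u :=
          ((show Commute j u from mul_inv_eq_iff_eq_mul.1 hju).inv_left).mul_left h1
        simpa using h2.eq
    rw [h.omega_eq] at huT
    exact h.mem_cOf_of_fixed hx hxR huT (mul_inv_eq_iff_eq_mul.1 hux)
  -- `v u` lies in `W`
  have hc : ∀ y ∈ omegaCenterOf (pCoreOf 2 L),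
      x * y * x⁻¹ * y⁻¹ ∈ omegaCenterOf (pCoreOf 2 K) := by
    intro y hy
    have hQn := core_le_normalizer_component h.zn h.toSide.isPGroup h.toSide.ne_bot h.hLT h.hK h.hKL
    have hxn : x ∈ normalizer (omegaCenterOf (pCoreOf 2 L) : Set G) :=
      le_normalizer_omega L (h.hKL hx)
    set d := x * y * x⁻¹ * y⁻¹ with hd
    have hdV : d ∈ omegaCenterOf (pCoreOf 2 L) :=
      mul_mem (conj_mem_of_mem_normalizer hxn hy) (inv_mem hy)
    have hdK : d ∈ K := by
      rw [hd, show x * y * x⁻¹ * y⁻¹ = x * (y * x⁻¹ * y⁻¹) by group]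
      exact K.mul_mem hx (conj_mem_of_mem_normalizer (hQn (omegaCenterOf_le _ hy)) (K.inv_mem hx))
    have hdR : d ∈ pCoreOf 2 K := by
      rw [← centralizer_inf_comp h.hK]
      exact mem_inf.2 ⟨hdK, mem_centralizer_iff.2 fun y' hy' =>
        commute_of_mem (isElementaryAbelian_omegaCenterOf _) (h.wOf_le_local hy') hdV⟩
    exact mem_omegaOne ⟨hdR, mem_centralizer_iff.2 fun r hr =>
      omegaCenterOf_le_centralizer _ hdV r (h.componentCore_le hr)⟩
      ((isElementaryAbelian_omegaCenterOf _).2 d hdV)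
  have hcW : ∀ d ∈ omegaCenterOf (pCoreOf 2 K), d * (x * d * x⁻¹) ∈ wOf K := by
    intro d hd
    have h' := commutator_mem_commutator hd hx
    rw [commutatorElement_def, inv_eq_self_of_mem (isElementaryAbelian_omegaCenterOf _) hd] at h'
    rw [show d * (x * d * x⁻¹) = d * x * d * x⁻¹ by group]
    exact h'
  have hvu : v₁ * v₂ ∈ wOf K := by
    have hd₂ := hc v₂ (h.omega_qs_le_local hv₂V)
    have hd := hcW _ hd₂
    rw [hcy, inv_eq_self_of_mem hVe hv₂V] at hd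
    have e : x * (v * v₂) * x⁻¹ = v₁ * v := by
      calc x * (v * v₂) * x⁻¹ = (x * v * x⁻¹) * (x * v₂ * x⁻¹) := by group
        _ = v₁ * v := by rw [hcy, ← hv₁]
    rw [e] at hd
    convert hd using 1
    calc v₁ * v₂ = v₁ * v₂ * (v * v) := by rw [mul_self_of_mem hVe hv, mul_one]
      _ = v * v₂ * (v₁ * v) := by
        rw [commute_of_mem hVe hv hv₂V, mul_assoc v₂ v, ← mul_assoc v v₁,
          commute_of_mem hVe hv hv₁V, commute_of_mem hVe hv₁V hv₂V]
        group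
  have e : v = v₁ * v₂ * u := by
    rw [hu, mul_assoc v v₁ v₂, ← mul_assoc (v₁ * v₂) v, commute_of_mem hVe (mul_mem hv₁V hv₂V) hv,
      mul_assoc, mul_self_of_mem hVe (mul_mem hv₁V hv₂V), mul_one]
  rw [e]
  exact mul_mem_sup hvu huC

theorem qs_eq : qsOf T K = T ⊓ centralizer (omegaCenterOf (qsOf T K) : Set G) :=
  le_antisymm (le_inf inf_le_left (le_centralizer_iff.1 (omegaCenterOf_le_centralizer _)))
    (inf_le_inf_left _ (Subgroup.centralizer_le h.wOf_le_omega_qs))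

lemma exists_decomp {g : G} (hg : g ∈ K ⊔ T) {x : G} (hx : x ∈ K) (hxR : x ∉ pCoreOf 2 K) :
    ∃ y ∈ zpowers x, ∃ t ∈ T, g = y * t := by
  rw [sup_comm, mem_sup_iff_of_le_normalizer h.norm] at hg
  obtain ⟨t, ht, k, hk, rfl⟩ := hg
  have hk' : t * k * t⁻¹ ∈ K := conj_mem_of_mem_normalizer (h.norm ht) hk
  rw [← comp_sup_eq h.hK hx hxR, sup_comm, mem_sup_iff_of_le_normalizer
    (zpowers_le.2 (CfsgLib.FFModules.le_normalizer_pCoreOf K hx))] at hk'
  obtain ⟨y, hy, r, hr, e⟩ := hk'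
  refine ⟨y, hy, r * t, T.mul_mem (h.core_le (h.componentCore_le hr)) ht, ?_⟩
  rw [← mul_assoc, e]; group

lemma card_sup : Nat.card ↥(K ⊔ T) = 3 * Nat.card T := by
  obtain ⟨x, hx, hxR, hxo⟩ := comp_exists_odd h.hK
  have hR : T ⊓ K = pCoreOf 2 K := by
    refine le_antisymm ?_ (le_inf (h.componentCore_le.trans h.core_le)
      (CfsgLib.FFModules.pCoreOf_le K))
    exact CfsgLib.FFModules.le_pCoreOf inf_le_right (fun k hk => mem_normalizer_of_forall fun y hy =>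
      mem_inf.2 ⟨by
        have hyK := (mem_inf.1 hy).2
        by_contra hn
        have h' : y ∉ pCoreOf 2 K := fun hyR => hn (h.core_le (h.componentCore_le
          (conj_mem_of_mem_normalizer (CfsgLib.FFModules.le_normalizer_pCoreOf K hk) hyR)))
        have h3 := relIndex_dvd_of_le_left K (show pCoreOf 2 K ≤ pCoreOf 2 K ⊔ zpowers y from
          le_sup_left)
        have hsup := comp_sup_eq h.hK hyK h'
        have hyo : ∀ i, orderOf y ∣ 2 ^ i → False := by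
          intro i hi
          haveI : ((pCoreOf 2 K).subgroupOf K).Normal :=
            (normal_subgroupOf_iff_le_normalizer (CfsgLib.FFModules.pCoreOf_le K)).2
              (CfsgLib.FFModules.le_normalizer_pCoreOf K)
          have h3' : y ^ 3 ∈ pCoreOf 2 K := by
            have h'' := pow_index_mem ((pCoreOf 2 K).subgroupOf K) (⟨y, hyK⟩ : ↥K)
            rw [← relIndex, h.hK.2.2.1] at h''
            exact h''
          obtain ⟨m, hm⟩ := exists_pow_eq_self_of_coprime (x := y) (n := 3)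
            (Nat.Coprime.coprime_dvd_right hi (Nat.Coprime.pow_right i (by norm_num)))
          exact h' (hm ▸ pow_mem h3' m)
        obtain ⟨i, hi⟩ := dvd_two_pow_of_mem h.toSide.isPGroup (mem_inf.1 hy).1
        exact hyo i hi,
        K.mul_mem (K.mul_mem hk (mem_inf.1 hy).2) (K.inv_mem hk)⟩)
      (h.toSide.isPGroup.to_le inf_le_left)
  have h1 := card_sup_mul_inf h.norm
  rw [hR, ← card_mul_relIndex' (CfsgLib.FFModules.pCoreOf_le K), h.hK.2.2.1, sup_comm] at h1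
  exact Nat.eq_of_mul_eq_mul_right (Nat.card_pos (α := ↥(pCoreOf 2 K))) (h1.trans (by ring))

lemma isSylowTwoIn_sup : IsSylowTwoIn T (K ⊔ T) :=
  ⟨le_sup_right, h.toSide.isPGroup, Odd.of_dvd_nat h.hLT.1.2.2
    (Dvd.intro _ (relIndex_mul_relIndex T (K ⊔ T) L le_sup_right (sup_le h.hKL h.hLT.1.1)))⟩

lemma card_qs : Nat.card T = 2 * Nat.card (qsOf T K) := by
  refine le_antisymm h.card_T_le ?_
  obtain ⟨w, -, -, -, j, hjT, -, hjn, -⟩ := h.exists_mover
  have hlt : qsOf T K < T := lt_of_le_of_ne inf_le_left fun e => hjn (e.symm ▸ hjT)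
  have h2 : 2 ≤ (qsOf T K).relIndex T := by
    by_contra! hlt2
    have : (qsOf T K).relIndex T ≠ 0 := fun e => by
      have h0 := card_mul_relIndex' hlt.le
      rw [e, mul_zero] at h0
      exact Nat.card_pos.ne' h0.symm
    exact hlt.not_ge (relIndex_eq_one.1 (by omega))
  rw [← card_mul_relIndex' hlt.le, mul_comm 2]
  exact Nat.mul_le_mul_left _ h2

/-- `O₂(K T) = C_T(W_K)`. -/
theorem pCoreOf_sup : pCoreOf 2 (K ⊔ T) = qsOf T K := by
  refine le_antisymm ?_ (CfsgLib.FFModules.le_pCoreOf (inf_le_left.trans le_sup_right)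
    h.sup_le_normalizer_qs (h.toSide.isPGroup.to_le inf_le_left))
  have hOT : pCoreOf 2 (K ⊔ T) ≤ T := core_le_sylow h.isSylowTwoIn_sup
  obtain ⟨w, hw, hw1, hwZ, -, hwT, -, -⟩ := h.exists_w
  obtain ⟨x, hx, hxR, hxo⟩ := comp_exists_odd h.hK
  have hxW : x ∈ normalizer (wOf K : Set G) := normalizer_le_normalizer_wOf K (le_normalizer hx)
  intro c hc
  refine mem_inf.2 ⟨hOT hc, mem_centralizer_iff.2 fun v hv =>
    (mul_inv_eq_iff_eq_mul.1 ?_).symm⟩
  have hc' := hOT (conj_inv_mem_of_mem_normalizer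
    (CfsgLib.FFModules.le_normalizer_pCoreOf (p := 2) (K ⊔ T) (mem_sup_left hx)) hc)
  have h1 : c * (x * w * x⁻¹) * c⁻¹ = x * w * x⁻¹ := by
    calc c * (x * w * x⁻¹) * c⁻¹ = x * ((x⁻¹ * c * x) * w * (x⁻¹ * c * x)⁻¹) * x⁻¹ := by group
      _ = x * w * x⁻¹ := by rw [hwT _ hc']
  refine four_neighbours h1 (hwT c (hOT hc)) (four_cases (wOf_card h.hK) (wOf_sq h.hK) hw
    (conj_mem_of_mem_normalizer hxW hw) hw1 ?_ ?_ hv)
  · exact fun e => hw1 (by rwa [mul_inv_eq_one, mul_eq_left] at e)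
  · exact fun e => hw1 (wOf_fpf h.hK hx hxR hxo hw (mul_inv_eq_iff_eq_mul.1 e))

lemma relIndex_qs : (qsOf T K).relIndex (K ⊔ T) = 6 := by
  have h1 := card_mul_relIndex' (inf_le_left.trans le_sup_right : qsOf T K ≤ K ⊔ T)
  rw [h.card_sup, h.card_qs] at h1
  exact Nat.eq_of_mul_eq_mul_left (Nat.card_pos (α := ↥(qsOf T K))) (h1.trans (by ring))

lemma commutator_not_le : ¬ ⁅K ⊔ T, K ⊔ T⁆ ≤ qsOf T K := by
  intro hle
  obtain ⟨x, hx, hxR, hxo⟩ := comp_exists_odd h.hK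
  have hK' : K ≤ qsOf T K := by
    conv_lhs => rw [← h.hK.2.1]
    exact (commutator_mono le_sup_left ((thompsonSubgroupOf_le 2 T).trans le_sup_right)).trans hle
  exact hxR (centralizer_inf_comp h.hK ▸ mem_inf.2 ⟨hx, (mem_inf.1 (hK' hx)).2⟩)

lemma omega_commutator_ne_bot : ⁅omegaCenterOf T, K ⊔ T⁆ ≠ ⊥ := by
  intro e
  obtain ⟨w, hw, hw1, hwZ, hwc, -, -, -⟩ := h.exists_w
  obtain ⟨x, hx, hxR, hxo⟩ := comp_exists_odd h.hK
  have h' := commutator_mem_commutator (show w ∈ omegaCenterOf T by rw [h.omega_eq]; exact hwZ)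
    (mem_sup_left (T := T) hx)
  rw [e, mem_bot, commutatorElement_eq_one_iff_mul_comm] at h'
  exact hwc (h.mem_cOf_of_fixed hx hxR hwZ h'.symm)

end FSide

end CfsgLib.JComponents
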