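import Cfsg.Agent.Lib.JComponents.Zero

/-!
The maximal straddling 2-subgroups of a 2-local subgroup `M` containing `N_G(J(S))`.
-/

set_option autoImplicit false

open scoped IsMulCommutative

namespace CfsgLib.JComponents

open Cfsg CfsgLib.ThompsonJ Subgroup

variable {G : Type*} [Group G]

/-- The standing hypotheses on `M` and `T`. -/
structure Ctx [Finite G] (M T : Subgroup G) : Prop where
  zn : ZN G
  norm : ∃ S : Sylow 2 G, normalizer (thompsonSubgroupOf 2 (S : Subgroup G) : Set G) ≤ M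
  max : T ∈ maxStraddlingTwoSubgroups M

lemma maxElemAbelianOrder_eq [Finite G] {T A : Subgroup G} (hA : IsMaxEA 2 T A) :
    maxElemAbelianOrder T = Nat.card A := by
  have h : ((fun B : Subgroup ↥T => Nat.card ↥B) '' maxElementaryAbelianSubgroups 2 ↥T) =
      {Nat.card A} := by
    ext n
    constructor
    · rintro ⟨B, hB, rfl⟩
      have hB' := mem_max_subgroup_iff.1 hB
      have h1 := hA.card_le _ hB'.le hB'.elem
      have h2 := hB'.card_le _ hA.le hA.elem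
      show Nat.card ↥B = Nat.card A
      rw [← card_map_of_injective (K := B) T.subtype_injective]
      omega
    · rintro rfl
      refine ⟨A.subgroupOf T, ?_, Nat.card_congr (subgroupOfEquivOfLe hA.le).toEquiv⟩
      rw [mem_max_subgroup_iff, map_subgroupOf_eq_of_le hA.le]
      exact hA
  rw [maxElemAbelianOrder, h, csSup_singleton]

/-- A proper subgroup of a 2-group is properly normalised. -/
lemma exists_mem_normalizer_not_mem [Finite G] {U P : Subgroup G} (hP : IsPGroup 2 P) (hUP : U < P) :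
    ∃ g ∈ P, g ∉ U ∧ g ∈ normalizer (U : Set G) := by
  haveI : Fact (Nat.Prime 2) := ⟨Nat.prime_two⟩
  haveI := hP.isNilpotent
  have hlt : U.subgroupOf P < ⊤ :=
    lt_top_iff_ne_top.2 fun h => hUP.not_ge (subgroupOf_eq_top.1 h)
  obtain ⟨⟨g, hg⟩, hgn, hgU⟩ :=
    SetLike.exists_of_lt (normalizerCondition_of_isNilpotent _ hlt)
  refine ⟨g, hg, hgU, mem_normalizer_of_forall fun u hu => ?_⟩
  exact (mem_normalizer_iff.1 hgn ⟨u, hUP.le hu⟩).1 hu

lemma exists_isMaximalTwoLocal_ge [Finite G] {N : Subgroup G} (hN : IsTwoLocal N) :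
    ∃ L, IsMaximalTwoLocal L ∧ N ≤ L := by
  classical
  haveI := Fintype.ofFinite (Subgroup G)
  obtain ⟨L, hL, hmax⟩ := Finset.exists_max_image
    (Finset.univ.filter fun L : Subgroup G => IsTwoLocal L ∧ N ≤ L) (fun L => Nat.card L)
    ⟨N, by simp [hN]⟩
  simp only [Finset.mem_filter, Finset.mem_univ, true_and] at hL hmax
  exact ⟨L, ⟨hL.1, fun X hX hLX =>
    (eq_of_le_of_card_ge hLX (hmax X ⟨hX, hL.2.trans hLX⟩)).symm⟩, hL.2⟩

lemma isTwoLocal_ge_of_core_ne_bot [Finite G] {H : Subgroup G} (h : pCoreOf 2 H ≠ ⊥) :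
    IsTwoLocal (normalizer (pCoreOf 2 H : Set G)) ∧ H ≤ normalizer (pCoreOf 2 H : Set G) :=
  ⟨⟨_, CfsgLib.FFModules.isPGroup_pCoreOf H, h, rfl⟩, CfsgLib.FFModules.le_normalizer_pCoreOf H⟩

namespace Ctx

variable [Finite G] {M T : Subgroup G} (h : Ctx M T)
include h

lemma isPGroup : IsPGroup 2 T := h.max.1.1

lemma ne_bot : T ≠ ⊥ := h.max.1.2.1

lemma le : T ≤ M := h.max.1.2.2.1

lemma thompson_ne_bot : thompsonSubgroupOf 2 T ≠ ⊥ := by
  haveI : Fact (Nat.Prime 2) := ⟨Nat.prime_two⟩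
  refine thompsonSubgroupOf_ne_bot ?_
  obtain ⟨k, hk⟩ := IsPGroup.iff_card.1 h.isPGroup
  rcases k with - | k
  · exact absurd (card_eq_one.1 (by simpa using hk)) h.ne_bot
  · exact hk ▸ dvd_pow_self 2 (by omega)

/-- A straddling subgroup containing `J(T)` has the same Thompson subgroup and is not larger. -/
lemma straddling_max {R : Subgroup G} (hR : R ∈ straddlingTwoSubgroups M)
    (hJ : thompsonSubgroupOf 2 T ≤ R) :
    thompsonSubgroupOf 2 R = thompsonSubgroupOf 2 T ∧ Nat.card R ≤ Nat.card T := by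
  obtain ⟨A, hA⟩ := exists_isMaxEA 2 T
  obtain ⟨B, hB⟩ := exists_isMaxEA 2 R
  obtain ⟨h1, h2⟩ := h.max.2 R hR
  rw [maxElemAbelianOrder_eq hA, maxElemAbelianOrder_eq hB] at h1 h2
  have hAR : A ≤ R := (le_thompsonSubgroupOf hA).trans hJ
  obtain ⟨h3, h4⟩ := h2 (le_antisymm h1 (hB.card_le A hAR hA.elem))
  have hle : thompsonSubgroupOf 2 T ≤ thompsonSubgroupOf 2 R :=
    thompsonSubgroupOf_le_iff.2 fun C hC => le_thompsonSubgroupOf
      ⟨(le_thompsonSubgroupOf hC).trans hJ, hC.elem, fun D hD hDe => by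
        have e1 := hC.card_le A hA.le hA.elem
        have e2 := hB.card_le D hD hDe
        omega⟩
  have heq := eq_of_le_of_card_ge hle h3
  exact ⟨heq.symm, h4 (by rw [← heq])⟩

lemma eq_of_straddling_ge {R : Subgroup G} (hR : R ∈ straddlingTwoSubgroups M) (hTR : T ≤ R) :
    R = T :=
  (eq_of_le_of_card_ge hTR
    (h.straddling_max hR ((thompsonSubgroupOf_le 2 T).trans hTR)).2).symm

/-- `N_G(J(T)) ≤ M`. -/
theorem normalizer_thompson_le : normalizer (thompsonSubgroupOf 2 T : Set G) ≤ M := by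
  by_contra hNM
  set N := normalizer (thompsonSubgroupOf 2 T : Set G) with hN
  have hN2 : IsTwoLocal N :=
    ⟨_, h.isPGroup.to_le (thompsonSubgroupOf_le 2 T), h.thompson_ne_bot, rfl⟩
  have hTN : T ≤ N := le_normalizer.trans (normalizer_le_normalizer_thompsonSubgroupOf 2 T)
  obtain ⟨S, hSM⟩ := h.norm
  have hSM' : (S : Subgroup G) ≤ M :=
    (le_normalizer.trans (normalizer_le_normalizer_thompsonSubgroupOf 2 _)).trans hSM
  obtain ⟨P, hP, hTP⟩ := exists_isSylowTwoIn_ge h.le h.isPGroup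
  have hTeq : T = P := by
    by_contra hne
    obtain ⟨g, hgP, hgT, hgn⟩ := exists_mem_normalizer_not_mem hP.2.1 (lt_of_le_of_ne hTP hne)
    have hgN : g ∈ N := normalizer_le_normalizer_thompsonSubgroupOf 2 T hgn
    have hU : IsPGroup 2 ↥(T ⊔ zpowers g) :=
      hP.2.1.to_le (sup_le hTP (zpowers_le.2 hgP))
    have hR : T ⊔ zpowers g ∈ straddlingTwoSubgroups M :=
      ⟨hU, fun h0 => h.ne_bot (le_bot_iff.1 (h0 ▸ le_sup_left)),
        sup_le h.le (zpowers_le.2 (hP.1 hgP)), N, hN2, sup_le hTN (zpowers_le.2 hgN), hNM⟩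
    exact hgT ((h.eq_of_straddling_ge hR le_sup_left).le (mem_sup_right (mem_zpowers g)))
  have hS' : IsSylowTwoIn (S : Subgroup G) M := by
    refine ⟨hSM', S.2, ?_⟩
    refine Odd.of_dvd_nat ?_ (relIndex_dvd_index_of_le hSM')
    haveI : Fact (Nat.Prime 2) := ⟨Nat.prime_two⟩
    exact Nat.not_even_iff_odd.1 fun he => Sylow.not_dvd_index S he.two_dvd
  obtain ⟨x, hx, hxe⟩ := exists_conj_eq hS' (hTeq ▸ hP)
  refine hNM fun g hg => ?_
  have hgS : x * g * x⁻¹ ∈
      normalizer (thompsonSubgroupOf 2 (S : Subgroup G) : Set G) := by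
    rw [← hxe, thompsonSubgroupOf_conj]
    exact mem_normalizer_of_forall fun y hy => by
      obtain ⟨y', hy', rfl⟩ := hy
      refine ⟨g * y' * g⁻¹, conj_mem_of_mem_normalizer hg hy', ?_⟩
      simp [mul_assoc]
  have := M.mul_mem (M.mul_mem (M.inv_mem hx) (hSM hgS)) hx
  simpa [mul_assoc] using this

/-- A 2-local subgroup outside `M` containing `J(T)`. -/
theorem sylow_of_local {L T₀ : Subgroup G} (hL2 : IsTwoLocal L) (hLM : ¬ L ≤ M)
    (hT₀ : IsSylowTwoIn T₀ L) (hJT₀ : thompsonSubgroupOf 2 T ≤ T₀) :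
    thompsonSubgroupOf 2 T = thompsonSubgroupOf 2 T₀ ∧ T₀ ∈ straddlingTwoSubgroups M ∧
      L ∈ jOvergroups T₀ := by
  set J := thompsonSubgroupOf 2 T with hJ
  have hJ1 := h.thompson_ne_bot
  have hJM : J ≤ M := (thompsonSubgroupOf_le 2 T).trans h.le
  have hT1 : T₀ ⊓ M ∈ straddlingTwoSubgroups M :=
    ⟨hT₀.2.1.to_le inf_le_left, fun h0 => hJ1 (le_bot_iff.1 (h0 ▸ le_inf hJT₀ hJM)), inf_le_right,
      L, hL2, inf_le_left.trans hT₀.1, hLM⟩
  obtain ⟨h1, -⟩ := h.straddling_max hT1 (le_inf hJT₀ hJM)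
  have hT₀M : T₀ ≤ M := by
    by_contra hno
    obtain ⟨g, hg, hgn, hgN⟩ := exists_mem_normalizer_not_mem hT₀.2.1
      (inf_le_left.lt_of_ne fun e => hno (e.ge.trans inf_le_right))
    refine hgn ⟨hg, h.normalizer_thompson_le ?_⟩
    rw [← h1]
    exact normalizer_le_normalizer_thompsonSubgroupOf 2 _ hgN
  rw [inf_eq_left.2 hT₀M] at hT1 h1
  refine ⟨h1.symm, hT1, hT₀, ?_, centralizer_core_le_of_twoLocal h.zn.char2 hL2⟩
  intro hJQ
  rw [h1] at hJQ
  refine hLM (le_trans ?_ h.normalizer_thompson_le)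
  have hQT : pCoreOf 2 L ≤ T₀ := core_le_sylow hT₀
  have e : thompsonSubgroupOf 2 (pCoreOf 2 L) = thompsonSubgroupOf 2 T := by
    rw [← h1]
    exact thompsonSubgroupOf_eq_of_le hQT (h1.le.trans hJQ)
  rw [← e]
  exact (CfsgLib.FFModules.le_normalizer_pCoreOf L).trans
    (normalizer_le_normalizer_thompsonSubgroupOf 2 _)

theorem local_of_le {L : Subgroup G} (hL2 : IsTwoLocal L) (hLM : ¬ L ≤ M) (hTL : T ≤ L) :
    L ∈ jOvergroups T ∧ ∃ K, IsJComponent T K ∧ K ≤ L := by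
  obtain ⟨T₀, hT₀, hTT₀⟩ := exists_isSylowTwoIn_ge hTL h.isPGroup
  obtain ⟨-, hstr, hLT₀⟩ := h.sylow_of_local hL2 hLM hT₀ ((thompsonSubgroupOf_le 2 T).trans hTT₀)
  rw [h.eq_of_straddling_ge hstr hTT₀] at hLT₀
  exact ⟨hLT₀, exists_component h.zn h.isPGroup h.ne_bot hLT₀⟩

end Ctx

/-! ### Generation of a local subgroup -/

section

variable [Finite G] {T L : Subgroup G} (hZN : ZN G) (hT : IsPGroup 2 T) (hT1 : T ≠ ⊥)
  (hL : L ∈ jOvergroups T)
include hZN hT hT1 hL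

/-- `L` is generated by `N_L(J(T))`, `J(T)`, `O₂(L)` and the components. -/
theorem le_of_components {X : Subgroup G} (hN : L ⊓ normalizer (thompsonSubgroupOf 2 T : Set G) ≤ X)
    (hQ : pCoreOf 2 L ≤ X) (hK : ∀ K, IsJComponent T K → K ≤ L → K ≤ X) : L ≤ X := by
  have hS := liftSetting hZN hT hT1 hL
  set q := QuotientGroup.mk' (pCore 2 ↥L) with hq
  set J := thompsonSubgroupOf 2 T with hJ
  have hJL : J ≤ L := thompson_le_local hT hL
  have hJX : J ≤ X := fun g hg => hN ⟨hJL hg, le_normalizer hg⟩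
  set N := closure {c | ∃ w : ↥(omegaCenterOf (pCoreOf 2 L)), LTV (proj L) c w} with hNdef
  set D := closure ({s | s ∈ jImage T L ∧
      ∃ w : ↥(omegaCenterOf (pCoreOf 2 L)), LTV (proj L) s w} ∪
    {e | ∃ s, (s ∈ jImage T L ∧ ∃ w : ↥(omegaCenterOf (pCoreOf 2 L)), LTV (proj L) s w) ∧
      e ∈ cE L s}) with hD
  have hJD : jImage T L ≤ D :=
    (thompson_generated hZN hT hT1 hL).trans (closure_mono Set.subset_union_left)
  -- `D` lies in the image of `X`
  have hDX : ∀ g : ↥L, q g ∈ D → (g : G) ∈ X := by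
    intro g hg
    have hle : D ≤ (X.subgroupOf L).map q := by
      refine (closure_le _).2 ?_
      rintro d (⟨⟨j, hj, rfl⟩, -⟩ | ⟨s, ⟨hsJ, w, hs⟩, hd⟩)
      · exact ⟨j, hJX hj, rfl⟩
      · obtain ⟨x, hx, -, -, hxe⟩ := exists_preimage hZN hT hT1 hL hs hd
        exact ⟨x, hK _ (isJComponent_comp hZN hT hT1 hL hsJ hs).1 (comp_le L s) hx, hxe⟩
    obtain ⟨y, hy, e⟩ := hle hg
    have hyg : ((y⁻¹ * g : ↥L) : G) ∈ pCoreOf 2 L := mk_eq_one_iff.1 (by
      rw [QuotientGroup.mk_mul, QuotientGroup.mk_inv]; exact inv_mul_eq_one.2 e)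
    have := X.mul_mem hy (hQ hyg)
    simpa using this
  -- `N` normalises `D`
  have hND : N ≤ normalizer (D : Set _) := by
    refine (closure_le _).2 ?_
    rintro c ⟨z, hc⟩
    refine mem_normalizer_of_forall fun d hd => ?_
    induction hd using closure_induction with
    | mem d hd =>
      rcases hd with ⟨hsJ, w, hs⟩ | ⟨s, hs', hd⟩
      · have h1 := conj_mem_lcl hS hs hc (self_mem_lcl hS hs.1)
        have h2 : d * (c * d * c⁻¹) ∈ cE L d :=
          subset_closure ⟨d, self_mem_lcl hS hs.1, _, h1, rfl⟩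
        have h3 := D.mul_mem (subset_closure (Set.mem_union_left _ ⟨hsJ, w, hs⟩) : d ∈ D)
          (subset_closure (Set.mem_union_right _ ⟨d, ⟨hsJ, w, hs⟩, h2⟩) : d * (c * d * c⁻¹) ∈ D)
        rwa [← mul_assoc d d, hs.1, one_mul] at h3
      · obtain ⟨w, hs⟩ := hs'.2
        exact subset_closure (Set.mem_union_right _ ⟨s, hs', conj_mem_of_mem_normalizer
          (lift_mem_normalizer_cE hZN hT hT1 hL hs hc) hd⟩)
    | one => simp
    | mul a b _ _ iha ihb => simpa [mul_assoc] using mul_mem iha ihb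
    | inv a _ ih => simpa [mul_assoc] using inv_mem ih
  have hNn : ∀ g, ∀ n ∈ N, g * n * g⁻¹ ∈ N := by
    intro g n hn
    induction hn using closure_induction with
    | mem c hc =>
      obtain ⟨w, hc⟩ := hc
      exact subset_closure ⟨_, hc.conj hS g⟩
    | one => simp
    | mul a b _ _ iha ihb => simpa [mul_assoc] using mul_mem iha ihb
    | inv a _ ih => simpa [mul_assoc] using inv_mem ih
  haveI hNnormal : N.Normal := ⟨fun n hn g => hNn g n hn⟩
  set H := (N.comap q).map L.subtype with hH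
  have hHL : H ≤ L := map_subtype_le _
  have hJH : J ≤ H := fun g hg =>
    ⟨⟨g, hJL hg⟩, jImage_le_lifts hZN hT hT1 hL ⟨_, hg, rfl⟩, rfl⟩
  have hLH : L ≤ normalizer (H : Set G) := fun g hg => mem_normalizer_of_forall fun y hy => by
    obtain ⟨y', hy', rfl⟩ := hy
    refine ⟨⟨g, hg⟩ * y' * ⟨g, hg⟩⁻¹, ?_, rfl⟩
    show q _ ∈ N
    rw [map_mul, map_mul, map_inv]
    exact hNn _ _ hy'
  -- a Sylow subgroup of `H` with Thompson subgroup `J`
  set T₁ := T ⊓ H with hT₁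
  have hT₁J : thompsonSubgroupOf 2 T₁ = J :=
    thompsonSubgroupOf_eq_of_le inf_le_left (le_inf (thompsonSubgroupOf_le 2 T) hJH)
  have hT₁s : IsSylowTwoIn T₁ H := by
    refine ⟨inf_le_right, hT.to_le inf_le_left, ?_⟩
    rw [← relIndex_sup_of_le_normalizer (hL.1.1.trans hLH)]
    exact Odd.of_dvd_nat hL.1.2.2
      (Dvd.intro _ (relIndex_mul_relIndex T (T ⊔ H) L le_sup_left (sup_le hL.1.1 hHL)))
  have hfr : ∀ g ∈ L, ∃ y ∈ H, y * g ∈ normalizer (J : Set G) := by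
    intro g hg
    have h1 := isSylowTwoIn_conj hT₁s g
    rw [show H.map (MulAut.conj g).toMonoidHom = H from
      mem_normalizer_iff_map_conj_eq.1 (hLH hg)] at h1
    obtain ⟨y, hy, e⟩ := exists_conj_eq hT₁s h1
    rw [← CfsgLib.FFModules.map_conj_mul] at e
    exact ⟨y, hy, hT₁J ▸ normalizer_le_normalizer_thompsonSubgroupOf 2 T₁
      (mem_normalizer_iff_map_conj_eq.2 e)⟩
  -- the normal closure of `J` in `L`
  set C := closure {y : G | ∃ g ∈ L, ∃ j ∈ J, y = g * j * g⁻¹} with hC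
  have hCX : C ≤ X := by
    refine (closure_le _).2 ?_
    rintro _ ⟨g, hg, j, hj, rfl⟩
    obtain ⟨y, hy, hn⟩ := hfr g hg
    have hj' : (y * g) * j * (y * g)⁻¹ ∈ J := conj_mem_of_mem_normalizer hn hj
    obtain ⟨y', hy', rfl⟩ := hy
    have e : g * j * g⁻¹ =
        ((y'⁻¹ * ⟨_, hJL hj'⟩ * y' : ↥L) : G) := by
      simp [mul_assoc]
    rw [e]
    refine hDX _ ?_
    rw [map_mul, map_mul, map_inv]
    exact conj_inv_mem_of_mem_normalizer (hND hy') (hJD ⟨_, hj', rfl⟩)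
  have hJC : J ≤ C := fun j hj => subset_closure ⟨1, L.one_mem, j, hj, by simp⟩
  have hLC : L ≤ normalizer (C : Set G) := fun g hg => mem_normalizer_of_forall fun y hy => by
    induction hy using closure_induction with
    | mem y hy =>
      obtain ⟨g', hg', j, hj, rfl⟩ := hy
      exact subset_closure ⟨g * g', L.mul_mem hg hg', j, hj, by group⟩
    | one => simp
    | mul a b _ _ iha ihb => simpa [mul_assoc] using mul_mem iha ihb
    | inv a _ ih => simpa [mul_assoc] using inv_mem ih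
  have hCL : C ≤ L := (closure_le _).2 (by
    rintro _ ⟨g, hg, j, hj, rfl⟩
    exact L.mul_mem (L.mul_mem hg (hJL hj)) (L.inv_mem hg))
  -- Frattini in `C`
  set T₂ := T ⊓ C with hT₂
  have hT₂J : thompsonSubgroupOf 2 T₂ = J :=
    thompsonSubgroupOf_eq_of_le inf_le_left (le_inf (thompsonSubgroupOf_le 2 T) hJC)
  have hT₂s : IsSylowTwoIn T₂ C := by
    refine ⟨inf_le_right, hT.to_le inf_le_left, ?_⟩
    rw [← relIndex_sup_of_le_normalizer (hL.1.1.trans hLC)]
    exact Odd.of_dvd_nat hL.1.2.2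
      (Dvd.intro _ (relIndex_mul_relIndex T (T ⊔ C) L le_sup_left (sup_le hL.1.1 hCL)))
  intro g hg
  have h1 := isSylowTwoIn_conj hT₂s g
  rw [show C.map (MulAut.conj g).toMonoidHom = C from
    mem_normalizer_iff_map_conj_eq.1 (hLC hg)] at h1
  obtain ⟨y, hy, e⟩ := exists_conj_eq hT₂s h1
  rw [← CfsgLib.FFModules.map_conj_mul] at e
  have hn : y * g ∈ X := hN ⟨L.mul_mem (hCL hy) hg,
    hT₂J ▸ normalizer_le_normalizer_thompsonSubgroupOf 2 T₂ (mem_normalizer_iff_map_conj_eq.2 e)⟩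
  have := X.mul_mem (X.inv_mem (hCX hy)) hn
  simpa using this

end

namespace Ctx

variable [Finite G] {M T : Subgroup G} (h : Ctx M T)
include h

theorem mem_zero {K : Subgroup G} (hK : IsJComponent T K) (hKM : ¬ K ≤ M) :
    K ∈ jComponentsZero T := by
  refine ⟨hK, fun S hJS hS => ?_⟩
  exact (h.sylow_of_local (wOf_normalizer_isTwoLocal h.zn hK)
    (fun hle => hKM ((le_normalizer.trans (normalizer_le_normalizer_wOf K)).trans hle)) hS hJS).1.symm

theorem exists_outside : (jComponentsOutside M T).Nonempty := by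
  obtain ⟨L, hL2, hTL, hLM⟩ := h.max.1.2.2.2
  obtain ⟨hL, -⟩ := h.local_of_le hL2 hLM hTL
  have hQT : pCoreOf 2 L ≤ T := core_le_sylow hL.1
  obtain ⟨K, hK, hKL, hKM⟩ : ∃ K, IsJComponent T K ∧ K ≤ L ∧ ¬ K ≤ M := by
    by_contra! hall
    exact hLM (le_of_components h.zn h.isPGroup h.ne_bot hL
      (inf_le_right.trans h.normalizer_thompson_le) (hQT.trans h.le) hall)
  refine ⟨K, h.mem_zero hK hKM, hKM, fun h0 => core_ne_bot h.isPGroup h.ne_bot hL ?_⟩
  refine le_bot_iff.1 (le_trans ?_ h0.le)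
  exact CfsgLib.FFModules.le_pCoreOf (hQT.trans le_sup_right)
    ((sup_le hKL hTL).trans (CfsgLib.FFModules.le_normalizer_pCoreOf L))
    (CfsgLib.FFModules.isPGroup_pCoreOf L)

/-- A 2-local subgroup containing an outside component with `J(T)`. -/
theorem local_of_component {L K : Subgroup G} (hK : IsJComponent T K) (hKM : ¬ K ≤ M)
    (hL2 : IsTwoLocal L) (hKL : K ⊔ thompsonSubgroupOf 2 T ≤ L) :
    ∃ T₀ : Subgroup G, IsPGroup 2 ↥T₀ ∧ T₀ ≠ ⊥ ∧
      thompsonSubgroupOf 2 T₀ = thompsonSubgroupOf 2 T ∧ T₀ ≤ M ∧ L ∈ jOvergroups T₀ ∧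
      IsJComponent T₀ K := by
  have hJL : thompsonSubgroupOf 2 T ≤ L := le_sup_right.trans hKL
  obtain ⟨T₀, hT₀, hJT₀⟩ := exists_isSylowTwoIn_ge hJL (isPGroup_thompson hK h.isPGroup)
  obtain ⟨h1, h2, h3⟩ := h.sylow_of_local hL2
    (fun hle => hKM ((le_sup_left.trans hKL).trans hle)) hT₀ hJT₀
  exact ⟨T₀, hT₀.2.1, h2.2.1, h1.symm, h2.2.2.1, h3, IsJComponent.congr hK h1.symm⟩

/-- The subgroup generated by the components of a maximal local subgroup determines it. -/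
theorem maximal_eq_normalizer {L K : Subgroup G} (hK : IsJComponent T K) (hKM : ¬ K ≤ M)
    (hL : IsMaximalTwoLocal L) (hKL : K ⊔ thompsonSubgroupOf 2 T ≤ L) :
    L = normalizer (pCoreOf 2 (⨆ (K' : Subgroup G) (_ : IsJComponent T K' ∧ K' ≤ L), K') : Set G) ∧
      ∀ K', IsJComponent T K' → (K' ≤ L ↔ K' ≤ normalizer (wOf K : Set G)) := by
  obtain ⟨T₀, hT₀, hT₀1, hJ, -, hLT₀, hK₀⟩ := h.local_of_component hK hKM hL.1 hKL
  set J := thompsonSubgroupOf 2 T with hJdef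
  set X := ⨆ (K' : Subgroup G) (_ : IsJComponent T K' ∧ K' ≤ L), K' with hX
  have hcong : ∀ {K'}, IsJComponent T K' → IsJComponent T₀ K' := fun hK' =>
    IsJComponent.congr hK' hJ
  have hcong' : ∀ {K'}, IsJComponent T₀ K' → IsJComponent T K' := fun hK' =>
    IsJComponent.congr hK' hJ.symm
  have hKX : K ≤ X := le_iSup₂ (f := fun (K' : Subgroup G) (_ : IsJComponent T K' ∧ K' ≤ L) => K')
    K ⟨hK, le_sup_left.trans hKL⟩
  have hXL : X ≤ L := iSup₂_le fun K' hK' => hK'.2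
  -- elements normalising each component
  have hfix : ∀ g, (∀ K', IsJComponent T K' → K' ≤ L → g ∈ normalizer (K' : Set G)) →
      g ∈ normalizer (X : Set G) := by
    intro g hg
    rw [mem_normalizer_iff_map_conj_eq, hX]
    simp only [Subgroup.map_iSup]
    exact iSup_congr fun K' => iSup_congr fun hK' =>
      mem_normalizer_iff_map_conj_eq.1 (hg K' hK'.1 hK'.2)
  have hLX : L ≤ normalizer (X : Set G) := by
    refine le_of_components h.zn hT₀ hT₀1 hLT₀ (fun g hg => ?_) (fun g hg => hfix g fun K' hK' hle =>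
      core_le_normalizer_component h.zn hT₀ hT₀1 hLT₀ (hcong hK') hle hg)
      (fun K₁ hK₁ hle₁ g hg => hfix g fun K' hK' hle =>
        component_le_normalizer h.zn hT₀ hT₀1 hLT₀ (hcong hK') hle hK₁ hle₁ hg)
    rw [hJ] at hg
    refine mem_normalizer_of_forall fun y hy => ?_
    have hle : X ≤ X.comap (MulAut.conj g).toMonoidHom := by
      refine iSup₂_le fun K' hK' => map_le_iff_le_comap.1 ?_
      refine le_iSup₂ (f := fun (K' : Subgroup G) (_ : IsJComponent T K' ∧ K' ≤ L) => K')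
        (K'.map (MulAut.conj g).toMonoidHom) ⟨?_, ?_⟩
      · refine IsJComponent.congr (IsJComponent_conj hK'.1 g) ?_
        rw [thompson_conj]
        exact (mem_normalizer_iff_map_conj_eq.1 hg.2).symm
      · rintro _ ⟨k, hk, rfl⟩
        exact L.mul_mem (L.mul_mem hg.1 (hK'.2 hk)) (L.inv_mem hg.1)
    exact hle hy
  have hKnX : X ≤ normalizer (K : Set G) := iSup₂_le fun K' hK' =>
    component_le_normalizer h.zn hT₀ hT₀1 hLT₀ hK₀ (le_sup_left.trans hKL) (hcong hK'.1) hK'.2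
  have hX1 : pCoreOf 2 X ≠ ⊥ := by
    intro h0
    have hle := CfsgLib.FFModules.pCoreOf_le_pCoreOf (p := 2) hKX hKnX
    rw [h0, le_bot_iff] at hle
    have := wOf_card hK
    rw [le_bot_iff.1 ((wOf_le_core K).trans hle.le), card_bot] at this
    omega
  have hLeq : L = normalizer (pCoreOf 2 X : Set G) :=
    (hL.2 _ (isTwoLocal_ge_of_core_ne_bot hX1).1
      (hLX.trans (CfsgLib.FFModules.normalizer_le_normalizer_pCoreOf X))).symm
  have hN : ∀ K', IsJComponent T K' → K' ≤ L → K' ≤ normalizer (wOf K : Set G) := fun K' hK' hle =>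
    (component_le_normalizer h.zn hT₀ hT₀1 hLT₀ hK₀ (le_sup_left.trans hKL) (hcong hK') hle).trans
      (normalizer_le_normalizer_wOf K)
  refine ⟨hLeq, fun K' hK' => ⟨hN K' hK', fun hK'N => ?_⟩⟩
  obtain ⟨S, hS, hS1, -, hJS, -, hNL⟩ := zero_local h.zn h.isPGroup (h.mem_zero hK hKM)
  rw [hLeq]
  refine le_trans (fun g hg => hfix g fun K₁ hK₁ hle₁ => ?_)
    (CfsgLib.FFModules.normalizer_le_normalizer_pCoreOf X)
  exact component_le_normalizer h.zn hS hS1 hNL (IsJComponent.congr hK₁ hJS) (hN K₁ hK₁ hle₁)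
    (IsJComponent.congr hK' hJS) hK'N hg

/-- **An outside component lies in a unique maximal 2-local subgroup.** -/
theorem unique_local {K : Subgroup G} (hK : K ∈ jComponentsOutside M T) :
    ∃ L : Subgroup G, IsMaximalTwoLocal L ∧ K ⊔ thompsonSubgroupOf 2 T ≤ L ∧
      (∀ L' : Subgroup G, IsMaximalTwoLocal L' → K ⊔ thompsonSubgroupOf 2 T ≤ L' → L' = L) ∧
      (K.subgroupOf L).IsSubnormal ∧ IsSylowTwoIn T L ∧ L ∈ jOvergroups T := by
  obtain ⟨⟨hKc, -⟩, hKM, hKT⟩ := hK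
  obtain ⟨hN2, hle⟩ := isTwoLocal_ge_of_core_ne_bot hKT
  obtain ⟨L, hL, hNL⟩ := exists_isMaximalTwoLocal_ge hN2
  have hKTL : K ⊔ T ≤ L := hle.trans hNL
  have hKJ : K ⊔ thompsonSubgroupOf 2 T ≤ L :=
    (sup_le_sup_left (thompsonSubgroupOf_le 2 T) K).trans hKTL
  obtain ⟨hLT, -⟩ := h.local_of_le hL.1 (fun h' => hKM ((le_sup_left.trans hKTL).trans h'))
    (le_sup_right.trans hKTL)
  refine ⟨L, hL, hKJ, fun L' hL' hKL' => ?_,
    component_isSubnormal h.zn h.isPGroup h.ne_bot hLT hKc (le_sup_left.trans hKTL), hLT.1, hLT⟩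
  obtain ⟨e1, c1⟩ := h.maximal_eq_normalizer hKc hKM hL hKJ
  obtain ⟨e2, c2⟩ := h.maximal_eq_normalizer hKc hKM hL' hKL'
  have hX : (⨆ (K' : Subgroup G) (_ : IsJComponent T K' ∧ K' ≤ L'), K') =
      ⨆ (K' : Subgroup G) (_ : IsJComponent T K' ∧ K' ≤ L), K' :=
    iSup_congr fun K' => iSup_congr_Prop
      ⟨fun hh => ⟨hh.1, (c1 K' hh.1).2 ((c2 K' hh.1).1 hh.2)⟩,
        fun hh => ⟨hh.1, (c2 K' hh.1).2 ((c1 K' hh.1).1 hh.2)⟩⟩ fun _ => rfl
  rw [e2, hX, ← e1]

end Ctx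

end CfsgLib.JComponents
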