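import Cfsg.Agent.Lib.JComponents.Zero

/-!
A member of `jComponentsZero (T^g)` that is subnormal in `⟨K, J(T)⟩` inside some
`L ∈ jOvergroups T` is a `J(T)`-component.
-/

set_option autoImplicit false

open scoped IsMulCommutative commutatorElement

namespace CfsgLib.JComponents

open Cfsg CfsgLib.ThompsonJ Subgroup

variable {G : Type*} [Group G] [Finite G]

omit [Finite G] in
lemma mem_normalizer_sup {X Y : Subgroup G} {g : G} (hX : g ∈ normalizer (X : Set G))
    (hY : g ∈ normalizer (Y : Set G)) : g ∈ normalizer ((X ⊔ Y : Subgroup G) : Set G) := by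
  rw [mem_normalizer_iff_map_conj_eq] at hX hY ⊢
  rw [Subgroup.map_sup, hX, hY]

omit [Finite G] in
/-- Iterated commutators with an element of a subnormal subgroup fall into it. -/
lemma le_sup_of_isSubnormal {H K A N : Subgroup G} (hK : (K.subgroupOf H).IsSubnormal)
    (hKH : K ≤ H) {x : G} (hx : x ∈ K) (hN : H ≤ normalizer (N : Set G)) (hAH : A ≤ H)
    (hA : A ≤ ⁅A, zpowers x⁆ ⊔ N) : A ≤ K ⊔ N := by
  suffices h : ∀ B : Subgroup ↥H, B.IsSubnormal → x ∈ B.map H.subtype → A ≤ B.map H.subtype ⊔ N by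
    have h' := h _ hK (by rw [map_subgroupOf_eq_of_le hKH]; exact hx)
    rwa [map_subgroupOf_eq_of_le hKH] at h'
  intro B hB
  induction hB with
  | top =>
    intro _
    rw [← MonoidHom.range_eq_map, range_subtype]
    exact hAH.trans le_sup_left
  | step B₁ B₂ hle hB₂ hn ih =>
    intro hx1
    have h2 := ih (map_mono hle hx1)
    refine hA.trans (sup_le ?_ le_sup_right)
    refine commutator_le.2 fun a ha k hk => ?_
    have han : a ∈ normalizer ((B₁.map H.subtype ⊔ N : Subgroup G) : Set G) := by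
      refine (sup_le (fun b hb => ?_) (le_sup_right.trans le_normalizer)) (h2 ha)
      obtain ⟨b', hb', rfl⟩ := hb
      refine mem_normalizer_sup ?_ (hN b'.2)
      exact (le_normalizer_map (H := B₁) H.subtype)
        ⟨b', (normal_subgroupOf_iff_le_normalizer hle).1 hn hb', rfl⟩
    have hk' : k ∈ B₁.map H.subtype ⊔ N := mem_sup_left (zpowers_le.2 hx1 hk)
    rw [commutatorElement_def]
    exact mul_mem (conj_mem_of_mem_normalizer han hk') (inv_mem hk')

lemma core_le_core_of_isSubnormal {H K : Subgroup G} (hKH : K ≤ H)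
    (hK : (K.subgroupOf H).IsSubnormal) : pCoreOf 2 K ≤ pCoreOf 2 H := by
  have hle : pCoreOf 2 K ≤ K := CfsgLib.FFModules.pCoreOf_le K
  have hsn : ((pCoreOf 2 K).subgroupOf H).IsSubnormal := by
    refine IsSubnormal.step _ (K.subgroupOf H) (fun g hg => hle hg) hK ?_
    exact (normal_subgroupOf_iff_le_normalizer
      (show (pCoreOf 2 K).subgroupOf H ≤ K.subgroupOf H from fun g hg => hle hg)).2 fun g hg =>
      mem_normalizer_of_forall fun y hy =>
        (conj_mem_of_mem_normalizer (CfsgLib.FFModules.le_normalizer_pCoreOf (p := 2) K hg) hy :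
          ((g : G) * y * (g : G)⁻¹) ∈ pCoreOf 2 K)
  have h2 : IsPGroup 2 ↥((pCoreOf 2 K).subgroupOf H) :=
    (CfsgLib.FFModules.isPGroup_pCoreOf K).comap_of_injective H.subtype H.subtype_injective
  intro g hg
  exact ⟨⟨g, hKH (hle hg)⟩, CfsgLib.FFModules.le_pCore_of_isSubnormal hsn h2 hg, rfl⟩

/-- The 2-core of `H` normalises a subnormal subgroup generated by elements of odd order. -/
lemma core_le_normalizer_of_isSubnormal {H K : Subgroup G} (hKH : K ≤ H)
    (hK : (K.subgroupOf H).IsSubnormal) (hodd : oddGen K = K) :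
    pCoreOf 2 H ≤ normalizer (K : Set G) := by
  set O := pCoreOf 2 H with hO
  have hKO : K ≤ normalizer (O : Set G) := hKH.trans (CfsgLib.FFModules.le_normalizer_pCoreOf H)
  have hX : oddGen (K ⊔ O) = K := by
    refine le_antisymm (oddGen_le_of_isSubnormal le_sup_left ?_ ?_) ?_
    · exact hK.comap (inclusion (sup_le hKH (CfsgLib.FFModules.pCoreOf_le H)))
    · obtain ⟨k, hk⟩ := IsPGroup.iff_card.1 (CfsgLib.FFModules.isPGroup_pCoreOf (p := 2) H)
      rw [relIndex_sup_of_le_normalizer hKO]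
      obtain ⟨i, -, hi⟩ := (Nat.dvd_prime_pow Nat.prime_two).1
        (hk ▸ relIndex_dvd_card (K ⊓ O) O)
      exact ⟨i, hi⟩
    · conv_lhs => rw [← hodd]
      exact oddGen_mono le_sup_left
  rw [← hX]
  exact (le_sup_right.trans le_normalizer).trans (normalizer_le_normalizer_oddGen _)

section

variable {T T' L K : Subgroup G} (hZN : ZN G) (hT : IsPGroup 2 T) (hT1 : T ≠ ⊥)
  (hL : L ∈ jOvergroups T)
include hZN hT hT1 hL

lemma mem_normalizer_cE_of_conj_mem {s : ↥L ⧸ pCore 2 ↥L} {u : ↥(omegaCenterOf (pCoreOf 2 L))}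
    (hs : LTV (proj L) s u) {g : ↥L ⧸ pCore 2 ↥L}
    (hg : g * s * g⁻¹ ∈ lcl (fittingSubgroup ↥(actL L).range) (proj L) s) :
    g ∈ normalizer (cE L s : Set _) := by
  have hS := liftSetting hZN hT hT1 hL
  refine mem_normalizer_of_forall fun e he => ?_
  rw [cE, ← lE_congr hS hg]
  induction he using closure_induction with
  | mem z hz =>
    obtain ⟨p, hp, r, hr, rfl⟩ := hz
    exact subset_closure ⟨_, conj_lcl hS hs _ hp, _, conj_lcl hS hs _ hr, by group⟩
  | one => simp
  | mul a b _ _ iha ihb => simpa [mul_assoc] using mul_mem iha ihb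
  | inv a _ ih => simpa [mul_assoc] using inv_mem ih

/-- An element inducing a lift on `L/O₂(L)` normalises a subnormal component of `T'`. -/
lemma mem_normalizer_of_lift (hT' : IsPGroup 2 T') (hK : K ∈ jComponentsZero T') (hKL : K ≤ L)
    (hsn : (K.subgroupOf (K ⊔ thompsonSubgroupOf 2 T)).IsSubnormal)
    {j : ↥L} (hj : (j : G) ∈ thompsonSubgroupOf 2 T) {u : ↥(omegaCenterOf (pCoreOf 2 L))}
    (hs : LTV (proj L) (QuotientGroup.mk' (pCore 2 ↥L) j) u) :
    (j : G) ∈ normalizer (K : Set G) := by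
  have hS := liftSetting hZN hT hT1 hL
  set q := QuotientGroup.mk' (pCore 2 ↥L) with hq
  set J := thompsonSubgroupOf 2 T with hJ
  set H := K ⊔ J with hH
  have hKH : K ≤ H := le_sup_left
  have hJH : J ≤ H := le_sup_right
  have hHL : H ≤ L := sup_le hKL (thompson_le_local hT hL)
  set O := pCoreOf 2 H with hO
  have hHO : H ≤ normalizer (O : Set G) := CfsgLib.FFModules.le_normalizer_pCoreOf H
  have hOH : O ≤ H := CfsgLib.FFModules.pCoreOf_le H
  have hQH : pCoreOf 2 L ⊓ H ≤ O := CfsgLib.FFModules.le_pCoreOf inf_le_right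
    (fun g hg => mem_normalizer_of_forall fun y hy =>
      ⟨conj_mem_of_mem_normalizer (CfsgLib.FFModules.le_normalizer_pCoreOf (p := 2) L (hHL hg)) hy.1,
        H.mul_mem (H.mul_mem hg hy.2) (H.inv_mem hg)⟩)
    ((CfsgLib.FFModules.isPGroup_pCoreOf L).to_le inf_le_left)
  -- elements of `H` with the same image differ by an element of `O`
  have heq : ∀ (p r : ↥L), (p : G) ∈ H → (r : G) ∈ H → q p = q r → (r : G)⁻¹ * p ∈ O :=
    fun p r hp hr h => hQH ⟨(mk_eq_one_iff (g := r⁻¹ * p)).1 (by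
      rw [QuotientGroup.mk_mul, QuotientGroup.mk_inv]; exact inv_mul_eq_one.2 h.symm),
      H.mul_mem (H.inv_mem hr) hp⟩
  have hRO : pCoreOf 2 K ≤ O := core_le_core_of_isSubnormal hKH hsn
  have hOK : O ≤ normalizer (K : Set G) := core_le_normalizer_of_isSubnormal hKH hsn hK.1.1
  -- odd elements outside `R`
  have hodd : ∀ x ∈ K, x ∉ pCoreOf 2 K → Odd (orderOf x) → x * x * x = 1 := by
    intro x hx hxR hxo
    haveI : ((pCoreOf 2 K).subgroupOf K).Normal :=
      (normal_subgroupOf_iff_le_normalizer (CfsgLib.FFModules.pCoreOf_le K)).2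
        (CfsgLib.FFModules.le_normalizer_pCoreOf K)
    have h3 : x ^ 3 ∈ pCoreOf 2 K := by
      have h := pow_index_mem ((pCoreOf 2 K).subgroupOf K) (⟨x, hx⟩ : ↥K)
      rw [← relIndex, hK.1.2.2.1] at h
      exact h
    obtain ⟨k, hk⟩ := dvd_two_pow_of_mem (CfsgLib.FFModules.isPGroup_pCoreOf K) h3
    rw [← pow_three']
    exact orderOf_eq_one_iff.1 (Nat.eq_one_of_dvd_coprimes
      ((Nat.coprime_two_left.2 hxo).pow_left k) hk (orderOf_pow_dvd 3))
  -- it is enough to find one generator whose commutator with `j` is in `O`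
  have hfin : ∀ x ∈ K, x ∉ pCoreOf 2 K → x * (j : G) * x⁻¹ * (j : G)⁻¹ ∈ O →
      (j : G) ∈ normalizer (K : Set G) := by
    intro x hx hxR hy
    have hle : ∀ k ∈ K, (j : G) * k * (j : G)⁻¹ ∈ K ⊔ O := by
      intro k hk
      have hxKO : (j : G) * x * (j : G)⁻¹ ∈ K ⊔ O := by
        have e : (j : G) * x * (j : G)⁻¹ = (x * (j : G) * x⁻¹ * (j : G)⁻¹)⁻¹ * x := by group
        rw [e]
        exact mul_mem (inv_mem (mem_sup_right hy)) (mem_sup_left hx)
      rw [← comp_sup_eq hK.1 hx hxR] at hk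
      have hle' : pCoreOf 2 K ⊔ zpowers x ≤
          (K ⊔ O).comap (MulAut.conj (j : G)).toMonoidHom :=
        sup_le (fun r hr => mem_sup_right (conj_mem_of_mem_normalizer (hHO (hJH hj)) (hRO hr)))
          (zpowers_le.2 hxKO)
      exact hle' hk
    refine mem_normalizer_of_forall fun k hk₀ => ?_
    have hk' : k ∈ oddGen K := (show oddGen K = K from hK.1.1).symm ▸ hk₀
    clear hk₀
    induction hk' using closure_induction with
    | mem k hk =>
      obtain ⟨hk1, hk2⟩ := hk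
      have hodd' : Odd (orderOf ((j : G) * k * (j : G)⁻¹)) := by
        rw [← MulAut.conj_apply, MulEquiv.orderOf_eq]; exact hk2
      exact oddGen_sup_le (CfsgLib.FFModules.isPGroup_pCoreOf H) hOK
        (mem_oddGen (hle k hk1) hodd')
    | one => simp
    | mul a b ha hb iha ihb =>
      have := K.mul_mem iha ihb
      simpa [mul_assoc] using this
    | inv a ha ih => simpa [mul_assoc] using K.inv_mem ih
  by_contra hjK
  -- every generator moves the lift inside its class
  have hcls : ∀ x (hx : x ∈ K), x ∉ pCoreOf 2 K → Odd (orderOf x) →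
      q ⟨x, hKL hx⟩ * q j * (q ⟨x, hKL hx⟩)⁻¹ ∈
        lcl (fittingSubgroup ↥(actL L).range) (proj L) (q j) := by
    intro x hx hxR hxo
    by_contra hcl
    refine hjK (hfin x hx hxR ?_)
    set x' : ↥L := ⟨x, hKL hx⟩ with hx'
    set a := q j with ha
    set a' := q x' * a * (q x')⁻¹ with ha'
    set a'' := q x' * a' * (q x')⁻¹ with ha''
    have hx3 : q x' * q x' * q x' = 1 := by
      rw [← map_mul, ← map_mul,
        show x' * x' * x' = 1 from Subtype.ext (hodd x hx hxR hxo), map_one]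
    have haa : q x' * a'' * (q x')⁻¹ = a := by
      calc q x' * a'' * (q x')⁻¹ = (q x' * q x' * q x') * a * (q x' * q x' * q x')⁻¹ := by
            rw [ha'', ha']; group
        _ = a := by rw [hx3]; group
    have hs' := hs.conj hS (q x')
    have hs'' := hs'.conj hS (q x')
    have c01 : Commute a a' := commute_of_not_mem_lcl hS hs hs' hcl
    have c12 : Commute a' a'' := commute_of_not_mem_lcl hS hs' hs'' (fun h => hcl (by
      have h' := conj_lcl hS hs' ((q x')⁻¹) h
      rwa [show (q x')⁻¹ * a'' * ((q x')⁻¹)⁻¹ = a' by rw [ha'']; group,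
        show (q x')⁻¹ * a' * ((q x')⁻¹)⁻¹ = a by rw [ha']; group] at h'))
    have c20 : Commute a'' a := by
      have h := c12.map (MulAut.conj (q x')).toMonoidHom
      change Commute (q x' * a' * (q x')⁻¹) (q x' * a'' * (q x')⁻¹) at h
      rwa [← ha'', haa] at h
    have hii : ∀ {p : ↥L ⧸ pCore 2 ↥L}, p * p = 1 → p⁻¹ = p := fun h =>
      inv_eq_of_mul_eq_one_right h
    have h0 : a * a = 1 := hs.1
    have h1 : a' * a' = 1 := hs'.1
    have h2 : a'' * a'' = 1 := hs''.1
    set y := x * (j : G) * x⁻¹ * (j : G)⁻¹ with hy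
    have hxH : x ∈ H := hKH hx
    have hjH : (j : G) ∈ H := hJH hj
    have hyH : y ∈ H :=
      H.mul_mem (H.mul_mem (H.mul_mem hxH hjH) (H.inv_mem hxH)) (H.inv_mem hjH)
    set y' := x * y * x⁻¹ with hy'
    have hy'H : y' ∈ H := H.mul_mem (H.mul_mem hxH hyH) (H.inv_mem hxH)
    set A := closure ({y, y'} : Set G) with hA
    have hyA : y ∈ A := subset_closure (Set.mem_insert _ _)
    have hy'A : y' ∈ A := subset_closure (Set.mem_insert_of_mem _ rfl)
    have hAH : A ≤ H := (closure_le _).2 (by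
      rintro z (rfl | rfl)
      · exact hyH
      · exact hy'H)
    have hqy : q ⟨y, hHL hyH⟩ = a' * a := by
      rw [show (⟨y, hHL hyH⟩ : ↥L) = x' * j * x'⁻¹ * j⁻¹ from Subtype.ext rfl, map_mul, map_mul,
        map_mul, map_inv, map_inv, ← ha, ← ha', hii h0]
    have hqy' : q ⟨y', hHL hy'H⟩ = a'' * a' := by
      rw [show (⟨y', hHL hy'H⟩ : ↥L) = x' * ⟨y, hHL hyH⟩ * x'⁻¹ from Subtype.ext rfl, map_mul,
        map_mul, map_inv, hqy, ha'', ha']
      group
    have hAX : A ≤ ⁅A, zpowers x⁆ ⊔ O := by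
      set p := ⁅y, x⁆ with hp
      set r := ⁅y', x⁆ with hr
      have hpX : p ∈ ⁅A, zpowers x⁆ := commutator_mem_commutator hyA (mem_zpowers x)
      have hrX : r ∈ ⁅A, zpowers x⁆ := commutator_mem_commutator hy'A (mem_zpowers x)
      have hpH : p ∈ H := by
        rw [hp, commutatorElement_def]
        exact H.mul_mem (H.mul_mem (H.mul_mem hyH hxH) (H.inv_mem hyH)) (H.inv_mem hxH)
      have hrH : r ∈ H := by
        rw [hr, commutatorElement_def]
        exact H.mul_mem (H.mul_mem (H.mul_mem hy'H hxH) (H.inv_mem hy'H)) (H.inv_mem hxH)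
      have hqp : q ⟨p, hHL hpH⟩ = a'' * a := by
        rw [show (⟨p, hHL hpH⟩ : ↥L) =
          ⟨y, hHL hyH⟩ * (x' * ⟨y, hHL hyH⟩⁻¹ * x'⁻¹) from Subtype.ext (by
            show p = y * (x * y⁻¹ * x⁻¹)
            rw [hp, commutatorElement_def]; group),
          map_mul, map_mul, map_mul, map_inv, map_inv, hqy, mul_inv_rev, hii h0, hii h1]
        calc a' * a * (q x' * (a * a') * (q x')⁻¹) = a' * a * (a' * a'') := by
              rw [ha'', ha']; group
          _ = (a' * a * a') * a'' := by group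
          _ = a * a'' := by rw [← c01.eq, mul_assoc a a' a', h1, mul_one]
          _ = a'' * a := c20.eq.symm
      have hqr : q ⟨r, hHL hrH⟩ = a' * a := by
        rw [show (⟨r, hHL hrH⟩ : ↥L) =
          ⟨y', hHL hy'H⟩ * (x' * ⟨y', hHL hy'H⟩⁻¹ * x'⁻¹) from Subtype.ext (by
            show r = y' * (x * y'⁻¹ * x⁻¹)
            rw [hr, commutatorElement_def]; group),
          map_mul, map_mul, map_mul, map_inv, map_inv, hqy', mul_inv_rev, hii h1, hii h2]
        calc a'' * a' * (q x' * (a' * a'') * (q x')⁻¹) = a'' * a' * (a'' * a) := by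
              rw [← haa, ha'']; group
          _ = (a'' * a' * a'') * a := by group
          _ = a' * a := by rw [← c12.eq, mul_assoc a' a'' a'', h2, mul_one]
      refine (closure_le _).2 ?_
      rintro z (rfl | rfl)
      · have h := heq ⟨y, hHL hyH⟩ ⟨r, hHL hrH⟩ hyH hrH (hqy.trans hqr.symm)
        have h' := mul_mem (mem_sup_left (T := O) hrX) (mem_sup_right (S := ⁅A, zpowers x⁆) h)
        simpa using h'
      · have hprH : r * p ∈ H := H.mul_mem hrH hpH
        have h := heq ⟨y', hHL hy'H⟩ ⟨r * p, hHL hprH⟩ hy'H hprH (by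
          rw [hqy', show (⟨r * p, hHL hprH⟩ : ↥L) = ⟨r, hHL hrH⟩ * ⟨p, hHL hpH⟩ from rfl,
            map_mul, hqr, hqp]
          calc a'' * a' = a' * a'' := c12.eq.symm
            _ = a' * (a * (a * a'')) := by rw [← mul_assoc a a a'', h0, one_mul]
            _ = a' * a * (a'' * a) := by rw [c20.eq, ← mul_assoc a' a])
        have h' := mul_mem (mem_sup_left (T := O) (mul_mem hrX hpX))
          (mem_sup_right (S := ⁅A, zpowers x⁆) h)
        simpa [mul_assoc] using h'
    have hyKO : y ∈ K ⊔ O := le_sup_of_isSubnormal hsn hKH hx hHO hAH hAX hyA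
    have h2O : y ^ 2 ∈ O := by
      have := heq (⟨y, hHL hyH⟩ * ⟨y, hHL hyH⟩) 1 (H.mul_mem hyH hyH) H.one_mem (by
        rw [map_mul, map_one, hqy]
        calc a' * a * (a' * a) = a' * (a * a') * a := by group
          _ = 1 := by rw [c01.eq, ← mul_assoc, h1, one_mul, h0])
      simpa [pow_two] using this
    have h3O : y ^ 3 ∈ O := by
      have hle : K ⊔ O ≤ normalizer (O : Set G) := sup_le (hKH.trans hHO) le_normalizer
      haveI := (normal_subgroupOf_iff_le_normalizer (le_sup_right : O ≤ K ⊔ O)).2 hle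
      have hidx : O.relIndex (K ⊔ O) ∣ 3 := by
        rw [sup_comm, relIndex_sup_of_le_normalizer hOK, ← hK.1.2.2.1]
        exact relIndex_dvd_of_le_left K (le_inf hRO (CfsgLib.FFModules.pCoreOf_le K))
      obtain ⟨m, hm⟩ := hidx
      have h := pow_index_mem (O.subgroupOf (K ⊔ O)) (⟨y, hyKO⟩ : ↥(K ⊔ O))
      rw [← relIndex] at h
      have h' := pow_mem (show y ^ O.relIndex (K ⊔ O) ∈ O from h) m
      rwa [← pow_mul, ← hm] at h'
    have := O.mul_mem (O.inv_mem h2O) h3O
    have e : (y ^ 2)⁻¹ * y ^ 3 = y := by rw [pow_succ y 2, inv_mul_cancel_left]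
    rwa [e] at this
  -- the component of the lift has the four-group of `K`
  obtain ⟨x, hx, hxR, hxo⟩ := comp_exists_odd hK.1
  set x' : ↥L := ⟨x, hKL hx⟩ with hx'
  set a := q j with ha
  set a' := q x' * a * (q x')⁻¹ with ha'
  have ha'cl : a' ∈ lcl (fittingSubgroup ↥(actL L).range) (proj L) a := hcls x hx hxR hxo
  have hx3 := hodd x hx hxR hxo
  have hne : a' ≠ a := by
    intro e
    refine hjK (hfin x hx hxR (hQH ⟨(mk_eq_one_iff (g := x' * j * x'⁻¹ * j⁻¹)).1 ?_,
      H.mul_mem (H.mul_mem (H.mul_mem (hKH hx) (hJH hj)) (H.inv_mem (hKH hx)))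
        (H.inv_mem (hJH hj))⟩))
    show q _ = 1
    rw [map_mul, map_mul, map_mul, map_inv, map_inv, ← ha, ← ha', e, mul_inv_cancel]
  have hsJ : a ∈ jImage T L := ⟨j, hj, rfl⟩
  obtain ⟨hKa, hWaV⟩ := isJComponent_comp hZN hT hT1 hL hsJ hs
  set Ka := comp L a with hKadef
  set e := a' * a with he
  have heE : e ∈ cE L a :=
    subset_closure ⟨a', ha'cl, a, self_mem_lcl hS hs.1, rfl⟩
  obtain ⟨z, hzK, hz3, hzo, hze⟩ := exists_preimage hZN hT hT1 hL hs heE
  have hzR : (z : G) ∉ pCoreOf 2 Ka := fun h => by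
    rw [hKadef, pCoreOf_comp hZN hT hT1 hL hs] at h
    exact hne ((mul_eq_one_iff_eq_inv.1 (hze.symm.trans (mk_eq_one_iff.2 h.2))).trans
      (inv_eq_of_sq hs.1))
  have hxn : (x : G) ∈ normalizer (Ka : Set G) :=
    (mem_normalizer_pre x' (mem_normalizer_cE_of_conj_mem hZN hT hT1 hL hs ha'cl)).2
  have hWa := wOf_card hKa
  have hWn : ∀ g ∈ normalizer (Ka : Set G), g ∈ normalizer (wOf Ka : Set G) := fun g hg =>
    normalizer_le_normalizer_wOf Ka hg
  have hact : ∀ (g : ↥L) (v : ↥(omegaCenterOf (pCoreOf 2 L))),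
      ((proj L (q g) • v : ↥(omegaCenterOf (pCoreOf 2 L))) : G) = (g : G) * v * (g : G)⁻¹ :=
    fun g v => smul_coe g v
  -- `q x` commutes with `e`
  have hcomm : Commute (q x') e := by
    have hn := mem_normalizer_cE_of_conj_mem hZN hT hT1 hL hs ha'cl
    have he1 : e ≠ 1 := fun h => hne ((mul_eq_one_iff_eq_inv.1 h).trans (inv_eq_of_sq hs.1))
    rcases three_cases (cE_card hZN hT hT1 hL hs) heE he1
      (conj_mem_of_mem_normalizer hn heE) with h | h | h
    · exact absurd (by rwa [mul_inv_eq_one, mul_eq_left] at h) he1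
    · exact mul_inv_eq_iff_eq_mul.1 h
    · exfalso
      have h3 : q x' * q x' * q x' = 1 := by
        rw [← map_mul, ← map_mul, show x' * x' * x' = 1 from Subtype.ext hx3, map_one]
      have h' : e⁻¹ = e := by
        calc e⁻¹ = q x' * e * (q x')⁻¹ := h.symm
          _ = q x' * (q x' * e⁻¹ * (q x')⁻¹) * (q x')⁻¹ := by
            have h0 : q x' * e⁻¹ * (q x')⁻¹ = e := by
              rw [show q x' * e⁻¹ * (q x')⁻¹ = (q x' * e * (q x')⁻¹)⁻¹ by group, h, inv_inv]
            rw [h0]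
          _ = q x' * (q x' * (q x' * e * (q x')⁻¹) * (q x')⁻¹) * (q x')⁻¹ := by rw [h]
          _ = (q x' * q x' * q x') * e * (q x' * q x' * q x')⁻¹ := by group
          _ = e := by rw [h3]; group
      exact he1 (orderOf_eq_one_of_odd (Odd.of_dvd_nat (n := 3) (by decide)
        (cE_card hZN hT hT1 hL hs ▸ Subgroup.orderOf_dvd_natCard (cE L a) heE))
        (by rw [← eq_inv_iff_mul_eq_one]; exact h'.symm))
  have hfour : ∀ {w : G}, w ∈ wOf Ka → w ≠ 1 → ∀ v ∈ wOf Ka,
      v = 1 ∨ v = w ∨ v = (z : G) * w * (z : G)⁻¹ ∨ v = (z : G) * w * (z : G)⁻¹ * w :=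
    fun {w} hw hw1 v hv => four_cases hWa (wOf_sq hKa) hw
      (conj_mem_of_mem_normalizer (hWn _ (le_normalizer hzK)) hw) hw1
      (fun h => hw1 (by rwa [mul_inv_eq_one, mul_eq_left] at h))
      (fun h => hw1 (wOf_fpf hKa hzK hzR hzo hw (mul_inv_eq_iff_eq_mul.1 h))) hv
  have hu : (u : G) ∈ wOf Ka := center_mem_wOf hZN hT hT1 hL hsJ hs
  -- `x` fixes no nontrivial element of the four-group
  have hxfpf : ∀ w ∈ wOf Ka, x * w = w * x → w = 1 := by
    intro w hw hxw
    by_contra hw1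
    have hall : ∀ v ∈ wOf Ka, x * v * x⁻¹ = v := by
      have hzw : x * ((z : G) * w * (z : G)⁻¹) * x⁻¹ = (z : G) * w * (z : G)⁻¹ := by
        have hwV := hWaV hw
        have h1 : (z : G) * w * (z : G)⁻¹ =
            ((proj L (q z) • (⟨w, hwV⟩ : ↥(omegaCenterOf (pCoreOf 2 L))) :
              ↥(omegaCenterOf (pCoreOf 2 L))) : G) := (hact z ⟨w, hwV⟩).symm
        have h2 : proj L (q x') • (⟨w, hwV⟩ : ↥(omegaCenterOf (pCoreOf 2 L))) = ⟨w, hwV⟩ :=
          Subtype.ext (by rw [hact]; exact mul_inv_eq_iff_eq_mul.2 hxw)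
        rw [h1, show x = (x' : G) from rfl, ← hact, hze, ← mul_smul, ← map_mul, hcomm.eq, map_mul,
          mul_smul, h2]
      intro v hv
      rcases hfour hw hw1 v hv with rfl | rfl | rfl | rfl
      · group
      · exact mul_inv_eq_iff_eq_mul.2 hxw
      · exact hzw
      · calc x * ((z : G) * w * (z : G)⁻¹ * w) * x⁻¹
            = (x * ((z : G) * w * (z : G)⁻¹) * x⁻¹) * (x * w * x⁻¹) := by group
          _ = _ := by rw [hzw, mul_inv_eq_iff_eq_mul.2 hxw]
    have hfix : proj L (q x') • u = u := Subtype.ext (by rw [hact]; exact hall _ hu)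
    have h' := (hs.conj hS (q x')).2
    rw [hfix] at h'
    have hpne : proj L a' ≠ proj L a := fun h => hne (lift_unique hS ha'cl.1 hs.1 h)
    obtain ⟨h1, -⟩ := moves_of_mem hS.setting hs.2 ha'cl.2 h' hpne
    rw [hs.2.apply_center hS.setting.sq] at h1
    exact hs.2.ne_one (mul_eq_left.1 h1.symm)
  -- the four-group lies in `H`
  obtain ⟨w, hw, hw1, -, hwJ, -, -, -⟩ := comp_max hKa hT
  have hwH : w ∈ H := hJH hwJ
  have hWaH : wOf Ka ≤ H := by
    set y := x * (j : G) * x⁻¹ * (j : G)⁻¹ with hy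
    have hyH : y ∈ H :=
      H.mul_mem (H.mul_mem (H.mul_mem (hKH hx) (hJH hj)) (H.inv_mem (hKH hx))) (H.inv_mem (hJH hj))
    have hqy : q ⟨y, hHL hyH⟩ = q z := by
      rw [hze, show (⟨y, hHL hyH⟩ : ↥L) = x' * j * x'⁻¹ * j⁻¹ from Subtype.ext rfl, map_mul,
        map_mul, map_mul, map_inv, map_inv, ← ha, ← ha', inv_eq_of_sq hs.1]
    have hzw : (z : G) * w * (z : G)⁻¹ ∈ H := by
      have h1 : ((proj L (q z) • (⟨w, hWaV hw⟩ : ↥(omegaCenterOf (pCoreOf 2 L))) :
          ↥(omegaCenterOf (pCoreOf 2 L))) : G) = (z : G) * w * (z : G)⁻¹ := hact _ _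
      rw [← h1, ← hqy, hact]
      exact H.mul_mem (H.mul_mem hyH hwH) (H.inv_mem hyH)
    intro v hv
    rcases hfour hw hw1 v hv with rfl | rfl | rfl | rfl
    · exact H.one_mem
    · exact hwH
    · exact hzw
    · exact H.mul_mem hzw hwH
  have hxW : ∀ v ∈ wOf Ka, x * v * x⁻¹ ∈ wOf Ka := fun v hv =>
    conj_mem_of_mem_normalizer (hWn _ hxn) hv
  have hWcomm : wOf Ka ≤ ⁅wOf Ka, zpowers x⁆ := by
    have hd : ∀ v ∈ wOf Ka, v * (x * v * x⁻¹) ∈ ⁅wOf Ka, zpowers x⁆ := by
      intro v hv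
      have h := commutator_mem_commutator hv (mem_zpowers x)
      rw [commutatorElement_def, inv_eq_self_of_mem (wOf_elem hKa) hv] at h
      rw [show v * (x * v * x⁻¹) = v * x * v * x⁻¹ by group]
      exact h
    set v₁ := x * w * x⁻¹ with hv₁
    have hv₁W : v₁ ∈ wOf Ka := hxW w hw
    have hne1 : v₁ ≠ 1 := fun h => hw1 (by rwa [hv₁, mul_inv_eq_one, mul_eq_left] at h)
    have hne2 : v₁ ≠ w := fun h => hw1 (hxfpf w hw (mul_inv_eq_iff_eq_mul.1 h))
    have h3 : x * v₁ * x⁻¹ = v₁ * w := by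
      rcases four_cases hWa (wOf_sq hKa) hw hv₁W hw1 hne1 hne2 (hxW v₁ hv₁W) with h | h | h | h
      · exact absurd (by rwa [mul_inv_eq_one, mul_eq_left] at h) hne1
      · refine absurd ?_ hne2
        calc v₁ = x * (x * v₁ * x⁻¹) * x⁻¹ := by rw [h]
          _ = (x * x * x) * w * (x * x * x)⁻¹ := by rw [hv₁]; group
          _ = w := by rw [hx3]; group
      · exact absurd (hxfpf v₁ hv₁W (mul_inv_eq_iff_eq_mul.1 h)) hne1
      · exact h
    have e1 := hd w hw
    have e2 := hd v₁ hv₁W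
    rw [← hv₁] at e1
    rw [h3, ← mul_assoc, wOf_sq hKa v₁ hv₁W, one_mul] at e2
    have e3 := mul_mem e2 e1
    rw [← mul_assoc, wOf_sq hKa w hw, one_mul] at e3
    intro v hv
    rcases four_cases hWa (wOf_sq hKa) hw hv₁W hw1 hne1 hne2 hv with rfl | rfl | rfl | rfl
    · exact one_mem _
    · exact e2
    · exact e3
    · exact mul_mem e3 e2
  have hWaK : wOf Ka ≤ K := by
    have h := le_sup_of_isSubnormal (N := ⊥) hsn hKH hx
      (fun g _ => mem_normalizer_of_forall fun y hy => by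
        rw [mem_bot] at hy ⊢; subst hy; group)
      hWaH (hWcomm.trans le_sup_left)
    rwa [sup_bot_eq] at h
  have hWaR : wOf Ka ≤ pCoreOf 2 K := by
    intro v hv
    have h3 : v ^ 3 ∈ pCoreOf 2 K := by
      haveI : ((pCoreOf 2 K).subgroupOf K).Normal :=
        (normal_subgroupOf_iff_le_normalizer (CfsgLib.FFModules.pCoreOf_le K)).2
          (CfsgLib.FFModules.le_normalizer_pCoreOf K)
      have h := pow_index_mem ((pCoreOf 2 K).subgroupOf K) (⟨v, hWaK hv⟩ : ↥K)
      rw [← relIndex, hK.1.2.2.1] at h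
      exact h
    rwa [pow_succ, pow_two, wOf_sq hKa v hv, one_mul] at h3
  -- `O` centralises the four-group
  have hHn : H ≤ normalizer (Ka : Set G) := by
    refine sup_le ?_ (comp_le_normalizer hKa)
    conv_lhs => rw [← hK.1.1]
    refine (closure_le _).2 fun g hg => ?_
    by_cases hgR : g ∈ pCoreOf 2 K
    · have hg1 : g = 1 := by
        obtain ⟨k, hk⟩ := dvd_two_pow_of_mem (CfsgLib.FFModules.isPGroup_pCoreOf K) hgR
        exact orderOf_eq_one_iff.1 (Nat.eq_one_of_dvd_coprimes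
          ((Nat.coprime_two_left.2 hg.2).pow_left k) hk dvd_rfl)
      rw [hg1]; exact one_mem _
    · exact (mem_normalizer_pre ⟨g, hKL hg.1⟩
        (mem_normalizer_cE_of_conj_mem hZN hT hT1 hL hs (hcls g hg.1 hgR hg.2))).2
  have hWaU : wOf Ka ≤ omegaCenterOf (pCoreOf 2 K) := by
    intro v hv
    refine mem_omegaOne ⟨hWaR hv, mem_centralizer_iff.2 fun r hr => ?_⟩
      (by rw [pow_two]; exact wOf_sq hKa v hv)
    -- `r` commutes with `e`, and fixes a point
    have hrH : r ∈ H := hOH (hRO hr)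
    set r' : ↥L := ⟨r, hHL hrH⟩ with hr'
    have hre : ∀ t : ↥(omegaCenterOf (pCoreOf 2 L)), (t : G) ∈ wOf Ka →
        (r : G) * ((z : G) * t * (z : G)⁻¹) * r⁻¹ = (z : G) * (r * t * r⁻¹) * (z : G)⁻¹ := by
      intro t ht
      have hkey : (z : G)⁻¹ * (r⁻¹ * z * r) ∈ pCoreOf 2 Ka := by
        have hrn := hHn hrH
        haveI : ((pCoreOf 2 Ka).subgroupOf Ka).Normal :=
          (normal_subgroupOf_iff_le_normalizer (CfsgLib.FFModules.pCoreOf_le Ka)).2
            (CfsgLib.FFModules.le_normalizer_pCoreOf Ka)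
        by_contra hnot
        have hzr : r⁻¹ * (z : G) * r ∈ Ka := conj_inv_mem_of_mem_normalizer hrn hzK
        have hqz : q (r'⁻¹ * z * r') ∈ cE L a := by
          obtain ⟨hh, hmem⟩ := mem_pre.1 (comp_le_pre L a hzr)
          exact hmem
        have he1 : e ≠ 1 := fun h => hne ((mul_eq_one_iff_eq_inv.1 h).trans (inv_eq_of_sq hs.1))
        rcases three_cases (cE_card hZN hT hT1 hL hs) heE he1 hqz with h | h | h
        · rw [map_mul, map_mul, map_inv, hze, mul_assoc, inv_mul_eq_one, right_eq_mul] at h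
          exact he1 h
        · refine hnot ?_
          rw [hKadef, pCoreOf_comp hZN hT hT1 hL hs]
          refine ⟨Ka.mul_mem (Ka.inv_mem hzK) hzr, (mk_eq_one_iff (g := z⁻¹ * (r'⁻¹ * z * r'))).1 ?_⟩
          show q _ = 1
          rw [map_mul, map_inv, hze, h, inv_mul_cancel]
        · -- an element of 2-power order cannot invert `e`
          have hy : ((⟨x * (j : G) * x⁻¹ * (j : G)⁻¹, hHL (H.mul_mem (H.mul_mem (H.mul_mem (hKH hx)
              (hJH hj)) (H.inv_mem (hKH hx))) (H.inv_mem (hJH hj)))⟩ : ↥L) : G) ∈ H :=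
            H.mul_mem (H.mul_mem (H.mul_mem (hKH hx) (hJH hj)) (H.inv_mem (hKH hx)))
              (H.inv_mem (hJH hj))
          set y : ↥L := ⟨x * (j : G) * x⁻¹ * (j : G)⁻¹, _⟩ with hydef
          have hqy : q y = e := by
            rw [show y = x' * j * x'⁻¹ * j⁻¹ from Subtype.ext rfl, map_mul,
              map_mul, map_mul, map_inv, map_inv, ← ha, ← ha', inv_eq_of_sq hs.1]
          have hO1 : (y : G)⁻¹ * (r⁻¹ * y * r) ∈ O := by
            have : (y : G)⁻¹ * r⁻¹ * y ∈ O := conj_inv_mem_of_mem_normalizer (hHO hy)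
              (O.inv_mem (hRO hr))
            have h' := O.mul_mem this (hRO hr)
            simpa [mul_assoc] using h'
          have hq : q (y⁻¹ * (r'⁻¹ * y * r')) = e := by
            have he2 : q (r'⁻¹ * y * r') = q (r'⁻¹ * z * r') := by
              rw [map_mul, map_mul, map_mul, map_mul, map_inv, hqy, ← hze]
            rw [map_mul, map_inv, he2, h, hqy]
            exact ((mul_eq_one_iff_eq_inv.1 (by
              rw [← mul_assoc, ← pow_three']
              have h3 := pow_card_eq_one' (x := (⟨e, heE⟩ : ↥(cE L a)))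
              rw [cE_card hZN hT hT1 hL hs] at h3
              exact congrArg Subtype.val h3)).trans (mul_inv_rev e e)).symm
          obtain ⟨k, hk⟩ := dvd_two_pow_of_mem (CfsgLib.FFModules.isPGroup_pCoreOf (p := 2) H) hO1
          have hd : orderOf e ∣ 2 ^ k := by
            rw [← hq]
            refine (orderOf_map_dvd q _).trans ?_
            rw [← Subgroup.orderOf_coe]
            exact hk
          exact he1 (orderOf_eq_one_iff.1 (Nat.eq_one_of_dvd_coprimes
            ((show Nat.Coprime 2 3 by norm_num).pow_left k) hd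
            (cE_card hZN hT hT1 hL hs ▸ Subgroup.orderOf_dvd_natCard (cE L a) heE)))
      have hc := mem_centralizer_iff.1 (core_centralizes_wOf hKa hkey) _ ht
      calc r * ((z : G) * t * (z : G)⁻¹) * r⁻¹
          = r * (z * ((z : G)⁻¹ * (r⁻¹ * z * r) * t)) *
              ((z : G)⁻¹ * (r⁻¹ * z * r))⁻¹ * (z : G)⁻¹ * r⁻¹ := by rw [← hc]; group
        _ = (z : G) * (r * t * r⁻¹) * (z : G)⁻¹ := by group
    have hrn : zpowers r ≤ normalizer (wOf Ka : Set G) :=
      zpowers_le.2 (hWn _ (hHn hrH))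
    obtain ⟨k, hk⟩ := dvd_two_pow_of_mem (CfsgLib.FFModules.isPGroup_pCoreOf K) hr
    obtain ⟨w₀, hw₀, hw₀1, hw₀f⟩ := exists_fixed_ne_one
      (isPGroup_of_isElementaryAbelian (wOf_elem hKa))
      (fun h => hw1 (mem_bot.1 (h ▸ hw))) (isPGroup_zpowers_of_dvd hk) hrn
    have hf0 : r * w₀ * r⁻¹ = w₀ := mul_inv_eq_iff_eq_mul.2 (hw₀f r (mem_zpowers r))
    have hfz : r * ((z : G) * w₀ * (z : G)⁻¹) * r⁻¹ = (z : G) * w₀ * (z : G)⁻¹ := by
      rw [hre ⟨w₀, hWaV hw₀⟩ hw₀, hf0]
    rcases hfour hw₀ hw₀1 v hv with rfl | rfl | rfl | rfl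
    · simp
    · exact mul_inv_eq_iff_eq_mul.1 hf0
    · exact mul_inv_eq_iff_eq_mul.1 hfz
    · refine mul_inv_eq_iff_eq_mul.1 ?_
      calc r * ((z : G) * w₀ * (z : G)⁻¹ * w₀) * r⁻¹
          = (r * ((z : G) * w₀ * (z : G)⁻¹) * r⁻¹) * (r * w₀ * r⁻¹) := by group
        _ = _ := by rw [hfz, hf0]
  have hWW : wOf Ka = wOf K := by
    refine eq_of_le_of_card_ge (hWcomm.trans ?_) (by rw [wOf_card hK.1, hWa])
    exact commutator_mono hWaU (zpowers_le.2 hx)
  refine hjK ?_
  rw [zero_normalizer_eq hZN hT' hK, ← hWW]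
  exact hWn _ (comp_le_normalizer hKa hj)

/-- `J(T)` normalises `K`. -/
theorem thompson_le_normalizer_of_subnormal (hT' : IsPGroup 2 T') (hK : K ∈ jComponentsZero T')
    (hKL : K ≤ L) (hsn : (K.subgroupOf (K ⊔ thompsonSubgroupOf 2 T)).IsSubnormal) :
    thompsonSubgroupOf 2 T ≤ normalizer (K : Set G) := by
  set q := QuotientGroup.mk' (pCore 2 ↥L) with hq
  set J := thompsonSubgroupOf 2 T with hJ
  set H := K ⊔ J with hH
  have hQJ : J ⊓ pCoreOf 2 L ≤ normalizer (K : Set G) := by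
    intro g hg
    have hgO : g ∈ pCoreOf 2 H := CfsgLib.FFModules.le_pCoreOf (inf_le_right : pCoreOf 2 L ⊓ H ≤ H)
      (fun g hg => mem_normalizer_of_forall fun y hy =>
        ⟨conj_mem_of_mem_normalizer (CfsgLib.FFModules.le_normalizer_pCoreOf (p := 2) L
          ((sup_le hKL (thompson_le_local hT hL)) hg)) hy.1,
          H.mul_mem (H.mul_mem hg hy.2) (H.inv_mem hg)⟩)
      ((CfsgLib.FFModules.isPGroup_pCoreOf L).to_le inf_le_left) ⟨hg.2, mem_sup_right hg.1⟩
    exact core_le_normalizer_of_isSubnormal le_sup_left hsn hK.1.1 hgO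
  intro g hg
  have h := thompson_generated hZN hT hT1 hL (x := q ⟨g, thompson_le_local hT hL hg⟩) ⟨_, hg, rfl⟩
  have hle : closure {s | s ∈ jImage T L ∧
      ∃ w : ↥(omegaCenterOf (pCoreOf 2 L)), LTV (proj L) s w} ≤
      ((J ⊓ normalizer (K : Set G)).subgroupOf L).map q := by
    refine (closure_le _).2 ?_
    rintro s ⟨⟨j, hj, rfl⟩, w, hs⟩
    exact ⟨j, ⟨hj, mem_normalizer_of_lift hZN hT hT1 hL hT' hK hKL hsn hj hs⟩, rfl⟩
  obtain ⟨g', hg', e⟩ := hle h
  have hd : (g' : G)⁻¹ * g ∈ J ⊓ pCoreOf 2 L := ⟨J.mul_mem (J.inv_mem hg'.1) hg,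
    (mk_eq_one_iff (g := g'⁻¹ * ⟨g, thompson_le_local hT hL hg⟩)).1 (by
      rw [QuotientGroup.mk_mul, QuotientGroup.mk_inv]; exact inv_mul_eq_one.2 e)⟩
  have := (normalizer (K : Set G)).mul_mem hg'.2 (hQJ hd)
  simpa using this

end

end CfsgLib.JComponents
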