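import Cfsg.Agent.Lib.JComponents.Central
import Cfsg.Agent.Lib.JComponents.Sub

/-!
Two sides over the same `T` always have `V₁ ≰ O₂(K₂ T)`.
-/

set_option autoImplicit false

open scoped IsMulCommutative

namespace CfsgLib.JComponents

open Cfsg CfsgLib.ThompsonJ Subgroup

variable {G : Type*} [Group G] [Finite G]

local notation "MC[" g "]" => Subgroup.map (MulEquiv.toMonoidHom (MulAut.conj g))

/-- `Ω₁(Z(O₂(X)))`. -/
abbrev lV (X : Subgroup G) : Subgroup G := omegaCenterOf (pCoreOf 2 X)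

/-- Two sides with commuting modules. -/
structure Bad (T X K Y K' : Subgroup G) : Prop where
  h₁ : FSide T X K
  h₂ : FSide T Y K'
  hne : X ≠ Y
  hb : vOf T K ≤ qsOf T K'

namespace Bad

variable {T X K Y K' : Subgroup G} (h : Bad T X K Y K')
include h

lemma symm : Bad T Y K' X K := ⟨h.h₂, h.h₁, h.hne.symm, v_le_qs_symm h.h₁ h.h₂ h.hb⟩

lemma centre_cOf {w : G} (hw : w ∈ wOf K) (hwZ : w ∈ zJ T) (hw1 : w ≠ 1) : w ∈ cOf T K' :=
  centre_mem_cOf h.h₁ h.h₂ h.hne h.hb hw hwZ hw1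

/-- The only component in `X`. -/
lemma component_unique {K₁ : Subgroup G} (hK₁ : IsJComponent T K₁) (hle : K₁ ≤ X) : K₁ = K := by
  by_contra hne'
  have hZN := h.h₁.zn
  have hT := h.h₁.toSide.isPGroup
  have hT1 := h.h₁.toSide.ne_bot
  obtain ⟨w', hw', hw'1, hw'Z, -, -⟩ := comp_center hK₁ hT
  obtain ⟨w, hw, hw1, hwZ, hwc, -, -, -⟩ := h.h₁.exists_w
  obtain ⟨w₂, hw₂, hw₂1, hw₂Z, -, -, -, -⟩ := h.h₂.exists_w
  have hw'c : w' ∈ cOf T K := mem_inf.2 ⟨hw'Z,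
    wOf_le_centralizer_of_ne hZN hT hT1 h.h₁.hLT h.h₁.hK h.h₁.hKL hK₁ hle (Ne.symm hne') hw'⟩
  have e : w' = w₂ := eq_of_mem_cOf h.h₁.toSide h.h₂.toSide h.hne hw'c
    (h.symm.centre_cOf hw₂ hw₂Z hw₂1) hw'1 hw₂1
  have hK₁Y : K₁ ≤ Y := fun k hk => h.h₂.toSide.centralizer_le (h.centre_cOf hw hwZ hw1) hw1
    (mem_centralizer_singleton_iff.2 (mem_centralizer_iff.1
      (wOf_le_centralizer_of_ne hZN hT hT1 h.h₁.hLT hK₁ hle h.h₁.hK h.h₁.hKL hne' hw) k hk))
  have e' : K₁ = K' := component_eq_of_wOf hZN hT hT1 h.h₂.hLT hK₁ hK₁Y h.h₂.hK h.h₂.hKL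
    fun hbot => hw₂1 (mem_bot.1 (hbot ▸ mem_inf.2 ⟨e ▸ hw', hw₂⟩))
  exact h.hne (h.h₂.huniq X h.h₁.hmax (sup_le (e' ▸ hle) h.h₁.toSide.thompson_le))

lemma le_normalizer : X ≤ normalizer (K : Set G) := by
  refine (le_of_components h.h₁.zn h.h₁.toSide.isPGroup h.h₁.toSide.ne_bot h.h₁.hLT
    (X := X ⊓ normalizer (K : Set G)) ?_ ?_ ?_).trans inf_le_right
  · intro g hg
    refine ⟨hg.1, mem_normalizer_iff_map_conj_eq.2 (h.component_unique ?_ ?_)⟩
    · refine IsJComponent.congr (IsJComponent_conj h.h₁.hK g) ?_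
      rw [thompson_conj]
      exact (mem_normalizer_iff_map_conj_eq.1 hg.2).symm
    · rintro _ ⟨k, hk, rfl⟩
      exact X.mul_mem (X.mul_mem hg.1 (h.h₁.hKL hk)) (X.inv_mem hg.1)
  · exact le_inf (CfsgLib.FFModules.pCoreOf_le X) (core_le_normalizer_component h.h₁.zn
      h.h₁.toSide.isPGroup h.h₁.toSide.ne_bot h.h₁.hLT h.h₁.hK h.h₁.hKL)
  · intro K₁ hK₁ hle
    exact le_inf hle (h.component_unique hK₁ hle ▸ Subgroup.le_normalizer)

lemma centralizer_le_right {w : G} (hw : w ∈ wOf K) (hwZ : w ∈ zJ T) (hw1 : w ≠ 1) :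
    centralizer ({w} : Set G) ≤ Y :=
  h.h₂.toSide.centralizer_le (h.centre_cOf hw hwZ hw1) hw1

/-- `X ∩ Y` fixes the centre. -/
lemma inf_fix {w : G} (hw : w ∈ wOf K) (hwZ : w ∈ zJ T) (hw1 : w ≠ 1) {i : G} (hi : i ∈ X ⊓ Y) :
    i * w * i⁻¹ = w := by
  by_contra hn
  refine h.hne (h.h₁.hmax.2 Y h.h₂.hmax.1 fun g hg => ?_).symm
  have hwT : ∀ t ∈ T, t * w * t⁻¹ = w := fun t ht =>
    mul_inv_eq_iff_eq_mul.2 (mem_centralizer_iff.1 (h.h₁.central ht) w hwZ).symm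
  obtain ⟨-, -, -, -, j, hjT, -, hjn, -⟩ := h.h₁.exists_mover
  have hjI : j ∈ X ⊓ Y := mem_inf.2 ⟨h.h₁.hLT.1.1 hjT, h.h₂.hLT.1.1 hjT⟩
  have hXW : ∀ z ∈ X, z * w * z⁻¹ ∈ wOf K := fun z hz =>
    conj_mem_of_mem_normalizer (normalizer_le_normalizer_wOf K (h.le_normalizer hz)) hw
  obtain ⟨v, hv⟩ : ∃ v, v = i * w * i⁻¹ := ⟨_, rfl⟩
  have hvW : v ∈ wOf K := hv ▸ hXW i (mem_inf.1 hi).1
  have hv1 : v ≠ 1 := fun e => hw1 (by rwa [hv, mul_inv_eq_one, mul_eq_left] at e)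
  have hvw : v ≠ w := fun e => hn (hv.symm.trans e)
  have hjv : j * v * j⁻¹ = v * w := by
    refine (h.h₁.eq_or_eq_mul hw hw1 hwT hjT hvW).resolve_left fun e => hjn ?_
    exact mem_inf.2 ⟨hjT, mem_centralizer_iff.2 fun y hy => (mul_inv_eq_iff_eq_mul.1
      (four_neighbours e (hwT j hjT)
        (four_cases (wOf_card h.h₁.hK) (wOf_sq h.h₁.hK) hw hvW hw1 hv1 hvw hy))).symm⟩
  obtain ⟨i', hi', he⟩ : ∃ i' ∈ X ⊓ Y, i' * w * i'⁻¹ = g * w * g⁻¹ := by
    rcases four_cases (wOf_card h.h₁.hK) (wOf_sq h.h₁.hK) hw hvW hw1 hv1 hvw (hXW g hg) with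
      e | e | e | e
    · exact absurd (by rwa [mul_inv_eq_one, mul_eq_left] at e) hw1
    · exact ⟨1, (X ⊓ Y).one_mem, by rw [e]; group⟩
    · exact ⟨i, hi, by rw [e, hv]⟩
    · refine ⟨j * i, (X ⊓ Y).mul_mem hjI hi, ?_⟩
      rw [e, ← hjv, hv]; group
  have hm : i'⁻¹ * g ∈ centralizer ({w} : Set G) := by
    refine mem_centralizer_singleton_iff.2 (mul_inv_eq_iff_eq_mul.1 ?_)
    calc i'⁻¹ * g * w * (i'⁻¹ * g)⁻¹ = i'⁻¹ * (g * w * g⁻¹) * i' := by group
      _ = w := by rw [← he]; group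
  have := Y.mul_mem (mem_inf.1 hi').2 (h.centralizer_le_right hw hwZ hw1 hm)
  simpa using this

lemma odd_centralizes {g : G} (hg : g ∈ X ⊓ Y) (hgo : Odd (orderOf g)) :
    g ∈ centralizer (wOf K : Set G) := by
  obtain ⟨w, hw, hw1, hwZ, -, hwT, -, -⟩ := h.h₁.exists_w
  refine mem_centralizer_iff.2 fun v hv => (mul_inv_eq_iff_eq_mul.1 ?_).symm
  by_cases hv1 : v = 1
  · rw [hv1]; group
  by_cases hvw : v = w
  · rw [hvw]; exact h.inf_fix hw hwZ hw1 hg
  have hgW : g ∈ normalizer (wOf K : Set G) :=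
    normalizer_le_normalizer_wOf K (h.le_normalizer (mem_inf.1 hg).1)
  have hsq : g * g * v * (g * g)⁻¹ = v := by
    rcases four_cases (wOf_card h.h₁.hK) (wOf_sq h.h₁.hK) hw hv hw1 hv1 hvw
      (conj_mem_of_mem_normalizer hgW hv) with e | e | e | e
    · exact absurd (by rwa [mul_inv_eq_one, mul_eq_left] at e) hv1
    · refine absurd ?_ hvw
      calc v = g⁻¹ * (g * v * g⁻¹) * g := by group
        _ = g⁻¹ * (g * w * g⁻¹) * g := by rw [e, h.inf_fix hw hwZ hw1 hg]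
        _ = w := by group
    · calc g * g * v * (g * g)⁻¹ = g * (g * v * g⁻¹) * g⁻¹ := by group
        _ = v := by rw [e, e]
    · calc g * g * v * (g * g)⁻¹ = g * (g * v * g⁻¹) * g⁻¹ := by group
        _ = (g * v * g⁻¹) * (g * w * g⁻¹) := by
          conv_lhs => rw [e]
          group
        _ = v := by rw [e, h.inf_fix hw hwZ hw1 hg, mul_assoc, wOf_sq h.h₁.hK w hw, mul_one]
  obtain ⟨m, hm⟩ := exists_pow_eq_self_of_coprime (x := g) (n := 2) ((Nat.coprime_two_left).2 hgo)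
  have hc : Commute (g * g) v := mul_inv_eq_iff_eq_mul.1 hsq
  have := hc.pow_left m
  rw [← pow_two, hm] at this
  exact mul_inv_eq_iff_eq_mul.2 this.eq

lemma oddGen_eq : oddGen (X ⊓ centralizer (wOf K : Set G)) = oddGen (X ⊓ Y) := by
  refine le_antisymm ((closure_le _).2 fun g hg => ?_) ((closure_le _).2 fun g hg => ?_)
  · obtain ⟨w, hw, hw1, hwZ, -⟩ := h.h₁.exists_w
    refine mem_oddGen (mem_inf.2 ⟨(mem_inf.1 hg.1).1, h.centralizer_le_right hw hwZ hw1 ?_⟩) hg.2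
    exact mem_centralizer_singleton_iff.2 (mem_centralizer_iff.1 (mem_inf.1 hg.1).2 w hw).symm
  · exact mem_oddGen (mem_inf.2 ⟨(mem_inf.1 hg.1).1, h.odd_centralizes hg.1 hg.2⟩) hg.2

lemma le_normalizer_kernel :
    X ≤ normalizer ((X ⊓ centralizer (wOf K : Set G) : Subgroup G) : Set G) := fun g hg =>
  mem_normalizer_of_forall fun c hc => mem_inf.2
    ⟨X.mul_mem (X.mul_mem hg (mem_inf.1 hc).1) (X.inv_mem hg), mem_centralizer_iff.2 fun v hv => by
      have hv' := conj_inv_mem_of_mem_normalizer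
        (normalizer_le_normalizer_wOf K (h.le_normalizer hg)) hv
      calc v * (g * c * g⁻¹) = g * ((g⁻¹ * v * g) * c) * g⁻¹ := by group
        _ = g * (c * (g⁻¹ * v * g)) * g⁻¹ := by rw [mem_centralizer_iff.1 (mem_inf.1 hc).2 _ hv']
        _ = g * c * g⁻¹ * v := by group⟩

/-- `C_X(W_K)` has no elements of odd order. -/
lemma kernel_oddGen_eq_bot : oddGen (X ⊓ centralizer (wOf K : Set G)) = ⊥ := by
  set H := oddGen (X ⊓ centralizer (wOf K : Set G)) with hH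
  have hHX : H ≤ X := (oddGen_le _).trans inf_le_left
  have hn₁ : X ≤ normalizer (H : Set G) :=
    h.le_normalizer_kernel.trans (normalizer_le_normalizer_oddGen _)
  have hn₂ : Y ≤ normalizer (H : Set G) := by
    rw [hH, h.oddGen_eq, inf_comm, ← h.symm.oddGen_eq]
    exact h.symm.le_normalizer_kernel.trans (normalizer_le_normalizer_oddGen _)
  have hbot : pCoreOf 2 H = ⊥ := by
    by_contra hne'
    exact h.hne (h.h₁.toSide.eq_of_normalizes h.h₂.toSide (CfsgLib.FFModules.isPGroup_pCoreOf H) hne'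
      (((sup_le h.h₁.hKL h.h₁.toSide.thompson_le).trans hn₁).trans
        (CfsgLib.FFModules.normalizer_le_normalizer_pCoreOf H))
      (((sup_le h.h₂.hKL h.h₂.toSide.thompson_le).trans hn₂).trans
        (CfsgLib.FFModules.normalizer_le_normalizer_pCoreOf H)))
  have hQ2 := CfsgLib.FFModules.isPGroup_pCoreOf (p := 2) X
  have hHQ : H ≤ centralizer (pCoreOf 2 X : Set G) := by
    intro g hg
    refine mem_centralizer_iff.2 fun q hq => ?_
    have h1 : q * g * q⁻¹ * g⁻¹ ∈ H ⊓ pCoreOf 2 X := by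
      refine mem_inf.2 ⟨H.mul_mem
        (conj_mem_of_mem_normalizer (hn₁ (CfsgLib.FFModules.pCoreOf_le X hq)) hg) (H.inv_mem hg), ?_⟩
      rw [show q * g * q⁻¹ * g⁻¹ = q * (g * q⁻¹ * g⁻¹) by group]
      exact mul_mem hq (conj_mem_of_mem_normalizer
        (CfsgLib.FFModules.le_normalizer_pCoreOf X (hHX hg)) (inv_mem hq))
    have h2 : H ⊓ pCoreOf 2 X ≤ pCoreOf 2 H :=
      CfsgLib.FFModules.le_pCoreOf inf_le_left (fun c hc => mem_normalizer_of_forall fun y hy =>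
        mem_inf.2 ⟨H.mul_mem (H.mul_mem hc (mem_inf.1 hy).1) (H.inv_mem hc),
          conj_mem_of_mem_normalizer (CfsgLib.FFModules.le_normalizer_pCoreOf X (hHX hc))
            (mem_inf.1 hy).2⟩) (hQ2.to_le inf_le_right)
    have h3 := h2 h1
    rw [hbot, mem_bot, mul_inv_eq_one, mul_inv_eq_iff_eq_mul] at h3
    exact h3
  refine le_bot_iff.1 ((closure_le _).2 fun g hg => ?_)
  have hgQ := h.h₁.hLT.2.2 (hHQ (mem_oddGen hg.1 hg.2))
  obtain ⟨k, hk⟩ := dvd_two_pow_of_mem hQ2 hgQ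
  rw [SetLike.mem_coe, mem_bot]
  exact orderOf_eq_one_iff.1 (Nat.eq_one_of_dvd_coprimes
    ((Nat.coprime_two_left.2 hg.2).pow_left k) hk dvd_rfl)

lemma kernel_isPGroup : IsPGroup 2 ↥(X ⊓ centralizer (wOf K : Set G)) := by
  intro g
  obtain ⟨a, b, hab, ⟨k, hk⟩, hb⟩ := exists_two_parts (g : G)
  have hb1 : (g : G) ^ b ∈ oddGen (X ⊓ centralizer (wOf K : Set G)) :=
    mem_oddGen (pow_mem g.2 b) hb
  rw [h.kernel_oddGen_eq_bot, mem_bot] at hb1
  rw [hb1, mul_one] at hab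
  refine ⟨k, Subtype.ext ?_⟩
  rw [SubgroupClass.coe_pow, OneMemClass.coe_one, ← hab]
  exact orderOf_dvd_iff_pow_eq_one.1 hk

lemma kernel_eq : X ⊓ centralizer (wOf K : Set G) = qsOf T K := by
  refine le_antisymm (le_inf ?_ inf_le_right) (inf_le_inf_right _ h.h₁.hLT.1.1)
  exact le_of_normal_of_isSylowTwoIn h.h₁.hLT.1 inf_le_left h.kernel_isPGroup
    (h.h₁.hLT.1.1.trans h.le_normalizer_kernel)

lemma core_eq : pCoreOf 2 X = qsOf T K := by
  refine le_antisymm h.h₁.coreLocal_le_qs (h.kernel_eq ▸ ?_)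
  exact CfsgLib.FFModules.le_pCoreOf inf_le_left h.le_normalizer_kernel h.kernel_isPGroup

lemma v_eq : lV X = vOf T K := by rw [lV, h.core_eq]

lemma mem_T_of_fix {w : G} (hw : w ∈ wOf K) (hwZ : w ∈ zJ T) (hw1 : w ≠ 1) {g : G} (hg : g ∈ X)
    (hgw : g * w * g⁻¹ = w) : g ∈ T := by
  have hwT : ∀ t ∈ T, t * w * t⁻¹ = w := fun t ht =>
    mul_inv_eq_iff_eq_mul.2 (mem_centralizer_iff.1 (h.h₁.central ht) w hwZ).symm
  obtain ⟨-, -, -, -, j, hjT, -, hjn, -⟩ := h.h₁.exists_mover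
  have hgW := normalizer_le_normalizer_wOf K (h.le_normalizer hg)
  have hcent : ∀ z ∈ X, z * w * z⁻¹ = w → ∀ v ∈ wOf K, v ≠ 1 → v ≠ w → z * v * z⁻¹ = v → z ∈ T := by
    intro z hz hzw v hv hv1 hvw hzv
    have : z ∈ qsOf T K := h.kernel_eq ▸ mem_inf.2 ⟨hz, mem_centralizer_iff.2 fun y hy =>
      (mul_inv_eq_iff_eq_mul.1 (four_neighbours hzv hzw
        (four_cases (wOf_card h.h₁.hK) (wOf_sq h.h₁.hK) hw hv hw1 hv1 hvw hy))).symm⟩
    exact (mem_inf.1 this).1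
  obtain ⟨x, hx, hxR, hxo⟩ := comp_exists_odd h.h₁.hK
  set v := x * w * x⁻¹ with hv
  have hvW : v ∈ wOf K :=
    conj_mem_of_mem_normalizer (normalizer_le_normalizer_wOf K (Subgroup.le_normalizer hx)) hw
  have hv1 : v ≠ 1 := fun e => hw1 (by rwa [hv, mul_inv_eq_one, mul_eq_left] at e)
  have hvw : v ≠ w := fun e => hw1 (wOf_fpf h.h₁.hK hx hxR hxo hw (mul_inv_eq_iff_eq_mul.1 e))
  rcases four_cases (wOf_card h.h₁.hK) (wOf_sq h.h₁.hK) hw hvW hw1 hv1 hvw
    (conj_mem_of_mem_normalizer hgW hvW) with e | e | e | e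
  · exact absurd (by rwa [mul_inv_eq_one, mul_eq_left] at e) hv1
  · refine absurd ?_ hvw
    calc v = g⁻¹ * (g * v * g⁻¹) * g := by group
      _ = g⁻¹ * (g * w * g⁻¹) * g := by rw [e, hgw]
      _ = w := by group
  · exact hcent g hg hgw v hvW hv1 hvw e
  · have hjv : j * v * j⁻¹ = v * w := by
      refine (h.h₁.eq_or_eq_mul hw hw1 hwT hjT hvW).resolve_left fun e' => hjn ?_
      exact mem_inf.2 ⟨hjT, mem_centralizer_iff.2 fun y hy => (mul_inv_eq_iff_eq_mul.1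
        (four_neighbours e' (hwT j hjT)
          (four_cases (wOf_card h.h₁.hK) (wOf_sq h.h₁.hK) hw hvW hw1 hv1 hvw hy))).symm⟩
    have hm : j * g ∈ T := by
      refine hcent _ (X.mul_mem (h.h₁.hLT.1.1 hjT) hg) ?_ v hvW hv1 hvw ?_
      · calc j * g * w * (j * g)⁻¹ = j * (g * w * g⁻¹) * j⁻¹ := by group
          _ = w := by rw [hgw, hwT j hjT]
      · calc j * g * v * (j * g)⁻¹ = j * (g * v * g⁻¹) * j⁻¹ := by group
          _ = (j * v * j⁻¹) * (j * w * j⁻¹) := by rw [e]; group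
          _ = v := by rw [hjv, hwT j hjT, mul_assoc, wOf_sq h.h₁.hK w hw, mul_one]
    simpa using T.mul_mem (T.inv_mem hjT) hm

/-- `X = K T`. -/
lemma local_eq : X = K ⊔ T := by
  refine le_antisymm (fun g hg => ?_) (sup_le h.h₁.hKL h.h₁.hLT.1.1)
  obtain ⟨w, hw, hw1, hwZ, -, -, -, -⟩ := h.h₁.exists_w
  obtain ⟨x, hx, hxR, hxo⟩ := comp_exists_odd h.h₁.hK
  have hx3 := comp_pow_three h.h₁.hK hx hxo
  have hxW : x ∈ normalizer (wOf K : Set G) :=
    normalizer_le_normalizer_wOf K (Subgroup.le_normalizer hx)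
  set v := x * w * x⁻¹ with hv
  have hvW : v ∈ wOf K := conj_mem_of_mem_normalizer hxW hw
  have hv1 : v ≠ 1 := fun e => hw1 (by rwa [hv, mul_inv_eq_one, mul_eq_left] at e)
  have hvw : v ≠ w := fun e => hw1 (wOf_fpf h.h₁.hK hx hxR hxo hw (mul_inv_eq_iff_eq_mul.1 e))
  obtain ⟨y, hy, hyg⟩ : ∃ y ∈ K, (y * g) * w * (y * g)⁻¹ = w := by
    have e0 : ∀ y, (y * g) * w * (y * g)⁻¹ = y * (g * w * g⁻¹) * y⁻¹ := fun y => by group
    rcases four_cases (wOf_card h.h₁.hK) (wOf_sq h.h₁.hK) hw hvW hw1 hv1 hvw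
      (conj_mem_of_mem_normalizer (normalizer_le_normalizer_wOf K (h.le_normalizer hg)) hw) with
      e | e | e | e
    · exact absurd (by rwa [mul_inv_eq_one, mul_eq_left] at e) hw1
    · exact ⟨1, K.one_mem, by rw [e0, e]; group⟩
    · exact ⟨x⁻¹, K.inv_mem hx, by rw [e0, e, hv]; group⟩
    · have hv3 : x * v * x⁻¹ = v * w := by
        rcases four_cases (wOf_card h.h₁.hK) (wOf_sq h.h₁.hK) hw hvW hw1 hv1 hvw
          (conj_mem_of_mem_normalizer hxW hvW) with e' | e' | e' | e'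
        · exact absurd (by rwa [mul_inv_eq_one, mul_eq_left] at e') hv1
        · refine absurd ?_ hvw
          calc v = x * (x * v * x⁻¹) * x⁻¹ := by rw [e']
            _ = (x * x * x) * w * (x * x * x)⁻¹ := by rw [hv]; group
            _ = w := by rw [hx3]; group
        · exact absurd (wOf_fpf h.h₁.hK hx hxR hxo hvW (mul_inv_eq_iff_eq_mul.1 e')) hv1
        · exact e'
      refine ⟨x, hx, ?_⟩
      rw [e0, e, ← hv3]
      calc x * (x * v * x⁻¹) * x⁻¹ = (x * x * x) * w * (x * x * x)⁻¹ := by rw [hv]; group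
        _ = w := by rw [hx3]; group
  have hT' := h.mem_T_of_fix hw hwZ hw1 (X.mul_mem (h.h₁.hKL hy) hg) hyg
  have := mul_mem (inv_mem (mem_sup_left (T := T) hy)) (mem_sup_right (S := K) hT')
  simpa using this

lemma inf_eq : X ⊓ Y = T := by
  refine le_antisymm (fun g hg => ?_) (le_inf h.h₁.hLT.1.1 h.h₂.hLT.1.1)
  obtain ⟨w, hw, hw1, hwZ, -, -, -, -⟩ := h.h₁.exists_w
  exact h.mem_T_of_fix hw hwZ hw1 (mem_inf.1 hg).1 (h.inf_fix hw hwZ hw1 hg)

lemma centralizer_eq {w : G} (hw : w ∈ wOf K) (hwZ : w ∈ zJ T) (hw1 : w ≠ 1) :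
    centralizer ({w} : Set G) = Y := by
  refine le_antisymm (h.centralizer_le_right hw hwZ hw1) ?_
  rw [h.symm.local_eq]
  refine sup_le (fun k hk => mem_centralizer_singleton_iff.2
    (mem_centralizer_iff.1 (h.centre_cOf hw hwZ hw1).2 k hk)) fun t ht =>
    mem_centralizer_singleton_iff.2 ?_
  exact (mem_centralizer_iff.1 (h.h₁.central ht) w hwZ).symm

/-- A nontrivial commutator of `V_X` with `X ∩ Y` determines `Y`. -/
lemma commutator_centralizer {v t : G} (hv : v ∈ lV X) (ht : t ∈ X ⊓ Y) (hne : t * v * t⁻¹ ≠ v) :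
    centralizer ({t * v * t⁻¹ * v⁻¹} : Set G) = Y := by
  obtain ⟨w, hw, hw1, hwZ, -, hwT, -, -⟩ := h.h₁.exists_w
  rw [h.inf_eq] at ht
  rw [h.v_eq] at hv
  have e := (h.h₁.eq_or_eq_mul_v hw hw1 hwT ht hv).resolve_left hne
  rw [e, commute_of_mem (isElementaryAbelian_omegaCenterOf _) hv (h.h₁.wOf_le_omega_qs hw),
    mul_inv_cancel_right]
  exact h.centralizer_eq hw hwZ hw1

lemma lV_le_core : lV X ≤ pCoreOf 2 Y := by rw [h.v_eq, h.symm.core_eq]; exact h.hb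

lemma mem_core_of_centralizes {t : G} (ht : t ∈ T) (hc : ∀ v ∈ lV X, t * v = v * t) :
    t ∈ pCoreOf 2 X := by
  rw [h.core_eq]
  exact (h.h₁.mem_qs_iff ht).2 fun v hv => hc v (h.v_eq.symm ▸ hv)

lemma conj (g : G) : Bad (MC[g] T) (MC[g] X) (MC[g] K) (MC[g] Y) (MC[g] K') := by
  have hne : MC[g] X ≠ MC[g] Y := fun e => h.hne (map_injective (MulAut.conj g).injective e)
  refine ⟨fside_of_two h.h₁.zn (h.h₁.toSide.conj g) (h.h₂.toSide.conj g) hne,
    fside_of_two h.h₁.zn (h.h₂.toSide.conj g) (h.h₁.toSide.conj g) hne.symm, hne, ?_⟩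
  have e : ∀ K : Subgroup G, qsOf (MC[g] T) (MC[g] K) = MC[g] (qsOf T K) := fun K => by
    show MC[g] T ⊓ _ = _
    rw [← map_wOf, ← map_conj_centralizer, Subgroup.map_inf _ _ _ (MulAut.conj g).injective]
  show omegaCenterOf (qsOf _ _) ≤ qsOf _ _
  rw [e, e, ← map_omegaCenterOf (MulAut.conj g).injective]
  exact map_mono h.hb

/-- There is no third side over `T`. -/
lemma exact {Z K₃ : Subgroup G} (h₃ : Side T Z K₃) (hZY : Z ≠ Y) : Z = X := by
  by_contra hZX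
  have f₃ : FSide T Z K₃ := fside_of_two h.h₁.zn h₃ h.h₂.toSide hZY
  by_cases hb : vOf T K' ≤ qsOf T K₃
  · obtain ⟨w, hw, hw1, hwZ, -, -, -, -⟩ := h.h₂.exists_w
    exact hw1 (cOf_disjoint f₃.toSide h.h₁.toSide hZX
      ((Bad.mk h.h₂ f₃ hZY.symm hb).centre_cOf hw hwZ hw1) (h.symm.centre_cOf hw hwZ hw1))
  · have e := v_eq_qs h.h₂ f₃ hZY.symm hb
    have hle : vOf T K ≤ vOf T K' := h.hb.trans e.ge
    have e' : vOf T K = vOf T K' := eq_of_le_of_card_ge hle (by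
      have a := h.h₁.card_v; have b := h.h₂.card_v
      have c := h.h₁.card_zJ; have d := h.h₂.card_zJ
      omega)
    refine h.hne (h.h₁.toSide.eq_of_normalizes h.h₂.toSide
      (h.h₁.toSide.isPGroup.to_le h.h₁.v_le_T) ?_
      ((sup_le_sup_left (thompsonSubgroupOf_le 2 T) _).trans h.h₁.normalizer_v) ?_)
    · intro hbot
      obtain ⟨w, hw, hw1, -⟩ := h.h₁.exists_w
      exact hw1 (mem_bot.1 (hbot ▸ h.h₁.wOf_le_omega_qs hw))
    · have h' := (sup_le_sup_left (thompsonSubgroupOf_le 2 T) K').trans h.h₂.normalizer_v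
      rwa [← e'] at h'

lemma exists_decomp_Y {l : G} (hl : l ∈ Y) {x : G} (hx : x ∈ K') (hxR : x ∉ pCoreOf 2 K') :
    ∃ y ∈ zpowers x, ∃ t ∈ T, l = y * t := h.h₂.exists_decomp (h.symm.local_eq ▸ hl) hx hxR

/-- The case of noncommuting conjugates across `Y`: the squares. -/
lemma square_step {x v w : G} (hx : x ∈ K') (hx3 : x * x * x = 1)
    (hv : v ∈ wOf K) (hv1 : v ≠ 1) (hw : w ∈ wOf K) (hw1 : w ≠ 1) (hwZ : w ∈ zJ T) (hvw : v ≠ w)
    (hn : ¬ Commute v (x * v * x⁻¹)) :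
    w ∈ sqOf (qsOf T K ⊓ qsOf T K') ∧ sqOf (qsOf T K') = sqOf (qsOf T K ⊓ qsOf T K') := by
  have hwT : ∀ t ∈ T, t * w * t⁻¹ = w := fun t ht =>
    mul_inv_eq_iff_eq_mul.2 (mem_centralizer_iff.1 (h.h₁.central ht) w hwZ).symm
  have hxw : x * w = w * x := mem_centralizer_iff.1 (h.centre_cOf hw hwZ hw1).2 x hx
  have hxQ : x ∈ normalizer (qsOf T K' : Set G) := h.h₂.sup_le_normalizer_qs (mem_sup_left hx)
  have hvQ : v ∈ qsOf T K' := h.hb (h.h₁.wOf_le_omega_qs hv)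
  obtain ⟨p, hp⟩ : ∃ b, b = x * v * x⁻¹ := ⟨_, rfl⟩
  obtain ⟨r, hr⟩ : ∃ b, b = x * p * x⁻¹ := ⟨_, rfl⟩
  have hpQ : p ∈ qsOf T K' := hp ▸ conj_mem_of_mem_normalizer hxQ hvQ
  have hrQ : r ∈ qsOf T K' := hr ▸ conj_mem_of_mem_normalizer hxQ hpQ
  have hrv : x * r * x⁻¹ = v := by
    calc x * r * x⁻¹ = (x * x * x) * v * (x * x * x)⁻¹ := by rw [hr, hp]; group
      _ = v := by rw [hx3]; group
  have hvv : v * v = 1 := wOf_sq h.h₁.hK v hv
  have hvi : v⁻¹ = v := inv_eq_of_mul_eq_one_right hvv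
  have hpp : p * p = 1 := by
    calc p * p = x * (v * v) * x⁻¹ := by rw [hp]; group
      _ = 1 := by rw [hvv]; group
  have hrr : r * r = 1 := by
    calc r * r = x * (p * p) * x⁻¹ := by rw [hr]; group
      _ = 1 := by rw [hpp]; group
  have hpi : p⁻¹ = p := inv_eq_of_mul_eq_one_right hpp
  have hri : r⁻¹ = r := inv_eq_of_mul_eq_one_right hrr
  have hxw' : x * w * x⁻¹ = w := mul_inv_eq_iff_eq_mul.2 hxw
  have hpv : p * v * p = v * w := by
    have e := (h.h₁.eq_or_eq_mul hw hw1 hwT (mem_inf.1 hpQ).1 hv).resolve_left fun e =>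
      hn (hp ▸ (mul_inv_eq_iff_eq_mul.1 e).symm)
    rwa [hpi] at e
  have hrp : r * p * r = p * w := by
    calc r * p * r = x * (p * v * p) * x⁻¹ := by rw [hr, hp]; group
      _ = p * (x * w * x⁻¹) := by rw [hpv, hp]; group
      _ = p * w := by rw [hxw']
  have hvr : v * r * v = r * w := by
    calc v * r * v = (x * r * x⁻¹) * (x * p * x⁻¹) * (x * r * x⁻¹) := by rw [hrv, hr]
      _ = x * (r * p * r) * x⁻¹ := by group
      _ = (x * p * x⁻¹) * (x * w * x⁻¹) := by rw [hrp]; group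
      _ = r * w := by rw [hxw', hr]
  have hwc : ∀ a ∈ T, w * a = a * w := fun a ha => (mul_inv_eq_iff_eq_mul.1 (hwT a ha)).symm
  have hvT : v ∈ T := (mem_inf.1 hvQ).1
  have hpT : p ∈ T := (mem_inf.1 hpQ).1
  have hrT : r ∈ T := (mem_inf.1 hrQ).1
  have hww : w * w = 1 := wOf_sq h.h₁.hK w hw
  have hrv' : r * v = v * r * w := by
    calc r * v = (v * v) * r * v := by rw [hvv, one_mul]
      _ = v * (v * r * v) := by group
      _ = v * r * w := by rw [hvr, ← mul_assoc]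
  have hvpv : v * p * v = p * w := by
    calc v * p * v = v * (p * v * p) * p⁻¹ := by group
      _ = v * (v * w) * p := by rw [hpv, hpi]
      _ = p * w := by rw [← mul_assoc, hvv, one_mul, hwc p hpT]
  have hzv : v * (v * p * r) * v = v * p * r := by
    calc v * (v * p * r) * v = (v * v) * p * (r * v) := by group
      _ = p * (v * r * w) := by rw [hvv, one_mul, hrv']
      _ = (p * v * p) * p⁻¹ * r * w := by group
      _ = v * (w * p) * r * w := by rw [hpv, hpi]; group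
      _ = v * (p * w) * r * w := by rw [hwc p hpT]
      _ = v * p * (w * r) * w := by group
      _ = v * p * (r * w) * w := by rw [hwc r hrT]
      _ = v * p * r * (w * w) := by group
      _ = v * p * r := by rw [hww, mul_one]
  have hzz : v * p * r * (v * p * r) = w := by
    calc v * p * r * (v * p * r) = v * p * (r * v) * p * r := by group
      _ = v * p * (v * r * w) * p * r := by rw [hrv']
      _ = v * p * v * r * (w * p) * r := by group
      _ = v * p * v * r * (p * w) * r := by rw [hwc p hpT]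
      _ = v * p * v * r * p * (w * r) := by group
      _ = (v * p * v) * (r * p * r) * w := by rw [hwc r hrT]; group
      _ = p * (w * (p * w)) * w := by rw [hvpv, hrp]; group
      _ = p * ((p * w) * w) * w := by rw [hwc (p * w) (T.mul_mem hpT (h.h₁.wOf_le hw))]
      _ = (p * p) * (w * w) * w := by group
      _ = w := by rw [hpp, hww, one_mul, one_mul]
  have hzD : v * p * r ∈ qsOf T K ⊓ qsOf T K' := by
    refine mem_inf.2 ⟨mem_inf.2 ⟨T.mul_mem (T.mul_mem hvT hpT) hrT,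
      mem_centralizer_iff.2 fun y hy => ?_⟩, mul_mem (mul_mem hvQ hpQ) hrQ⟩
    refine (mul_inv_eq_iff_eq_mul.1 (four_neighbours ?_
      (hwT _ (T.mul_mem (T.mul_mem hvT hpT) hrT))
      (four_cases (wOf_card h.h₁.hK) (wOf_sq h.h₁.hK) hw hv hw1 hv1 hvw hy))).symm
    refine mul_inv_eq_iff_eq_mul.2 ?_
    calc v * p * r * v = (v * v) * (v * p * r) * v := by rw [hvv, one_mul]
      _ = v * (v * (v * p * r) * v) := by group
      _ = v * (v * p * r) := by rw [hzv]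
  have hwD : w ∈ sqOf (qsOf T K ⊓ qsOf T K') := subset_closure ⟨_, hzD, hzz.symm⟩
  refine ⟨hwD, le_antisymm ((closure_le _).2 ?_) (sqOf_mono inf_le_right)⟩
  rintro _ ⟨q, hq, rfl⟩
  by_cases hq1 : q ∈ qsOf T K
  · exact subset_closure ⟨q, mem_inf.2 ⟨hq1, hq⟩, rfl⟩
  have hpn : p ∉ qsOf T K := fun e => hn (hp ▸ mem_centralizer_iff.1 (mem_inf.1 e).2 v hv)
  set d := p * q with hd
  have hdD : d ∈ qsOf T K ⊓ qsOf T K' :=
    mem_inf.2 ⟨h.h₁.mul_mem_qs hpT (mem_inf.1 hq).1 hpn hq1, mul_mem hpQ hq⟩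
  have hdp : d * p * d⁻¹ = p ∨ d * p * d⁻¹ = p * w := by
    have hd' : x⁻¹ * d * x ∈ qsOf T K' := conj_inv_mem_of_mem_normalizer hxQ (mem_inf.1 hdD).2
    have e0 : d * p * d⁻¹ = x * ((x⁻¹ * d * x) * v * (x⁻¹ * d * x)⁻¹) * x⁻¹ := by rw [hp]; group
    rcases h.h₁.eq_or_eq_mul hw hw1 hwT (mem_inf.1 hd').1 hv with e | e <;> rw [e] at e0
    · exact .inl (e0.trans hp.symm)
    · refine .inr ?_
      rw [e0, hp]
      calc x * (v * w) * x⁻¹ = x * v * x⁻¹ * (x * w * x⁻¹) := by group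
        _ = x * v * x⁻¹ * w := by rw [hxw']
  have hq' : q = p * d := by rw [hd, ← mul_assoc, hpp, one_mul]
  have hdd : d * d ∈ sqOf (qsOf T K ⊓ qsOf T K') := subset_closure ⟨d, hdD, rfl⟩
  rcases hdp with e | e
  · have : q * q = d * d := by
      rw [hq']
      calc p * d * (p * d) = p * (d * p * d⁻¹) * (d * d) := by group
        _ = d * d := by rw [e, hpp, one_mul]
    rw [this]; exact hdd
  · have : q * q = w * (d * d) := by
      rw [hq']
      calc p * d * (p * d) = p * (d * p * d⁻¹) * (d * d) := by group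
        _ = w * (d * d) := by rw [e, ← mul_assoc p p w, hpp, one_mul]
    rw [this]; exact mul_mem hwD hdd

/-- The modules of the neighbours of `Y` commute. -/
theorem no_two {l : G} (hl : l ∈ Y) {a b : G} (ha : a ∈ lV X) (hb : b ∈ MC[l] (lV X)) :
    a * b = b * a := by
  obtain ⟨x, hx, hxR, hxo⟩ := comp_exists_odd h.h₂.hK
  have hx3 := comp_pow_three h.h₂.hK hx hxo
  obtain ⟨w, hw, hw1, hwZ, hwc, hwT, -, -⟩ := h.h₁.exists_w
  obtain ⟨y, hy, hyR, hyo⟩ := comp_exists_odd h.h₁.hK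
  have hy3 := comp_pow_three h.h₁.hK hy hyo
  obtain ⟨v, hv⟩ : ∃ b, b = y * w * y⁻¹ := ⟨_, rfl⟩
  have hvW : v ∈ wOf K := hv ▸
    conj_mem_of_mem_normalizer (normalizer_le_normalizer_wOf K (Subgroup.le_normalizer hy)) hw
  have hv1 : v ≠ 1 := fun e => hw1 (by rwa [hv, mul_inv_eq_one, mul_eq_left] at e)
  have hvw : v ≠ w := fun e =>
    hw1 (wOf_fpf h.h₁.hK hy hyR hyo hw (mul_inv_eq_iff_eq_mul.1 (hv ▸ e)))
  by_cases hcomm : Commute v (x * v * x⁻¹)
  · -- `V_X` commutes with its conjugates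
    have hxQ : x ∈ normalizer (qsOf T K' : Set G) := h.h₂.sup_le_normalizer_qs (mem_sup_left hx)
    have hxV : x ∈ normalizer (vOf T K' : Set G) :=
      normalizer_le_normalizer_omegaCenterOf _ hxQ
    have hgen : vOf T K ≤ zpowers v ⊔ zJ T := by
      rw [vOf, h.h₁.omega_qs_eq]
      refine sup_le (fun z hz => ?_) (inf_le_left.trans le_sup_right)
      rcases four_cases (wOf_card h.h₁.hK) (wOf_sq h.h₁.hK) hw hvW hw1 hv1 hvw hz with
        rfl | rfl | rfl | rfl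
      · exact one_mem _
      · exact mem_sup_right hwZ
      · exact mem_sup_left (mem_zpowers _)
      · exact mem_sup_right hwZ |> mul_mem (mem_sup_left (mem_zpowers _))
    have hkey : ∀ y ∈ zpowers x, ∀ a ∈ vOf T K, ∀ b ∈ vOf T K,
        a * (y * b * y⁻¹) = y * b * y⁻¹ * a := by
      have hz1 : ∀ y ∈ zpowers x, ∀ z ∈ zJ T, ∀ a ∈ vOf T K,
          a * (y * z * y⁻¹) = y * z * y⁻¹ * a := fun y hy z hz a ha =>
        omegaCenterOf_le_centralizer _
          (conj_mem_of_mem_normalizer (zpowers_le.2 hxV hy) (h.h₂.zJ_le_v hz)) a (h.hb ha)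
      have hxx : ∀ y ∈ zpowers x, Commute v (y * v * y⁻¹) := by
        intro y hy
        have hcard : Nat.card (zpowers x) = 3 := by
          rw [Nat.card_zpowers]
          exact orderOf_eq_prime (hp := ⟨Nat.prime_three⟩) (by rw [pow_three']; exact hx3)
            fun e => hxR (e ▸ one_mem _)
        rcases three_cases hcard (mem_zpowers x) (fun e => hxR (e ▸ one_mem _)) hy with
          rfl | rfl | rfl
        · simp
        · exact hcomm
        · have h' := hcomm.map (MulAut.conj x⁻¹).toMonoidHom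
          simp only [MulEquiv.coe_toMonoidHom, MulAut.conj_apply, inv_inv] at h'
          rw [show x⁻¹ * (x * v * x⁻¹) * x = v by group] at h'
          rw [inv_inv]
          exact h'.symm
      intro y hy a ha b hb
      have hle : vOf T K ≤ centralizer ({y * b * y⁻¹} : Set G) := by
        refine hgen.trans (sup_le (zpowers_le.2 (mem_centralizer_singleton_iff.2 ?_))
          fun z hz => mem_centralizer_singleton_iff.2 ?_)
        · have hle' : vOf T K ≤ (centralizer ({v} : Set G)).comap (MulAut.conj y).toMonoidHom :=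
            hgen.trans (sup_le (zpowers_le.2 (mem_centralizer_singleton_iff.2 (hxx y hy).eq.symm))
              fun z hz => mem_centralizer_singleton_iff.2
                (hz1 y hy z hz v (h.h₁.wOf_le_omega_qs hvW)).symm)
          exact (mem_centralizer_singleton_iff.1 (hle' hb)).symm
        · have hb' : b ∈ qsOf T K' := h.hb hb
          exact (omegaCenterOf_le_centralizer _ (h.h₂.zJ_le_v hz) _
            (conj_mem_of_mem_normalizer (zpowers_le.2 hxQ hy) hb')).symm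
      exact mem_centralizer_singleton_iff.1 (hle ha)
    obtain ⟨y', hy', t, ht, rfl⟩ := h.exists_decomp_Y hl hx hxR
    rw [h.v_eq] at ha hb
    obtain ⟨b', hb', rfl⟩ := hb
    show a * (y' * t * b' * (y' * t)⁻¹) = y' * t * b' * (y' * t)⁻¹ * a
    rw [show y' * t * b' * (y' * t)⁻¹ = y' * (t * b' * t⁻¹) * y'⁻¹ by group]
    exact hkey y' hy' a ha _ (conj_mem_of_mem_normalizer (h.h₁.normalizer_v (mem_sup_right ht)) hb')
  -- otherwise the squares give a common normal subgroup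
  exfalso
  obtain ⟨hwD, hsq⟩ := h.square_step hx hx3 hvW hv1 hw hw1 hwZ hvw hcomm
  suffices hX : X ≤ normalizer (sqOf (qsOf T K ⊓ qsOf T K') : Set G) by
    refine h.hne (h.h₁.toSide.eq_of_normalizes h.h₂.toSide
      (h.h₁.toSide.isPGroup.to_le ((sqOf_le _).trans (inf_le_left.trans inf_le_left)))
      (fun e => hw1 (mem_bot.1 (e ▸ hwD))) ((sup_le h.h₁.hKL h.h₁.toSide.thompson_le).trans hX) ?_)
    rw [← hsq]
    exact ((sup_le_sup_left (thompsonSubgroupOf_le 2 T) _).trans h.h₂.sup_le_normalizer_qs).trans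
      (normalizer_le_normalizer_sqOf _)
  obtain ⟨w₂, hw₂, hw₂1, hw₂Z, -, hw₂T, -, -⟩ := h.h₂.exists_w
  obtain ⟨u, hu⟩ : ∃ b, b = x * w₂ * x⁻¹ := ⟨_, rfl⟩
  have huW : u ∈ wOf K' := hu ▸
    conj_mem_of_mem_normalizer (normalizer_le_normalizer_wOf K' (Subgroup.le_normalizer hx)) hw₂
  have hu1 : u ≠ 1 := fun e => hw₂1 (by rwa [hu, mul_inv_eq_one, mul_eq_left] at e)
  have huw : u ≠ w₂ := fun e =>
    hw₂1 (wOf_fpf h.h₂.hK hx hxR hxo hw₂ (mul_inv_eq_iff_eq_mul.1 (hu ▸ e)))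
  have hXn : X ≤ normalizer (qsOf T K : Set G) := by
    rw [h.local_eq]; exact h.h₁.sup_le_normalizer_qs
  by_cases hcomm' : Commute u (y * u * y⁻¹)
  swap
  · obtain ⟨-, hsq'⟩ := h.symm.square_step hy hy3 huW hu1 hw₂ hw₂1 hw₂Z huw hcomm'
    rw [inf_comm, ← hsq']
    exact hXn.trans (normalizer_le_normalizer_sqOf _)
  -- `V_X V_Y` is normal in `X`
  set E := vOf T K ⊔ vOf T K' with hE
  have hyQ : y ∈ normalizer (qsOf T K : Set G) := h.h₁.sup_le_normalizer_qs (mem_sup_left hy)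
  have hyV : y ∈ normalizer (vOf T K : Set G) := normalizer_le_normalizer_omegaCenterOf _ hyQ
  have hyw₂ : y * w₂ * y⁻¹ = w₂ := mul_inv_eq_iff_eq_mul.2
    (mem_centralizer_iff.1 (h.symm.centre_cOf hw₂ hw₂Z hw₂1).2 y hy)
  have hgen' : vOf T K' ≤ zpowers u ⊔ zJ T := by
    rw [vOf, h.h₂.omega_qs_eq]
    refine sup_le (fun z hz => ?_) (inf_le_left.trans le_sup_right)
    rcases four_cases (wOf_card h.h₂.hK) (wOf_sq h.h₂.hK) hw₂ huW hw₂1 hu1 huw hz with
      rfl | rfl | rfl | rfl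
    · exact one_mem _
    · exact mem_sup_right hw₂Z
    · exact mem_sup_left (mem_zpowers _)
    · exact mem_sup_right hw₂Z |> mul_mem (mem_sup_left (mem_zpowers _))
  obtain ⟨p, hp⟩ : ∃ b, b = x * v * x⁻¹ := ⟨_, rfl⟩
  have hpQ : p ∈ qsOf T K' := hp ▸ conj_mem_of_mem_normalizer
    (h.h₂.sup_le_normalizer_qs (mem_sup_left hx)) (h.hb (h.h₁.wOf_le_omega_qs hvW))
  have hpn : p ∉ qsOf T K := fun e => hcomm (hp ▸ mem_centralizer_iff.1 (mem_inf.1 e).2 v hvW)
  have hpT : p ∈ T := (mem_inf.1 hpQ).1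
  obtain ⟨u', hu'⟩ : ∃ b, b = y * u * y⁻¹ := ⟨_, rfl⟩
  obtain ⟨u'', hu''⟩ : ∃ b, b = y * u' * y⁻¹ := ⟨_, rfl⟩
  have hu3 : y⁻¹ * u * y = u'' := by
    calc y⁻¹ * u * y = y⁻¹ * ((y * y * y) * u * (y * y * y)⁻¹) * y := by rw [hy3]; group
      _ = u'' := by rw [hu'', hu']; group
  have huQ : u ∈ qsOf T K := h.symm.hb (h.h₂.wOf_le_omega_qs huW)
  have hu'Q : u' ∈ qsOf T K := hu' ▸ conj_mem_of_mem_normalizer hyQ huQ
  have hu'2 : u' ∈ qsOf T K' := by
    refine mem_inf.2 ⟨(mem_inf.1 hu'Q).1, mem_centralizer_iff.2 fun z hz => ?_⟩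
    exact (mul_inv_eq_iff_eq_mul.1 (four_neighbours
      (mul_inv_eq_iff_eq_mul.2 (hu' ▸ hcomm'.symm).eq) (hw₂T u' (mem_inf.1 hu'Q).1)
      (four_cases (wOf_card h.h₂.hK) (wOf_sq h.h₂.hK) hw₂ huW hw₂1 hu1 huw hz))).symm
  have hzE : zJ T ≤ vOf T K := h.h₁.zJ_le_v
  have hxw' : x * w * x⁻¹ = w :=
    mul_inv_eq_iff_eq_mul.2 (mem_centralizer_iff.1 (h.centre_cOf hw hwZ hw1).2 x hx)
  -- `p` moves `u'` by an element of `zJ`
  have hpu' : ∃ z ∈ zJ T, p * u' * p⁻¹ = z * u' := by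
    have h' : x⁻¹ * u' * x ∈ qsOf T K' := conj_inv_mem_of_mem_normalizer
      (h.h₂.sup_le_normalizer_qs (mem_sup_left hx)) hu'2
    have e0 : u' * p * u'⁻¹ = x * ((x⁻¹ * u' * x) * v * (x⁻¹ * u' * x)⁻¹) * x⁻¹ := by
      rw [hp]; group
    rcases h.h₁.eq_or_eq_mul hw hw1 hwT (mem_inf.1 h').1 hvW with e | e <;> rw [e] at e0
    · refine ⟨1, one_mem _, ?_⟩
      rw [← hp] at e0
      rw [one_mul, mul_inv_eq_iff_eq_mul]
      exact (mul_inv_eq_iff_eq_mul.1 e0).symm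
    · refine ⟨w⁻¹, inv_mem hwZ, ?_⟩
      have e1 : u' * p * u'⁻¹ = p * w := by
        rw [e0, hp]
        calc x * (v * w) * x⁻¹ = x * v * x⁻¹ * (x * w * x⁻¹) := by group
          _ = x * v * x⁻¹ * w := by rw [hxw']
      calc p * u' * p⁻¹ = w⁻¹ * (w * p) * u' * p⁻¹ := by group
        _ = w⁻¹ * (p * w) * u' * p⁻¹ := by rw [mul_inv_eq_iff_eq_mul.1 (hwT p hpT)]
        _ = w⁻¹ * u' := by rw [← e1]; group
  obtain ⟨z₀, hz₀, hpz⟩ := hpu'
  have hk : p * y * p⁻¹ * y ∈ qsOf T K :=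
    h.h₁.coreLocal_le_qs (h.h₁.componentCore_le (h.h₁.conj_mul_mem_core hpT hpn hy hyR hyo))
  obtain ⟨z₁, hz₁, hpu''⟩ : ∃ z ∈ zJ T, p * u' * p⁻¹ = z * u'' := by
    set k := p * y * p⁻¹ * y with hkdef
    have hk' : y * k * y⁻¹ ∈ qsOf T K := conj_mem_of_mem_normalizer hyQ hk
    obtain ⟨z, hz, e1⟩ : ∃ z ∈ zJ T, p * u * p⁻¹ = z * u := by
      rcases h.h₂.eq_or_eq_mul hw₂ hw₂1 hw₂T hpT huW with e | e
      · exact ⟨1, one_mem _, by rw [one_mul]; exact e⟩
      · exact ⟨w₂, hw₂Z, by rw [e, commute_of_mem (wOf_elem h.h₂.hK) huW hw₂]⟩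
    obtain ⟨z', hz', e2⟩ : ∃ z ∈ zJ T, (y * k * y⁻¹) * u * (y * k * y⁻¹)⁻¹ = z * u := by
      rcases h.h₂.eq_or_eq_mul hw₂ hw₂1 hw₂T (mem_inf.1 hk').1 huW with e | e
      · exact ⟨1, one_mem _, by rw [one_mul]; exact e⟩
      · exact ⟨w₂, hw₂Z, by rw [e, commute_of_mem (wOf_elem h.h₂.hK) huW hw₂]⟩
    have hyz : ∀ z ∈ zJ T, ∀ k ∈ qsOf T K, k * (y⁻¹ * z * y) * k⁻¹ = y⁻¹ * z * y := fun z hz k hk =>
      mul_inv_eq_iff_eq_mul.2 (omegaCenterOf_le_centralizer _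
        (conj_inv_mem_of_mem_normalizer hyV (hzE hz)) k hk)
    have hfix : ∀ z ∈ zJ T, y * z * y⁻¹ = z → y⁻¹ * z * y = z := fun z _ e => by
      conv_lhs => rw [← e]
      group
    have hzz : ∀ z ∈ zJ T, ∀ g, (g = u → z * g = g * z) := fun z hz g hg => by
      rw [hg]; exact commute_of_mem (isElementaryAbelian_omegaCenterOf _) (h.h₂.zJ_le_v hz)
        (h.h₂.wOf_le_omega_qs huW)
    refine ⟨(k * (y⁻¹ * z * y) * k⁻¹) * (y⁻¹ * z' * y), ?_, ?_⟩
    · rw [hyz z hz k hk]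
      have hfw : ∀ z ∈ zJ T, (∃ t ∈ T, t * u * t⁻¹ = z * u) → y⁻¹ * z * y = z := by
        intro z hz ⟨t, ht, e⟩
        refine hfix z hz ?_
        rcases h.h₂.eq_or_eq_mul hw₂ hw₂1 hw₂T ht huW with e' | e' <;> rw [e] at e'
        · rw [mul_eq_right] at e'; rw [e']; group
        · rw [commute_of_mem (wOf_elem h.h₂.hK) huW hw₂, mul_left_inj] at e'
          rw [e']; exact hyw₂
      rw [hfw z hz ⟨p, hpT, e1⟩, hfw z' hz' ⟨_, (mem_inf.1 hk').1, e2⟩]
      exact mul_mem hz hz'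
    · rw [hu']
      calc p * (y * u * y⁻¹) * p⁻¹ = k * (y⁻¹ * (p * u * p⁻¹) * y) * k⁻¹ := by rw [hkdef]; group
        _ = (k * (y⁻¹ * z * y) * k⁻¹) * (y⁻¹ * ((y * k * y⁻¹) * u * (y * k * y⁻¹)⁻¹) * y) := by
          rw [e1]; group
        _ = (k * (y⁻¹ * z * y) * k⁻¹) * (y⁻¹ * z' * y) * u'' := by
          rw [e2, ← hu3]; group
  have hu'E : u' ∈ E := by
    have hzz : z₀⁻¹ * z₁ ∈ vOf T K := hzE (mul_mem (inv_mem hz₀) hz₁)
    have e : u' = (z₀⁻¹ * z₁) * u'' := by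
      rw [mul_assoc, ← hpu'', hpz, inv_mul_cancel_left]
    have e' : u'' = (y * (z₀⁻¹ * z₁) * y⁻¹) * u := by
      calc u'' = y * u' * y⁻¹ := hu''
        _ = y * ((z₀⁻¹ * z₁) * u'') * y⁻¹ := by rw [← e]
        _ = (y * (z₀⁻¹ * z₁) * y⁻¹) * (y * (y⁻¹ * u * y) * y⁻¹) := by rw [hu3]; group
        _ = _ := by group
    rw [e, e', ← mul_assoc]
    exact mul_mem_sup ((vOf T K).mul_mem hzz (conj_mem_of_mem_normalizer hyV hzz))
      (h.h₂.wOf_le_omega_qs huW)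
  have hET : T ≤ normalizer (E : Set G) := fun t ht =>
    mem_normalizer_sup (h.h₁.normalizer_v (mem_sup_right ht))
      (h.h₂.normalizer_v (mem_sup_right ht))
  have hyE : y ∈ normalizer (E : Set G) := by
    refine mem_normalizer_of_forall fun e he => ?_
    have hle : E ≤ E.comap (MulAut.conj y).toMonoidHom := by
      refine sup_le (fun a ha => mem_sup_left (conj_mem_of_mem_normalizer hyV ha)) ?_
      exact hgen'.trans (sup_le (zpowers_le.2 (show y * u * y⁻¹ ∈ E from hu' ▸ hu'E)) fun z hz =>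
        mem_sup_left (conj_mem_of_mem_normalizer hyV (hzE hz)))
    exact hle he
  have hEX : X ≤ normalizer (E : Set G) := by
    intro g hg
    obtain ⟨y', hy', t, ht, rfl⟩ := h.h₁.exists_decomp (h.local_eq ▸ hg) hy hyR
    exact mul_mem (zpowers_le.2 hyE hy') (hET ht)
  have hD : qsOf T K ⊓ qsOf T K' = qsOf T K ⊓ centralizer (E : Set G) := by
    refine le_antisymm (le_inf inf_le_left ?_) (le_inf inf_le_left ?_)
    · exact le_centralizer_iff.1 (sup_le
        (le_centralizer_iff.1 (inf_le_left.trans h.h₁.qs_le_centralizer_v))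
        (le_centralizer_iff.1 (inf_le_right.trans h.h₂.qs_le_centralizer_v)))
    · intro d hd
      exact h.h₂.mem_qs_of_centralizes (mem_inf.1 (mem_inf.1 hd).1).1
        (Subgroup.centralizer_le (le_sup_right : vOf T K' ≤ E) (mem_inf.1 hd).2)
  rw [hD]
  refine le_trans ?_ (normalizer_le_normalizer_sqOf _)
  intro g hg
  refine mem_normalizer_of_forall fun d hd => mem_inf.2
    ⟨conj_mem_of_mem_normalizer (hXn hg) (mem_inf.1 hd).1, mem_centralizer_iff.2 fun e he => ?_⟩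
  have he' := conj_inv_mem_of_mem_normalizer (hEX hg) he
  calc e * (g * d * g⁻¹) = g * ((g⁻¹ * e * g) * d) * g⁻¹ := by group
    _ = g * (d * (g⁻¹ * e * g)) * g⁻¹ := by rw [mem_centralizer_iff.1 (mem_inf.1 hd).2 _ he']
    _ = g * d * g⁻¹ * e := by group

end Bad

/-! ### Walks -/

/-- Adjacent local subgroups. -/
def Adj (X Y : Subgroup G) : Prop := ∃ T K K', Bad T X K Y K'

/-- Walks of a given length. -/
def Walk : ℕ → Subgroup G → Subgroup G → Prop
  | 0, X, Y => X = Y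
  | n + 1, X, Z => ∃ Y, Walk n X Y ∧ Adj Y Z

lemma Adj.symm {X Y : Subgroup G} (h : Adj X Y) : Adj Y X := by
  obtain ⟨T, K, K', h⟩ := h
  exact ⟨T, K', K, h.symm⟩

lemma Adj.conj {X Y : Subgroup G} (h : Adj X Y) (g : G) : Adj (MC[g] X) (MC[g] Y) := by
  obtain ⟨T, K, K', h⟩ := h
  exact ⟨_, _, _, h.conj g⟩

lemma Walk.conj {n : ℕ} {X Y : Subgroup G} (h : Walk n X Y) (g : G) :
    Walk n (MC[g] X) (MC[g] Y) := by
  induction n generalizing Y with
  | zero => exact congrArg _ h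
  | succ n ih =>
    obtain ⟨Z, hZ, hA⟩ := h
    exact ⟨_, ih hZ, hA.conj g⟩

omit [Finite G] in
lemma Walk.append {n m : ℕ} {X Y Z : Subgroup G} (h : Walk n X Y) (h' : Walk m Y Z) :
    Walk (n + m) X Z := by
  induction m generalizing Z with
  | zero => exact (h' : Y = Z) ▸ h
  | succ m ih =>
    obtain ⟨Z', hZ', hA⟩ := h'
    exact ⟨Z', ih hZ', hA⟩

lemma Walk.reverse {n : ℕ} {X Y : Subgroup G} (h : Walk n X Y) : Walk n Y X := by
  induction n generalizing Y with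
  | zero => exact (h : X = Y).symm
  | succ n ih =>
    obtain ⟨Z, hZ, hA⟩ := h
    have h' : Walk (1 + n) Y X := Walk.append (Y := Z) ⟨Y, rfl, hA.symm⟩ (ih hZ)
    rwa [Nat.add_comm] at h'

omit [Finite G] in
lemma Walk.head {n : ℕ} {X Z : Subgroup G} (h : Walk (n + 1) X Z) :
    ∃ Y, Adj X Y ∧ Walk n Y Z := by
  induction n generalizing Z with
  | zero =>
    obtain ⟨Y, (rfl : X = Y), hA⟩ := h
    exact ⟨Z, hA, rfl⟩
  | succ n ih =>
    obtain ⟨Y, hY, hA⟩ := h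
    obtain ⟨Y', hA', hW⟩ := ih hY
    exact ⟨Y', hA', Y, hW, hA⟩

/-- Walks shorter than `b` give containment in the core. -/
lemma Walk.le_core {b : ℕ}
    (hcomm : ∀ n < b, ∀ X Y : Subgroup G, Walk n X Y → ∀ x ∈ lV X, ∀ y ∈ lV Y, x * y = y * x)
    {m : ℕ} (hm : m + 1 < b) {X Z : Subgroup G} (h : Walk (m + 1) X Z) :
    lV X ≤ pCoreOf 2 Z := by
  induction m generalizing Z with
  | zero =>
    obtain ⟨Y, (rfl : X = Y), T, K, K', hA⟩ := h
    exact hA.lV_le_core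
  | succ m ih =>
    obtain ⟨Y, hY, T, K, K', hA⟩ := h
    intro v hv
    have h1 := ih (by omega) hY hv
    have hvT : v ∈ T := hA.h₁.core_le h1
    exact hA.symm.mem_core_of_centralizes hvT fun y hy =>
      hcomm (m + 2) hm X Z ⟨Y, hY, T, K, K', hA⟩ v hv y hy

theorem walk_commute {b : ℕ} {X Y : Subgroup G} (h : Walk b X Y) {v t : G} (hv : v ∈ lV X)
    (ht : t ∈ lV Y) : v * t = t * v := by
  induction b using Nat.strong_induction_on generalizing X Y v t with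
  | _ b ih =>
  have hcomm : ∀ n < b, ∀ X Y : Subgroup G, Walk n X Y → ∀ x ∈ lV X, ∀ y ∈ lV Y, x * y = y * x :=
    fun n hn X Y hW x hx y hy => ih n hn hW hx hy
  match b, h with
  | 0, h =>
    obtain rfl : X = Y := h
    exact commute_of_mem (isElementaryAbelian_omegaCenterOf _) hv ht
  | 1, h =>
    obtain ⟨Z, (rfl : X = Z), T, K, K', hA⟩ := h
    exact (omegaCenterOf_le_centralizer _ ht v (hA.lV_le_core hv))
  | 2, h =>
    obtain ⟨Y₁, hA₀, hW⟩ := Walk.head h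
    obtain ⟨Y₁', (rfl : Y₁ = Y₁'), hA⟩ := hW
    obtain ⟨T, K, K', hb⟩ := hA₀
    obtain ⟨T', K₁, K₂, hb'⟩ := hA
    by_cases hXY : X = Y
    · subst hXY
      exact commute_of_mem (isElementaryAbelian_omegaCenterOf _) hv ht
    obtain ⟨l, hl, e⟩ := exists_conj_eq hb.h₂.hLT.1 hb'.h₁.hLT.1
    have hb'' := hb'.conj l
    rw [e, show MC[l] Y₁ = Y₁ from mem_normalizer_iff_map_conj_eq.1 (Subgroup.le_normalizer hl)]
      at hb''
    have hY : MC[l] Y = X := hb.exact hb''.h₂.toSide hb''.hne.symm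
    refine hb.no_two (Y₁.inv_mem hl) hv ?_
    have : lV Y = MC[l⁻¹] (lV X) := by
      rw [← hY, lV, lV, ← LargeSubgroups.map_conj_pCoreOf,
        ← map_omegaCenterOf (MulAut.conj l).injective, CfsgLib.FFModules.map_conj_inv_map]
    exact this ▸ ht
  | (n + 3), h =>
    by_contra hne
    obtain ⟨X₁, hA₀, hW⟩ := Walk.head h
    obtain ⟨Xb, hWb, hAb⟩ := h
    obtain ⟨T, K, K', hb⟩ := hA₀
    obtain ⟨T', K₁, K₂, hb'⟩ := hAb
    have h1 : lV X ≤ pCoreOf 2 Xb := Walk.le_core hcomm (m := n + 1) (by omega) hWb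
    have h2 : lV Y ≤ pCoreOf 2 X₁ := Walk.le_core hcomm (m := n + 1) (by omega) (Walk.reverse hW)
    have htT : t ∈ T := hb.h₂.core_le (h2 ht)
    have hvT : v ∈ T' := hb'.h₁.core_le (h1 hv)
    have hneq : t * v * t⁻¹ ≠ v := fun e => hne (mul_inv_eq_iff_eq_mul.1 e).symm
    have e1 := hb.commutator_centralizer hv (hb.inf_eq.symm ▸ htT) hneq
    have hneq' : v * t * v⁻¹ ≠ t := fun e => hne (mul_inv_eq_iff_eq_mul.1 e)
    have e2 := hb'.symm.commutator_centralizer ht (hb'.symm.inf_eq.symm ▸ hvT) hneq'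
    have hinv : (t * v * t⁻¹ * v⁻¹)⁻¹ = v * t * v⁻¹ * t⁻¹ := by group
    have e3 : centralizer ({t * v * t⁻¹ * v⁻¹} : Set G) =
        centralizer ({v * t * v⁻¹ * t⁻¹} : Set G) := by
      ext g
      rw [mem_centralizer_singleton_iff, mem_centralizer_singleton_iff, ← hinv]
      exact ⟨fun h => (show Commute g _ from h).inv_right.eq, fun h => by
        have h' := (show Commute g _ from h).inv_right.eq
        rwa [inv_inv] at h'⟩
    rw [e1, e2] at e3
    subst e3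
    have hW2 : Walk 2 X Y := ⟨X₁, ⟨X, rfl, T, K, K', hb⟩, T', K₁, K₂, hb'⟩
    exact hne (ih 2 (by omega) hW2 hv ht)

/-- **The modules of two sides never commute.** -/
theorem not_v_le_qs {T L₁ K₁ L₂ K₂ : Subgroup G} (h₁ : FSide T L₁ K₁) (h₂ : FSide T L₂ K₂)
    (hne : L₁ ≠ L₂) : ¬ vOf T K₁ ≤ qsOf T K₂ := by
  intro hb
  have hbad : Bad T L₁ K₁ L₂ K₂ := ⟨h₁, h₂, hne, hb⟩
  set S : Set G := {y | ∃ X n, Walk n L₁ X ∧ y ∈ lV X} with hS
  have hel : IsElementaryAbelian 2 (closure S) := by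
    refine isElementaryAbelian_closure ?_ ?_
    · rintro a ⟨X, n, hX, ha⟩ b ⟨Y, m, hY, hb⟩
      exact walk_commute (Walk.append (Walk.reverse hX) hY) ha hb
    · rintro a ⟨X, n, -, ha⟩
      exact mul_self_of_mem (isElementaryAbelian_omegaCenterOf _) ha
  have hclosed : ∀ g : G, (∀ X n, Walk n L₁ X → ∃ m, Walk m L₁ (MC[g] X)) →
      g ∈ normalizer (closure S : Set G) := by
    intro g hg
    refine mem_normalizer_of_forall fun y hy => ?_
    induction hy using closure_induction with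
    | mem y hy =>
      obtain ⟨X, n, hX, hy⟩ := hy
      obtain ⟨m, hm⟩ := hg X n hX
      refine subset_closure ⟨MC[g] X, m, hm, ?_⟩
      rw [lV, ← LargeSubgroups.map_conj_pCoreOf, ← map_omegaCenterOf (MulAut.conj g).injective]
      exact ⟨y, hy, rfl⟩
    | one => simp
    | mul a b _ _ iha ihb => simpa [mul_assoc] using mul_mem iha ihb
    | inv a _ ih => simpa [mul_assoc] using inv_mem ih
  have hN₁ : L₁ ≤ normalizer (closure S : Set G) := fun g hg => hclosed g fun X n hX => by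
    have h' := hX.conj g
    rw [show MC[g] L₁ = L₁ from mem_normalizer_iff_map_conj_eq.1 (Subgroup.le_normalizer hg)] at h'
    exact ⟨n, h'⟩
  have hA : Adj L₁ L₂ := ⟨T, K₁, K₂, hbad⟩
  have hN₂ : L₂ ≤ normalizer (closure S : Set G) := fun g hg => hclosed g fun X n hX => by
    have h' : Walk (1 + n) L₂ X := Walk.append (Y := L₁) ⟨L₂, rfl, hA.symm⟩ hX
    have h'' := h'.conj g
    rw [show MC[g] L₂ = L₂ from mem_normalizer_iff_map_conj_eq.1 (Subgroup.le_normalizer hg)] at h''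
    exact ⟨1 + (1 + n), Walk.append (Y := L₂) ⟨L₁, rfl, hA⟩ h''⟩
  refine hne (h₁.toSide.eq_of_normalizes h₂.toSide (isPGroup_of_isElementaryAbelian hel) ?_
    ((sup_le h₁.hKL h₁.toSide.thompson_le).trans hN₁)
    ((sup_le h₂.hKL h₂.toSide.thompson_le).trans hN₂))
  intro e
  obtain ⟨w, hw, hw1, -⟩ := h₁.exists_w
  exact hw1 (mem_bot.1 (e ▸ subset_closure ⟨L₁, 0, rfl, h₁.wOf_le_local hw⟩))

end CfsgLib.JComponents
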