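import Cfsg.Agent.Lib.JComponents.LocalComp
import Cfsg.Agent.Lib.JComponents.Conj

/-!
The components in `jComponentsZero T`: `N_G(W_K) = N_G(K)`.
-/

set_option autoImplicit false

open scoped IsMulCommutative

namespace CfsgLib.JComponents

open Cfsg CfsgLib.ThompsonJ Subgroup

variable {G : Type*} [Group G] [Finite G]

local notation "MC[" g "]" => Subgroup.map (MulEquiv.toMonoidHom (MulAut.conj g))

/-- A 2-local subgroup contains the centraliser of its 2-core in it. -/
lemma centralizer_core_le_of_twoLocal (hc : IsCharacteristicTwoType G) {N : Subgroup G}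
    (hN : IsTwoLocal N) : centralizer (pCoreOf 2 N : Set G) ≤ pCoreOf 2 N := by
  obtain ⟨P, hP, hP1, rfl⟩ := hN
  intro c hcc
  have hPN : P ≤ pCoreOf 2 (normalizer (P : Set G)) :=
    CfsgLib.FFModules.le_pCoreOf le_normalizer le_rfl hP
  have hcN : c ∈ normalizer (P : Set G) :=
    centralizer_le_normalizer _ (centralizer_le hPN hcc)
  refine ⟨⟨c, hcN⟩, hc.2 P hP hP1 (mem_centralizer_iff.2 fun y hy => ?_), rfl⟩
  exact Subtype.ext (mem_centralizer_iff.1 hcc y ⟨y, hy, rfl⟩)

omit [Finite G] in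
lemma IsJComponent.congr {T S K : Subgroup G} (hK : IsJComponent T K)
    (h : thompsonSubgroupOf 2 S = thompsonSubgroupOf 2 T) : IsJComponent S K := by
  refine ⟨hK.1, ?_, hK.2.2.1, ?_, hK.2.2.2.2.1, hK.2.2.2.2.2⟩
  · rw [h]; exact hK.2.1
  · rw [h]; exact hK.2.2.2.1

/-- A conjugate of `J(T)` inside a 2-group with the same Thompson subgroup is `J(T)`. -/
lemma thompson_eq_of_map_le {T S : Subgroup G}
    (h : thompsonSubgroupOf 2 S = thompsonSubgroupOf 2 T) {g : G}
    (hle : MC[g] (thompsonSubgroupOf 2 T) ≤ S) :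
    MC[g] (thompsonSubgroupOf 2 T) = thompsonSubgroupOf 2 T := by
  refine eq_of_le_of_card_ge ?_ (card_map_of_injective (MulAut.conj g).injective).ge
  rw [map_le_iff_le_comap]
  refine thompsonSubgroupOf_le_iff.2 fun A hA => ?_
  rw [← map_le_iff_le_comap, ← h]
  refine le_thompsonSubgroupOf
    ⟨(map_mono (le_thompsonSubgroupOf hA)).trans hle, isElementaryAbelian_map hA.elem _,
      fun B hB hBe => ?_⟩
  rw [card_map_of_injective (MulAut.conj g).injective]
  exact ((isMaxEA_iff_of_eq h).2 hA).card_le B hB hBe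

section

variable {T L : Subgroup G} (hZN : ZN G) (hT : IsPGroup 2 T) (hT1 : T ≠ ⊥)
  (hL : L ∈ jOvergroups T)
include hZN hT hT1 hL

/-- An element of `L` normalising `W_K` normalises `K`. -/
theorem mem_normalizer_of_mem_normalizer_wOf {K : Subgroup G} (hK : IsJComponent T K) (hKL : K ≤ L)
    {g : G} (hgL : g ∈ L) (hg : g ∈ normalizer (wOf K : Set G)) :
    g ∈ normalizer (K : Set G) := by
  have hS := liftSetting hZN hT hT1 hL
  obtain ⟨s, u, hsJ, hs, rfl⟩ := exists_comp_eq hZN hT hT1 hL hK hKL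
  set q := QuotientGroup.mk' (pCore 2 ↥L) with hq
  set g' : ↥L := ⟨g, hgL⟩
  have hs' := hs.conj hS (q g')
  have hcl : q g' * s * (q g')⁻¹ ∈ lcl (fittingSubgroup ↥(actL L).range) (proj L) s := by
    by_contra hcl
    obtain ⟨t, ht, hne, w₁, ht₁, -⟩ := exists_lpartner hS hs
    have heE : s * t ∈ cE L s := subset_closure ⟨s, self_mem_lcl hS hs.1, t, ht, rfl⟩
    obtain ⟨x, hxK, hx3, hxo, hxe⟩ := exists_preimage hZN hT hT1 hL hs heE
    have hxR : (x : G) ∉ pCoreOf 2 (comp L s) := fun h => by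
      rw [pCoreOf_comp hZN hT hT1 hL hs] at h
      exact hne ((eq_inv_of_mul_eq_one_right (hxe.symm.trans (mk_eq_one_iff.2 h.2))).trans
        (inv_eq_of_sq hs.1))
    have hcomm : Commute (s * t) (q g' * s * (q g')⁻¹) := by
      refine (commute_of_not_mem_lcl hS hs hs' hcl).mul_left
        (commute_of_not_mem_lcl hS ht₁ hs' ?_)
      rwa [lcl_eq_of_mem hS ht]
    have h := hs'.conj hS (s * t)
    rw [hcomm.eq, mul_inv_cancel_right] at h
    have hfix := congrArg Subtype.val (hs'.2.unique h.2)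
    have hact : ∀ (y : ↥L) (v : ↥(omegaCenterOf (pCoreOf 2 L))),
        ((proj L (q y) • v : ↥(omegaCenterOf (pCoreOf 2 L))) : G) = (y : G) * v * (y : G)⁻¹ :=
      fun y v => smul_coe y v
    rw [← hxe, hact x, hact g'] at hfix
    have hgu : g * (u : G) * g⁻¹ ∈ wOf (comp L s) :=
      conj_mem_of_mem_normalizer hg (center_mem_wOf hZN hT hT1 hL hsJ hs)
    have hu := wOf_fpf hK hxK hxR hxo hgu (mul_inv_eq_iff_eq_mul.1 hfix.symm)
    rw [mul_inv_eq_one, mul_eq_left] at hu
    exact hs.2.ne_one (Subtype.ext hu)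
  refine mem_normalizer_of_forall fun y hy => ?_
  induction hy using closure_induction with
  | mem y hy =>
    obtain ⟨hyL, hy'⟩ := mem_pre.1 hy.1
    refine mem_oddGen (mem_pre.2 ⟨(g' * ⟨y, hyL⟩ * g'⁻¹ : ↥L).2, ?_⟩) ?_
    · show q (g' * ⟨y, hyL⟩ * g'⁻¹) ∈ cE L s
      rw [cE, ← lE_congr hS hcl, map_mul, map_mul, map_inv]
      generalize hz : q ⟨y, hyL⟩ = z
      have hy'' : z ∈ cE L s := hz ▸ hy'
      clear hy' hz
      induction hy'' using closure_induction with
      | mem z hz =>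
        obtain ⟨p, hp, r, hr, rfl⟩ := hz
        exact subset_closure ⟨_, conj_lcl hS hs _ hp, _, conj_lcl hS hs _ hr, by group⟩
      | one => simp
      | mul a b _ _ iha ihb => simpa [mul_assoc] using mul_mem iha ihb
      | inv a _ ih => simpa [mul_assoc] using inv_mem ih
    · rw [← MulAut.conj_apply, MulEquiv.orderOf_eq]
      exact hy.2
  | one => simp
  | mul a b _ _ iha ihb => simpa [mul_assoc] using mul_mem iha ihb
  | inv a _ ih => simpa [mul_assoc] using inv_mem ih

end

section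

variable {T K : Subgroup G} (hZN : ZN G) (hT : IsPGroup 2 T)
include hZN hT

omit hT in
lemma wOf_normalizer_isTwoLocal (hK : IsJComponent T K) :
    IsTwoLocal (normalizer (wOf K : Set G)) := by
  refine ⟨wOf K, isPGroup_of_isElementaryAbelian (wOf_elem hK), fun h => ?_, rfl⟩
  have := wOf_card hK
  rw [h, card_bot] at this
  omega

omit hT hZN in
/-- The 2-core of `N_G(W_K)` centralises `W_K`. -/
lemma core_normalizer_centralizes (hK : IsJComponent T K) :
    pCoreOf 2 (normalizer (wOf K : Set G)) ≤ centralizer (wOf K : Set G) := by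
  set W := wOf K with hW
  set N := normalizer (W : Set G) with hN
  obtain ⟨x, hx, hxR, hxo⟩ := comp_exists_odd hK
  have hxN : x ∈ N := normalizer_le_normalizer_wOf K (le_normalizer hx)
  have hW1 : W ≠ ⊥ := fun h => by
    have := wOf_card hK
    rw [← hW, h, card_bot] at this
    omega
  obtain ⟨w, hw, hw1, hwf⟩ := exists_fixed_ne_one (isPGroup_of_isElementaryAbelian (wOf_elem hK))
    hW1 (CfsgLib.FFModules.isPGroup_pCoreOf N) (CfsgLib.FFModules.pCoreOf_le N)
  have hwf' : ∀ c ∈ pCoreOf 2 N, c * (x * w * x⁻¹) = x * w * x⁻¹ * c := fun c hc => by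
    have h := hwf _ (conj_inv_mem_of_mem_normalizer
      (CfsgLib.FFModules.le_normalizer_pCoreOf N hxN) hc)
    calc c * (x * w * x⁻¹) = x * ((x⁻¹ * c * x) * w) * x⁻¹ := by group
      _ = x * (w * (x⁻¹ * c * x)) * x⁻¹ := by rw [h]
      _ = x * w * x⁻¹ * c := by group
  have hxw1 : x * w * x⁻¹ ≠ 1 := fun h => hw1 (by rwa [mul_inv_eq_one, mul_eq_left] at h)
  have hxww : x * w * x⁻¹ ≠ w := fun h =>
    hw1 (wOf_fpf hK hx hxR hxo hw (mul_inv_eq_iff_eq_mul.1 h))
  intro c hc
  refine mem_centralizer_iff.2 fun v hv => ?_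
  rcases four_cases (wOf_card hK) (wOf_sq hK) hw (conj_mem_of_mem_normalizer hxN hw) hw1 hxw1 hxww
    hv with rfl | rfl | rfl | rfl
  · simp
  · exact (hwf c hc).symm
  · exact (hwf' c hc).symm
  · exact ((Commute.mul_right (show Commute c _ from hwf' c hc) (hwf c hc)).eq).symm

/-- The normaliser of `W_K` as a member of `jOvergroups`. -/
theorem zero_local (hK : K ∈ jComponentsZero T) :
    ∃ S : Subgroup G, IsPGroup 2 ↥S ∧ S ≠ ⊥ ∧ thompsonSubgroupOf 2 T ≤ S ∧
      thompsonSubgroupOf 2 S = thompsonSubgroupOf 2 T ∧ IsJComponent S K ∧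
      normalizer (wOf K : Set G) ∈ jOvergroups S := by
  obtain ⟨hK, hz⟩ := hK
  set J := thompsonSubgroupOf 2 T with hJ
  set N := normalizer (wOf K : Set G) with hN
  have hJN : J ≤ N := (comp_le_normalizer hK).trans (normalizer_le_normalizer_wOf K)
  obtain ⟨S, hS, hJS⟩ := exists_isSylowTwoIn_ge hJN (isPGroup_thompson hK hT)
  have hJS' := hz S hJS hS
  obtain ⟨w, -, -, -, -, -, ⟨A, hA, hAC⟩, -⟩ := comp_max hK hT
  have hJ1 : ¬ J ≤ pCoreOf 2 N := fun h =>
    hAC (((le_thompsonSubgroupOf hA).trans h).trans (core_normalizer_centralizes hK))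
  refine ⟨S, hS.2.1, fun h => hJ1 ((h ▸ hJS).trans bot_le), hJS, hJS',
    IsJComponent.congr hK hJS', hS, ?_,
    centralizer_core_le_of_twoLocal hZN.char2 (wOf_normalizer_isTwoLocal hZN hK)⟩
  rwa [hJS']

theorem zero_normalizer_eq (hK : K ∈ jComponentsZero T) :
    normalizer (K : Set G) = normalizer (wOf K : Set G) := by
  obtain ⟨S, hS, hS1, -, -, hKS, hL⟩ := zero_local hZN hT hK
  exact le_antisymm (normalizer_le_normalizer_wOf K) fun g hg =>
    mem_normalizer_of_mem_normalizer_wOf hZN hS hS1 hL hKS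
      (le_normalizer.trans (normalizer_le_normalizer_wOf K)) hg hg

theorem zero_conj (hK : K ∈ jComponentsZero T) (g : G)
    (hg : thompsonSubgroupOf 2 (MC[g] T) ≤ normalizer (wOf K : Set G)) :
    IsJComponent (MC[g] T) K := by
  obtain ⟨S, -, -, -, hJS, -, hL⟩ := zero_local hZN hT hK
  obtain ⟨x, hx, hle⟩ := exists_conj_le hL.1 hg (by
    rw [thompson_conj]; exact (isPGroup_thompson hK.1 hT).map _)
  rw [thompson_conj, ← CfsgLib.FFModules.map_conj_mul] at hle
  have h := thompson_eq_of_map_le hJS hle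
  have hxK : x⁻¹ ∈ normalizer (K : Set G) :=
    inv_mem (zero_normalizer_eq hZN hT hK ▸ hx : x ∈ normalizer (K : Set G))
  have hK' := IsJComponent_conj hK.1 x⁻¹
  rw [show MC[x⁻¹] K = K from mem_normalizer_iff_map_conj_eq.1 hxK] at hK'
  refine IsJComponent.congr hK' ?_
  rw [thompson_conj, thompson_conj]
  conv_rhs => rw [← h, ← CfsgLib.FFModules.map_conj_mul, inv_mul_cancel_left]

end

end CfsgLib.JComponents
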